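import Cfsg.Agent.H5.U.Frame3

/-! Stabilisers of orthonormal frames: the dihedral argument and the conclusion. -/

set_option autoImplicit false
set_option linter.unusedSimpArgs false
set_option linter.unusedSectionVars false
set_option linter.unusedVariables false

namespace Cfsg.Agent.H5.U

open Module H6

variable {F : Type*} {V : Type*} [Field F] [StarRing F] [AddCommGroup V] [Module F V]
  [NStar F] [Finite F] [FiniteDimensional F V]

namespace HF

variable {h : HF F V} {M : Subgroup (V ≃ₗ[F] V)} {ι : Type*} [Fintype ι] [DecidableEq ι]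
  {b : ι → V}

/-- `s` moves vectors inside a plane -/
def Rk2 (s : V ≃ₗ[F] V) : Prop := ∃ u v : V, ∀ w, w - s w ∈ Submodule.span F {u, v}

theorem Rk2.conj {s : V ≃ₗ[F] V} (hs : Rk2 s) (x : V ≃ₗ[F] V) : Rk2 (x * s * x⁻¹) := by
  obtain ⟨u, v, huv⟩ := hs
  refine ⟨x u, x v, fun w => ?_⟩
  obtain ⟨c, d, hcd⟩ := Submodule.mem_span_pair.1 (huv (x⁻¹ w))
  refine Submodule.mem_span_pair.2 ⟨c, d, ?_⟩
  rw [← map_smul, ← map_smul, ← map_add, hcd, map_sub, apply_inv_apply]; rfl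

theorem ONB.exists_two_fixed (hb : h.ONB b) (h6 : 6 ≤ Fintype.card ι) {y : V ≃ₗ[F] V}
    (hy : Mono b y) (hr : Rk2 y) : ∃ p q, p ≠ q ∧ y (b p) = b p ∧ y (b q) = b q := by
  by_contra! h'
  obtain ⟨u, v, huv⟩ := hr
  choose σ c hσ using hy
  obtain ⟨f, hf⟩ : ∃ f, ∀ p, p ≠ f → y (b p) ≠ b p := by
    by_cases h0 : ∃ f, y (b f) = b f
    · obtain ⟨f, hf⟩ := h0
      exact ⟨f, fun p hp h1 => h' p f hp h1 hf⟩
    · push Not at h0
      obtain ⟨f, -⟩ := exists_not_mem_list ([] : List ι) (by simp; omega)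
      exact ⟨f, fun p _ => h0 p⟩
  obtain ⟨p₁, h1⟩ := exists_not_mem_list [f] (by simp; omega)
  obtain ⟨p₂, h2⟩ := exists_not_mem_list [f, p₁, σ p₁] (by simp; omega)
  obtain ⟨p₃, h3⟩ := exists_not_mem_list [f, p₁, σ p₁, p₂, σ p₂] (by simp; omega)
  simp only [List.mem_cons, List.not_mem_nil, or_false, not_or] at h1 h2 h3
  have hd : ∀ p, p ≠ f → h (b p - y (b p)) (b p) ≠ 0 := by
    intro p hp h0
    rw [hσ, sub_left, smul_left, hb.self] at h0
    by_cases h1 : σ p = p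
    · apply hf p hp
      rw [h1, hb.self] at h0
      rw [hσ, h1, show c p = 1 by linear_combination -h0, one_smul]
    · rw [hb.ne h1] at h0; simp at h0
  have ho : ∀ p q, q ≠ p → q ≠ σ p → h (b p - y (b p)) (b q) = 0 := by
    intro p q h1 h2
    rw [hσ, sub_left, smul_left, hb.ne h1.symm, hb.ne h2.symm]; simp
  have hli : LinearIndependent F ![b p₁ - y (b p₁), b p₂ - y (b p₂), b p₃ - y (b p₃)] := by
    rw [Fintype.linearIndependent_iff]
    intro d hd0
    rw [Fin.sum_univ_three] at hd0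
    simp only [Matrix.cons_val_zero, Matrix.cons_val_one, Matrix.cons_val] at hd0
    have e3 := congrArg (fun x => h x (b p₃)) hd0
    simp only [add_left, smul_left, ho p₁ p₃ h3.2.1 h3.2.2.1, ho p₂ p₃ h3.2.2.2.1 h3.2.2.2.2,
      zero_left, mul_zero, zero_add, mul_eq_zero, hd p₃ h3.1, or_false] at e3
    have e2 := congrArg (fun x => h x (b p₂)) hd0
    simp only [add_left, smul_left, ho p₁ p₂ h2.2.1 h2.2.2, e3, zero_mul, add_zero,
      zero_left, mul_zero, zero_add, mul_eq_zero, hd p₂ h2.1, or_false] at e2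
    have e1 := congrArg (fun x => h x (b p₁)) hd0
    simp only [add_left, smul_left, e2, e3, zero_mul, add_zero,
      zero_left, mul_zero, zero_add, mul_eq_zero, hd p₁ h1, or_false] at e1
    intro i; fin_cases i <;> simp [e1, e2, e3]
  have h4 := finrank_span_eq_card hli
  have h5 := Submodule.finrank_mono (Submodule.span_le.2 (show Set.range
    ![b p₁ - y (b p₁), b p₂ - y (b p₂), b p₃ - y (b p₃)] ⊆ Submodule.span F {u, v} by
      rintro _ ⟨i, rfl⟩; fin_cases i <;> exact huv _))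
  have := finrank_span_pair_le (F := F) u v
  simp at h4; omega

theorem perp_of_opp (h2 : (2 : F) ≠ 0) {z : V ≃ₗ[F] V} (hz : z ∈ h.GU) {u v : V} (hu : z u = u)
    (hv : z v = -v) : h u v = 0 := by
  have := hz u v
  rw [hu, hv, neg_right] at this
  exact mul_left_cancel₀ h2 (by linear_combination -this)

theorem Fr.mono_of_conj (f : h.Fr b M) (h2 : (2 : F) ≠ 0) (h6 : 6 ≤ Fintype.card ι) (hB : Bad b M)
    {x s : V ≃ₗ[F] V} (hx : x ∈ M) (hs : s ∈ h.GU) (hr : Rk2 s) {k : ι} (hk : s (b k) = -b k)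
    (hm : Mono b (x * s * x⁻¹)) : Mono b x := by
  obtain ⟨p, q, hpq, hp, hq⟩ := f.onb.exists_two_fixed h6 hm (hr.conj x)
  have key : ∀ p, (x * s * x⁻¹) (b p) = b p → h (x⁻¹ (b p)) (b k) = 0 := fun p hp =>
    perp_of_opp h2 hs (x.injective (by rw [apply_inv_apply]; exact hp)) hk
  have := f.onb.mono_inv (f.mono_of_perp h2 (by omega) hB (M.inv_mem hx) hpq (key p hp) (key q hq))
  rwa [inv_inv] at this

theorem Fr.mono_of_comm (f : h.Fr b M) (h2 : (2 : F) ≠ 0) (h6 : 6 ≤ Fintype.card ι) (hB : Bad b M)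
    {x s : V ≃ₗ[F] V} (hx : x ∈ M) (hs : s ∈ h.GU) {i j k : ι} (hij : i ≠ j) (hi : s (b i) = b i)
    (hj : s (b j) = b j) (hk : s (b k) = -b k) (hc : s * x = x * s) : Mono b x := by
  have key : ∀ p, s (b p) = b p → h (x (b p)) (b k) = 0 := fun p hp =>
    perp_of_opp h2 hs (by rw [← mul_app, hc, mul_app, hp]) hk
  exact f.mono_of_perp h2 (by omega) hB hx hij (key i hi) (key j hj)

theorem ONB.mono_perm (hb : h.ONB b) {x : V ≃ₗ[F] V} (hx : Mono b x) :
    ∃ σ : ι ≃ ι, ∀ (s : V ≃ₗ[F] V) (m : ι), (s (b m) = b m → (x * s * x⁻¹) (b (σ m)) = b (σ m)) ∧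
      (s (b m) = -b m → (x * s * x⁻¹) (b (σ m)) = -b (σ m)) ∧
      ∀ n, s (b m) = b n → ∃ c : F, c ≠ 0 ∧ (x * s * x⁻¹) (b (σ m)) = c • b (σ n) := by
  choose σ c hσ using hx
  have h1 : Function.Injective σ := fun p q hpq => hb.mono_inj (hσ p) (hpq ▸ hσ q)
  refine ⟨Equiv.ofBijective σ (Finite.injective_iff_bijective.1 h1), fun s m => ?_⟩
  have h0 : ∀ m, c m ≠ 0 := fun m => hb.mono_ne (hσ m)
  have h3 : (x * s * x⁻¹) (b (σ m)) = (c m)⁻¹ • x (s (b m)) := by
    rw [← inv_smul_smul₀ (h0 m) (b (σ m)), ← hσ, map_smul, mul_app, inv_apply_apply, mul_app]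
  simp only [Equiv.ofBijective_apply, h3]
  refine ⟨fun hs => ?_, fun hs => ?_, fun n hs => ⟨(c m)⁻¹ * c n, by simp [h0], ?_⟩⟩
  · rw [hs, hσ, inv_smul_smul₀ (h0 m)]
  · rw [hs, map_neg, hσ, smul_neg, inv_smul_smul₀ (h0 m)]
  · rw [hs, hσ, smul_smul]

theorem rr_neg_one {u v : V} (hu : h u u = 1) (hv : h v v = 1) (huv : h v u = 0) :
    h.rr u v (-1) * h.rr u v (-1) = 1 ∧ Rk2 (h.rr u v (-1)) := by
  have hap := rr_apply hu hv huv (l := -1) (by simp)
  refine ⟨LinearEquiv.ext fun x => ?_, u, v, fun w => Submodule.mem_span_pair.2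
    ⟨2 * h w u, 2 * h w v, ?_⟩⟩
  · rw [mul_app, hap, hap]; simp [hu, hv, huv, symm0 huv]; module
  · rw [hap]; simp; module

theorem Fr.mono_of_bad (f : h.Fr b M) (h2 : (2 : F) ≠ 0) (h6 : 6 ≤ Fintype.card ι) (hB : Bad b M)
    {g : V ≃ₗ[F] V} (hg : g ∈ M) : Mono b g := by
  haveI := finite_equiv F V
  have hb := f.onb
  obtain ⟨e⟩ : Nonempty (Fin 6 ↪ ι) := Function.Embedding.nonempty_of_card_le (by simpa using h6)
  have he : ∀ i j : Fin 6, e i = e j ↔ i = j := fun i j => e.injective.eq_iff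
  have hne : ∀ {m n : ι} {c : F}, m ≠ n → c ≠ 0 → c • b m ≠ b n ∧ c • b m ≠ -b n := by
    intro m n c hmn hc
    constructor <;> intro h0 <;> have := congrArg (fun x => h x (b m)) h0 <;>
      simp [hb.self, hb.ne hmn.symm, hc] at this
  -- the diagonal involution
  obtain ⟨a, haM, haa, har, ha0, ha1, ha⟩ : ∃ a ∈ M, a * a = 1 ∧ Rk2 a ∧ a (b (e 0)) = -b (e 0) ∧
      a (b (e 1)) = -b (e 1) ∧ ∀ m, m ≠ e 0 → m ≠ e 1 → a (b m) = b m := by
    have h01 : h (b (e 1)) (b (e 0)) = 0 := hb.ne (by simp [he])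
    have hap := rr_apply (hb.self (e 0)) (hb.self (e 1)) h01 (l := -1) (by simp)
    obtain ⟨h3, h4⟩ := rr_neg_one (hb.self (e 0)) (hb.self (e 1)) h01
    refine ⟨_, f.rr_mem _ _ (by simp), h3, h4, ?_, ?_, fun m h0 h1 => ?_⟩ <;> rw [hap]
    · simp [hb.self, symm0 h01]; module
    · simp [hb.self, h01]; module
    · simp [hb.ne h0, hb.ne h1]
  have ha' : ∀ m, a (b m) = b m ∨ a (b m) = -b m := fun m => by
    by_cases h0 : m = e 0
    · exact Or.inr (h0 ▸ ha0)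
    by_cases h1 : m = e 1
    · exact Or.inr (h1 ▸ ha1)
    exact Or.inl (ha m h0 h1)
  have ham : Mono b a := fun m => (ha' m).elim (fun h0 => ⟨m, 1, by simpa using h0⟩)
    fun h0 => ⟨m, -1, by simpa using h0⟩
  -- the non-diagonal involution
  obtain ⟨j, hjM, hjm, hjj, hjr, hj0, hj1, hj2, hj⟩ : ∃ j ∈ M, Mono b j ∧ j * j = 1 ∧ Rk2 j ∧
      j (b (e 0)) = b (e 1) ∧ j (b (e 1)) = b (e 0) ∧ j (b (e 2)) = -b (e 2) ∧
      ∀ m, m ≠ e 0 → m ≠ e 1 → m ≠ e 2 → j (b m) = b m := by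
    have h01 : h (b (e 1)) (b (e 0)) = 0 := hb.ne (by simp [he])
    have h02 : h (b (e 2)) (b (e 0)) = 0 := hb.ne (by simp [he])
    have h12 : h (b (e 2)) (b (e 1)) = 0 := hb.ne (by simp [he])
    obtain ⟨c, hc0, hc⟩ := exists_norm' (t := (2 : F)⁻¹) (by simp) (inv_ne_zero h2)
    have hc' : 2 * (c * star c) = 1 := by rw [hc]; field_simp
    have hu : h (c • (b (e 0) - b (e 1))) (c • (b (e 0) - b (e 1))) = 1 := by
      simp [hb.self, h01, symm0 h01]; linear_combination hc'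
    have hu2 : h (b (e 2)) (c • (b (e 0) - b (e 1))) = 0 := by simp [h02, h12]
    have hap := rr_apply hu (hb.self (e 2)) hu2 (l := -1) (by simp)
    obtain ⟨h3, h4⟩ := rr_neg_one hu (hb.self (e 2)) hu2
    have k0 : h.rr (c • (b (e 0) - b (e 1))) (b (e 2)) (-1) (b (e 0)) = b (e 1) := by
      rw [hap]; simp [hb.self, symm0 h01, symm0 h02]
      match_scalars
      · linear_combination -hc'
      · linear_combination hc'
    have k1 : h.rr (c • (b (e 0) - b (e 1))) (b (e 2)) (-1) (b (e 1)) = b (e 0) := by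
      rw [hap]; simp [hb.self, h01, symm0 h12]
      match_scalars
      · linear_combination -hc'
      · linear_combination hc'
    have k2 : h.rr (c • (b (e 0) - b (e 1))) (b (e 2)) (-1) (b (e 2)) = -b (e 2) := by
      rw [hap]; simp [hb.self, h02, h12]; module
    have k3 : ∀ m, m ≠ e 0 → m ≠ e 1 → m ≠ e 2 →
        h.rr (c • (b (e 0) - b (e 1))) (b (e 2)) (-1) (b m) = b m := fun m h0 h1 h2 => by
      rw [hap]; simp [hb.ne h0, hb.ne h1, hb.ne h2]
    have k4 : Mono b (h.rr (c • (b (e 0) - b (e 1))) (b (e 2)) (-1)) := fun m => by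
      by_cases h0 : m = e 0
      · exact ⟨_, 1, by rw [h0, k0, one_smul]⟩
      by_cases h1 : m = e 1
      · exact ⟨_, 1, by rw [h1, k1, one_smul]⟩
      by_cases h2 : m = e 2
      · exact ⟨_, -1, by rw [h2, k2, neg_one_smul]⟩
      exact ⟨m, 1, by rw [k3 m h0 h1 h2, one_smul]⟩
    exact ⟨_, f.mono _ (rr_mem_SU hu (hb.self _) (by simp)) k4, k4, h3, h4, k0, k1, k2, k3⟩
  have hj' : ∀ m, m ≠ e 0 → m ≠ e 1 → j (b m) = b m ∨ j (b m) = -b m := fun m h0 h1 => by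
    by_cases h2 : m = e 2
    · exact Or.inr (h2 ▸ hj2)
    exact Or.inl (hj m h0 h1 h2)
  have haG := (f.le haM).1
  have hjG := (f.le hjM).1
  have hcM : g * j * g⁻¹ ∈ M := M.mul_mem (M.mul_mem hg hjM) (M.inv_mem hg)
  have hcc : g * j * g⁻¹ * (g * j * g⁻¹) = 1 := by
    rw [show g * j * g⁻¹ * (g * j * g⁻¹) = g * (j * j) * g⁻¹ by group, hjj]; simp
  obtain ⟨c, hc⟩ : ∃ c, c = g * j * g⁻¹ := ⟨_, rfl⟩
  rw [← hc] at hcM hcc
  have hρ : ∀ l : ℕ, (a * c) ^ l ∈ M := fun l => M.pow_mem (M.mul_mem haM hcM) l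
  have hL := dihedral_left haa hcc
  have hR := dihedral_right haa hcc
  rcases dihedral_cases a c with ⟨k, hk⟩ | ⟨t, ht1, ht2⟩
  · exfalso
    have h3 : j = (g⁻¹ * ((a * c) ^ k)⁻¹) * a * (g⁻¹ * ((a * c) ^ k)⁻¹)⁻¹ := by
      have : c = ((a * c) ^ k)⁻¹ * a * (a * c) ^ k := by
        rw [← hL, mul_assoc, ← pow_add, ← two_mul, pow_mul, ← hk, ← mul_assoc, haa, one_mul]
      rw [show j = g⁻¹ * c * g by rw [hc]; group]
      conv_lhs => rw [this]
      group
    obtain ⟨σ, hσ⟩ := hb.mono_perm (f.mono_of_conj h2 h6 hB (M.mul_mem (M.inv_mem hg)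
      (M.inv_mem (hρ k))) haG har ha0 (h3 ▸ hjm))
    have h4 := hσ a (σ.symm (e 0))
    rw [← h3, Equiv.apply_symm_apply, hj0] at h4
    have h5 := hne (m := e 1) (n := e 0) (by simp [he]) one_ne_zero
    rw [one_smul] at h5
    exact (ha' _).elim (fun h0 => h5.1 (h4.1 h0)) fun h0 => h5.2 (h4.2.1 h0)
  obtain ⟨z, hz⟩ : ∃ z, z = (a * c) ^ t := ⟨_, rfl⟩
  have hzM : z ∈ M := hz ▸ hρ t
  have hzG := (f.le hzM).1
  rw [← hz] at ht1 ht2
  have hzi : z⁻¹ = z := inv_eq_of_mul_eq_one_right ht2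
  have haz : a * z = z * a := by rw [hz, hL, ← hz, hzi]
  have hcz : c * z = z * c := by rw [hz, hR, ← hz, hzi]
  have hzm : Mono b z := f.mono_of_comm h2 h6 hB hzM haG (i := e 3) (j := e 4) (by simp [he])
    (ha _ (by simp [he]) (by simp [he])) (ha _ (by simp [he]) (by simp [he])) ha0 haz
  have hzm' : Mono b (g⁻¹ * z * g) := f.mono_of_comm h2 h6 hB
    (M.mul_mem (M.mul_mem (M.inv_mem hg) hzM) hg) hjG (i := e 3) (j := e 4) (by simp [he])
    (hj _ (by simp [he]) (by simp [he]) (by simp [he]))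
    (hj _ (by simp [he]) (by simp [he]) (by simp [he])) hj2 (by
      rw [show j = g⁻¹ * c * g by rw [hc]; group]
      calc _ = g⁻¹ * (c * z) * g := by group
        _ = _ := by rw [hcz]; group)
  have hgz : ∀ m, (g⁻¹ * z * g) (b m) = b m ∨ (g⁻¹ * z * g) (b m) = -b m →
      z (g (b m)) = g (b m) ∨ z (g (b m)) = -g (b m) := fun m hm => hm.imp
    (fun h0 => by conv_rhs => rw [← h0]; simp [mul_app])
    (fun h0 => by rw [← map_neg, ← h0]; simp [mul_app])
  rcases Nat.even_or_odd' t with ⟨l, hl | hl⟩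
  · -- even case
    have h3 : a * z = ((a * c) ^ l)⁻¹ * a * ((a * c) ^ l)⁻¹⁻¹ := by
      rw [← hL, inv_inv, hz, hl, two_mul, pow_add, mul_assoc]
    have h4 : c * z = ((a * c) ^ l)⁻¹ * c * ((a * c) ^ l)⁻¹⁻¹ := by
      rw [← hR, inv_inv, hz, hl, two_mul, pow_add, mul_assoc]
    have hx := M.inv_mem (hρ l)
    generalize ((a * c) ^ l)⁻¹ = x at h3 h4 hx
    have h5 : j * (g⁻¹ * z * g) = (g⁻¹ * x * g) * j * (g⁻¹ * x * g)⁻¹ := by
      rw [show j = g⁻¹ * c * g by rw [hc]; group]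
      calc _ = g⁻¹ * (c * z) * g := by group
        _ = _ := by rw [h4]; group
    obtain ⟨σ, hσ⟩ := hb.mono_perm (f.mono_of_conj h2 h6 hB hx haG har ha0 (h3 ▸ ham.mul hzm))
    obtain ⟨τ, hτ⟩ := hb.mono_perm (f.mono_of_conj h2 h6 hB
      (M.mul_mem (M.mul_mem (M.inv_mem hg) hx) hg) hjG hjr hj2 (h5 ▸ hjm.mul hzm'))
    have h7 : ∀ v, z v = a ((a * z) v) := fun v => by rw [← mul_app, ← mul_assoc, haa, one_mul]
    have h8 : ∀ m, m ≠ σ (e 0) → m ≠ σ (e 1) → (a * z) (b m) = b m := fun m h0 h1 => by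
      have := (hσ a (σ.symm m)).1 (ha _ (fun h' => h0 (by rw [← h']; simp))
        (fun h' => h1 (by rw [← h']; simp)))
      rwa [← h3, Equiv.apply_symm_apply] at this
    have h9 : (a * z) (b (σ (e 0))) = -b (σ (e 0)) := h3 ▸ (hσ a _).2.1 ha0
    have h10 : (a * z) (b (σ (e 1))) = -b (σ (e 1)) := h3 ▸ (hσ a _).2.1 ha1
    have h01 : σ (e 0) ≠ σ (e 1) := by simp [he]
    generalize σ (e 0) = u at h8 h9 h01
    generalize σ (e 1) = v at h8 h10 h01
    have hneg : ∀ m, m ≠ e 0 → m ≠ e 1 → (a * z) (b m) = -b m → z (b m) = -b m :=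
      fun m h0 h1 h' => by rw [h7, h', map_neg, ha m h0 h1]
    obtain ⟨p, q, hpq, hp, hq⟩ : ∃ p q, p ≠ q ∧ z (b p) = b p ∧ z (b q) = b q := by
      obtain ⟨p, hp⟩ := exists_not_mem_list [e 0, e 1, u, v] (by simp; omega)
      obtain ⟨q, hq⟩ := exists_not_mem_list [e 0, e 1, u, v, p] (by simp; omega)
      simp only [List.mem_cons, List.not_mem_nil, or_false, not_or] at hp hq
      exact ⟨p, q, Ne.symm hq.2.2.2.2, by rw [h7, h8 p hp.2.2.1 hp.2.2.2, ha p hp.1 hp.2.1],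
        by rw [h7, h8 q hq.2.2.1 hq.2.2.2.1, ha q hq.1 hq.2.1]⟩
    obtain ⟨r, s, hrs, hr, hs⟩ : ∃ p q, p ≠ q ∧ z (b p) = -b p ∧ z (b q) = -b q := by
      have k0 : e 0 ≠ u → e 0 ≠ v → z (b (e 0)) = -b (e 0) := fun h0 h1 => by
        rw [h7, h8 _ h0 h1, ha0]
      have k1 : e 1 ≠ u → e 1 ≠ v → z (b (e 1)) = -b (e 1) := fun h0 h1 => by
        rw [h7, h8 _ h0 h1, ha1]
      have k2 : ¬ ((e 0 = u ∧ e 1 = v) ∨ (e 0 = v ∧ e 1 = u)) := fun h0 => ht1 (by
        refine LinearEquiv.toLinearMap_injective (hb.basis.ext fun m => ?_)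
        simp only [ONB.basis_apply, LinearEquiv.coe_coe, one_app]
        by_cases h1 : m = e 0
        · rcases h0 with ⟨rfl, rfl⟩ | ⟨rfl, rfl⟩ <;> subst h1 <;> simp [h7, h9, h10, ha0]
        by_cases h2 : m = e 1
        · rcases h0 with ⟨rfl, rfl⟩ | ⟨rfl, rfl⟩ <;> subst h2 <;> simp [h7, h9, h10, ha1]
        rw [h7, h8 m, ha m h1 h2] <;> rcases h0 with ⟨rfl, rfl⟩ | ⟨rfl, rfl⟩ <;> assumption)
      have k3 : e 0 ≠ e 1 := by simp [he]
      by_cases h0u : e 0 = u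
      · have : e 1 ≠ v := fun h' => k2 (Or.inl ⟨h0u, h'⟩)
        exact ⟨e 1, v, this, k1 (h0u ▸ k3.symm) this, hneg v (h0u ▸ h01.symm) this.symm h10⟩
      by_cases h0v : e 0 = v
      · have : e 1 ≠ u := fun h' => k2 (Or.inr ⟨h0v, h'⟩)
        exact ⟨e 1, u, this, k1 this (h0v ▸ k3.symm), hneg u (h0v ▸ h01) this.symm h9⟩
      by_cases h1u : e 1 = u
      · exact ⟨e 0, v, h0v, k0 h0u h0v, hneg v (Ne.symm h0v) (h1u ▸ h01.symm) h10⟩
      by_cases h1v : e 1 = v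
      · exact ⟨e 0, u, h0u, k0 h0u h0v, hneg u (Ne.symm h0u) (h1v ▸ h01) h9⟩
      exact ⟨e 0, e 1, k3, k0 h0u h0v, k1 h1u h1v⟩
    obtain ⟨m, hm⟩ := exists_not_mem_list [e 0, e 1, τ (e 0), τ (e 1)] (by simp; omega)
    simp only [List.mem_cons, List.not_mem_nil, or_false, not_or] at hm
    have h11 := hgz m (by
      have k1 := hτ j (τ.symm m)
      rw [← h5, Equiv.apply_symm_apply] at k1
      have k2 : (g⁻¹ * z * g) (b m) = j ((j * (g⁻¹ * z * g)) (b m)) := by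
        rw [← mul_app, ← mul_assoc, hjj, one_mul]
      rw [k2]
      rcases hj' (τ.symm m) (fun h' => hm.2.2.1 (by rw [← h']; simp))
        (fun h' => hm.2.2.2 (by rw [← h']; simp)) with k3 | k3
      · rw [k1.1 k3]; exact hj' m hm.1 hm.2.1
      · rw [k1.2.1 k3, map_neg]
        exact (hj' m hm.1 hm.2.1).symm.imp (fun h' => by rw [h', neg_neg]) fun h' => by rw [h'])
    have h12 : Mono b g⁻¹ := by
      rcases h11 with k | k
      · exact f.mono_of_perp h2 (by omega) hB (M.inv_mem hg) hrs (k := m)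
          (by rw [← GU_right (f.le hg).1]; exact symm0 (perp_of_opp h2 hzG k hr))
          (by rw [← GU_right (f.le hg).1]; exact symm0 (perp_of_opp h2 hzG k hs))
      · exact f.mono_of_perp h2 (by omega) hB (M.inv_mem hg) hpq (k := m)
          (by rw [← GU_right (f.le hg).1]; exact perp_of_opp h2 hzG hp k)
          (by rw [← GU_right (f.le hg).1]; exact perp_of_opp h2 hzG hq k)
    simpa using hb.mono_inv h12
  · -- odd case
    have h3 : a * z = ((a * c) ^ l)⁻¹ * c * (a * c) ^ l := by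
      rw [← hR, hz, hl, two_mul, pow_succ', ← mul_assoc, ← mul_assoc, haa, one_mul, pow_add,
        mul_assoc]
    have h4 : z * (a * c) ^ l = (a * c) ^ l * z := by rw [hz, ← pow_add, ← pow_add, add_comm]
    have hy := hρ l
    generalize (a * c) ^ l = y at h3 h4 hy
    have h5 : a * z = (y⁻¹ * g) * j * (y⁻¹ * g)⁻¹ := by rw [h3, hc]; group
    have h6' : j * (g⁻¹ * z * g) = (y⁻¹ * g)⁻¹ * a * (y⁻¹ * g)⁻¹⁻¹ := by
      have k1 : c = y * (a * z) * y⁻¹ := by rw [h3]; group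
      have k2 : y⁻¹ * z = z * y⁻¹ := by
        calc _ = y⁻¹ * (z * y) * y⁻¹ := by group
          _ = _ := by rw [h4]; group
      rw [show j = g⁻¹ * c * g by rw [hc]; group, k1]
      calc _ = g⁻¹ * y * a * z * (y⁻¹ * z) * g := by group
        _ = g⁻¹ * y * a * (z * z) * y⁻¹ * g := by rw [k2]; group
        _ = _ := by rw [ht2]; group
    have hw := f.mono_of_conj h2 h6 hB (M.mul_mem (M.inv_mem hy) hg) hjG hjr hj2 (h5 ▸ ham.mul hzm)
    obtain ⟨σ, hσ⟩ := hb.mono_perm hw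
    obtain ⟨τ, hτ⟩ := hb.mono_perm (hb.mono_inv hw)
    have h7 : ∀ v, z v = a ((a * z) v) := fun v => by rw [← mul_app, ← mul_assoc, haa, one_mul]
    have h8 : ∀ m, m ≠ σ (e 0) → m ≠ σ (e 1) → m ≠ σ (e 2) → (a * z) (b m) = b m :=
      fun m h0 h1 h2 => by
        have := (hσ j (σ.symm m)).1 (hj _ (fun h' => h0 (by rw [← h']; simp))
          (fun h' => h1 (by rw [← h']; simp)) (fun h' => h2 (by rw [← h']; simp)))
        rwa [← h5, Equiv.apply_symm_apply] at this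
    have h9 : (a * z) (b (σ (e 2))) = -b (σ (e 2)) := h5 ▸ (hσ j _).2.1 hj2
    obtain ⟨c₀, hc₀, h10⟩ := (hσ j _).2.2 _ hj0
    obtain ⟨c₁, hc₁, h11⟩ := (hσ j _).2.2 _ hj1
    rw [← h5] at h10 h11
    have k1 : ∀ m n, ∀ d : F, d ≠ 0 → a (b m) = -b m → (a * z) (b m) = d • b n → a (b n) ≠ b n := by
      intro m n d hd k1 k2 k3
      have k4 : a ((a * z) (b m)) = (a * z) (a (b m)) := by
        rw [← mul_app, ← mul_app, mul_assoc, ← haz]
      rw [k1, map_neg, k2, map_smul, k3] at k4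
      have k5 := congrArg (fun x => h x (b n)) k4
      simp only [smul_left, neg_left, hb.self, mul_one] at k5
      exact mul_ne_zero h2 hd (by linear_combination k5)
    have h01 : σ (e 0) ≠ σ (e 1) := by simp [he]
    have h02 : σ (e 0) ≠ σ (e 2) := by simp [he]
    have h12 : σ (e 1) ≠ σ (e 2) := by simp [he]
    have k3 : e 0 ≠ e 1 := by simp [he]
    generalize σ (e 0) = u at h8 h10 h11 h01 h02
    generalize σ (e 1) = v at h8 h10 h11 h01 h12
    generalize σ (e 2) = w at h8 h9 h02 h12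
    obtain ⟨p, hp⟩ : ∃ p, z (b p) = b p := by
      obtain ⟨p, hp⟩ := exists_not_mem_list [e 0, e 1, u, v, w] (by simp; omega)
      simp only [List.mem_cons, List.not_mem_nil, or_false, not_or] at hp
      exact ⟨p, by rw [h7, h8 p hp.2.2.1 hp.2.2.2.1 hp.2.2.2.2, ha p hp.1 hp.2.1]⟩
    obtain ⟨q, hq⟩ : ∃ q, z (b q) = -b q := by
      by_cases h0 : w = e 0
      · subst h0
        refine ⟨e 1, ?_⟩
        rw [h7, h8 _ (fun h' => ?_) (fun h' => ?_) k3.symm, ha1]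
        · subst h'; exact k1 _ _ _ hc₀ ha1 h10 (ha v h12 h01.symm)
        · subst h'; exact k1 _ _ _ hc₁ ha1 h11 (ha u h02 h01)
      by_cases h1 : w = e 1
      · subst h1
        refine ⟨e 0, ?_⟩
        rw [h7, h8 _ (fun h' => ?_) (fun h' => ?_) k3, ha0]
        · subst h'; exact k1 _ _ _ hc₀ ha0 h10 (ha v h01.symm h12)
        · subst h'; exact k1 _ _ _ hc₁ ha0 h11 (ha u h01 h02)
      exact ⟨w, by rw [h7, h9, map_neg, ha w h0 h1]⟩
    have h13 : ∀ m, m ≠ e 0 → m ≠ e 1 → z (g (b m)) = g (b m) ∨ z (g (b m)) = -g (b m) :=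
      fun m h0 h1 => hgz m (by
        have k1 := hτ a (τ.symm m)
        rw [← h6', Equiv.apply_symm_apply] at k1
        have k2 : (g⁻¹ * z * g) (b m) = j ((j * (g⁻¹ * z * g)) (b m)) := by
          rw [← mul_app, ← mul_assoc, hjj, one_mul]
        rw [k2]
        rcases ha' (τ.symm m) with k3 | k3
        · rw [k1.1 k3]; exact hj' m h0 h1
        · rw [k1.2.1 k3, map_neg]
          exact (hj' m h0 h1).symm.imp (fun h' => by rw [h', neg_neg]) fun h' => by rw [h'])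
    have P : ∀ m n, m ≠ n → z (g (b m)) = g (b m) → z (g (b n)) = g (b n) → Mono b g :=
      fun m n hmn k1 k2 => f.mono_of_perp h2 (by omega) hB hg hmn (perp_of_opp h2 hzG k1 hq)
        (perp_of_opp h2 hzG k2 hq)
    have N : ∀ m n, m ≠ n → z (g (b m)) = -g (b m) → z (g (b n)) = -g (b n) → Mono b g :=
      fun m n hmn k1 k2 => f.mono_of_perp h2 (by omega) hB hg hmn (symm0 (perp_of_opp h2 hzG hp k1))
        (symm0 (perp_of_opp h2 hzG hp k2))
    rcases h13 (e 2) (by simp [he]) (by simp [he]) with k2 | k2 <;>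
      rcases h13 (e 3) (by simp [he]) (by simp [he]) with k3 | k3 <;>
      rcases h13 (e 4) (by simp [he]) (by simp [he]) with k4 | k4 <;>
      first
        | exact P _ _ (by simp [he]) k2 k3
        | exact P _ _ (by simp [he]) k2 k4
        | exact P _ _ (by simp [he]) k3 k4
        | exact N _ _ (by simp [he]) k2 k3
        | exact N _ _ (by simp [he]) k2 k4
        | exact N _ _ (by simp [he]) k3 k4

theorem Fr.core_odd (f : h.Fr b M) (h2 : (2 : F) ≠ 0) (h6 : 6 ≤ Fintype.card ι)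
    (hg : ∃ g ∈ M, ¬ Mono b g) : h.SU ≤ M := by
  by_cases hB : Bad b M
  · obtain ⟨g, hg, hg'⟩ := hg
    exact absurd (f.mono_of_bad h2 h6 hB hg) hg'
  · simp only [Bad, not_forall] at hB
    obtain ⟨y, hy, k, a, hk, hm⟩ := hB
    exact f.SU_le_of_good h2 (by omega) hy hk hm

theorem Fr.core (f : h.Fr b M) (h6 : 6 ≤ Fintype.card ι)
    (hq : 7 ≤ Fintype.card ι ∨ ∃ t : F, star t = t ∧ t ≠ 0 ∧ t ≠ 1) (hg : ∃ g ∈ M, ¬ Mono b g) :
    h.SU ≤ M := by
  by_cases h2 : (2 : F) = 0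
  · by_cases h3 : ∃ t : F, star t = t ∧ t ≠ 0 ∧ t ≠ 1
    · exact f.core_even h2 (by omega) h3 hg
    · refine f.core_F4 (fun t ht => ?_) (hq.resolve_right h3) hg
      by_contra! h4
      exact h3 ⟨t, ht, h4⟩
  · exact f.core_odd h2 h6 hg

theorem ONB.exists_not_mono (hb : h.ONB b) (h4 : 4 ≤ Fintype.card ι) : ∃ g ∈ h.SU, ¬ Mono b g := by
  obtain ⟨e⟩ : Nonempty (Fin 4 ↪ ι) := Function.Embedding.nonempty_of_card_le (by simpa using h4)
  obtain ⟨s, hs0, hs⟩ := exists_norm' (t := (-1 : F)) (by simp) (by simp)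
  have hc := (hb.on_comp e.injective).coeff ![1, s, 1, s]
  set u := ∑ i, ![1, s, 1, s] i • b (e i) with hu
  have huu : h u u = 0 := by
    conv_lhs => rw [hu, sum_right]
    simp only [smul_right, ← hu, hc, Fin.sum_univ_four]
    simp; linear_combination 2 * hs
  refine ⟨h.T u (del F), T_mem_SU _ _, fun hm => ?_⟩
  obtain ⟨m, c, hm⟩ := hm (e 0)
  rw [T_apply huu del_tr, ← h.conj u, hc] at hm
  have key : ∀ i, i ≠ 0 → ![1, s, 1, s] i ≠ 0 → m = e i := fun i h0 hi => by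
    by_contra h1
    have := congrArg (fun x => h x (b (e i))) hm
    simp [hb.ne h1, hc, hb.ne (e.injective.ne h0.symm), del_ne, hi] at this
  have := (key 1 (by simp) (by simpa using hs0)).symm.trans (key 2 (by simp) (by simp))
  simp at this

theorem Dec.exists_ONB {D : ι → Submodule F V} (d : h.Dec D 1) :
    ∃ b : ι → V, h.ONB b ∧ ∀ g, DecStab D g ↔ Mono b g := by
  choose a ha1 ha2 ha3 using fun i => (d.nd i).exists_ON 1 (d.rk i)
  have h1 : ∀ i x, x ∈ D i ↔ ∃ c : F, x = c • a i 0 := fun i x =>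
    ⟨fun hx => ⟨_, by simpa using ha3 i x hx⟩, fun ⟨c, hc⟩ => hc ▸ (D i).smul_mem _ (ha1 i 0)⟩
  have h2 : h.ON fun i => a i 0 := fun i j => by
    by_cases hij : i = j
    · subst hij; simpa using ha2 i 0 0
    · simp [hij, d.orth i j hij _ (ha1 i 0) _ (ha1 j 0)]
  refine ⟨fun i => a i 0, ⟨h2, fun x => ?_⟩, fun g => forall_congr' fun i => exists_congr fun j =>
    ⟨fun hg => (h1 _ _).1 (hg _ (ha1 i 0)), fun ⟨c, hc⟩ x hx => ?_⟩⟩
  · obtain ⟨c, hc, rfl⟩ := d.dec x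
    choose s hs using fun i => (h1 i _).1 (hc i)
    simp only [hs, h2.coeff]
  · obtain ⟨s, rfl⟩ := (h1 _ _).1 hx
    rw [map_smul, hc]
    exact (D j).smul_mem _ ((D j).smul_mem _ (ha1 j 0))

end HF

theorem frame_maximal {F : Type*} [Field F] [Fintype F] (n q : ℕ) (hF : Fintype.card F = q ^ 2)
    {t : ℕ} (D : Fin t → Submodule F (Fin n → F))
    (hD : Geo.IsNondegenerateMDecomposition (hermForm n F q) 1 D) (h6 : 6 ≤ n)
    (hq : 7 ≤ n ∨ 3 ≤ q) :
    Geo.IsMaximalIn (GU n F q ⊓ Geo.specialLinear (Fin n) F)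
      (Geo.decompositionStabilizer D ⊓ (GU n F q ⊓ Geo.specialLinear (Fin n) F)) := by
  letI := powStar hF
  haveI := powStar_nstar hF
  obtain ⟨b, hb, hb'⟩ := (dec_of_decomp hF hD).exists_ONB
  have hn : Fintype.card (Fin t) = n := by simpa using hb.card.symm
  exact isMaximalIn_of_core (LinearEquiv.refl F _) (stdHF (Fin n) F) _ _ (mem_GU_iff hF n)
    (HF.Mono b) (fun g _ => (mem_decompositionStabilizer' hD.decomp).trans (hb' _))
    (hb.exists_not_mono (by omega)) fun M hM hH hg =>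
      HF.Fr.core ⟨hb, hM, hH⟩ (by omega) (hq.imp (by omega) (exists_F0_ne hF)) hg

end Cfsg.Agent.H5.U
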