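import Cfsg.Agent.H5.U.Pair

/-! Stabilisers of orthogonal decompositions with blocks of dimension at least two. -/

set_option autoImplicit false
set_option linter.unusedSimpArgs false
set_option linter.unusedSectionVars false
set_option linter.unusedVariables false

namespace Cfsg.Agent.H5.U

open Module H6

variable {F : Type*} {V : Type*} [Field F] [StarRing F] [AddCommGroup V] [Module F V]
  [NStar F] [Finite F] [FiniteDimensional F V]

namespace HF

variable {h : HF F V} {M : Subgroup (V ≃ₗ[F] V)}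

theorem NdOn.le_core_ME' (hM : M ≤ h.SU) {W : Submodule F V} (hW : h.NdOn W) (h2 : 2 ≤ finrank F W)
    (hX : ∀ v ∈ W, h v v = 0 → h.XIn M v) {e : V} (he : h e e = 0) (heW : ∀ v ∈ W, h e v = 0)
    (hD : ∀ v ∈ W, v ≠ 0 → h v v = 0 → ∀ m : F, m ≠ 0 → ∃ g ∈ M, g e = e ∧ g v = m • v)
    {w y : V} (hw : w ∈ h.ME M e he) (hy : y ∈ W) (hwy : h y w ≠ 0) :
    W ≤ core F (h.ME M e he) := by
  obtain ⟨v, hv, hvv, hvw⟩ := hW.exists_iso_ne' h2 hy hwy
  have hv0 := ne_zero_left hvw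
  have h1 := ME_map hM hw (hX v hv hvv _ del_tr) (T_apply_of_perp (heW v hv))
  rw [T_apply hvv del_tr] at h1
  have h3 := AddSubgroup.sub_mem _ h1 hw
  rw [add_sub_cancel_left] at h3
  have h4 : del F * h w v ≠ 0 := mul_ne_zero del_ne (symm_ne hvw)
  obtain ⟨f, hf, -, hvf⟩ := hW.exists_partner hv hv0 hvv
  refine hW.le_core_ME hM h2 hX he heW (a := v) (fun l => ?_) hf (by simp [symm1 hvf])
  by_cases hl : l = 0
  · simp [hl]
  obtain ⟨g, hg, hge, hgv⟩ := hD v hv hv0 hvv (l / (del F * h w v)) (div_ne_zero hl h4)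
  have := ME_map hM h3 hg hge
  rwa [map_smul, hgv, smul_smul, mul_div_cancel₀ _ h4] at this

theorem core_ME_map (hM : M ≤ h.SU) {e w : V} {he : h e e = 0} (hw : w ∈ core F (h.ME M e he))
    {g : V ≃ₗ[F] V} (hg : g ∈ M) (hge : g e = e) : g w ∈ core F (h.ME M e he) := fun l => by
  rw [← map_smul]; exact ME_map hM (hw l) hg hge

/-- exchanging two orthogonal orthonormal families -/
theorem exists_swap_ON {κ : Type*} [Fintype κ] [DecidableEq κ] {a b : κ → V} (ha : h.ON a)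
    (hb : h.ON b) (hab : ∀ i j, h (a i) (b j) = 0) :
    ∃ s ∈ h.GU, (∀ i, s (a i) = b i) ∧ (∀ i, s (b i) = a i) ∧
      ∀ x, (∀ i, h x (a i) = h x (b i)) → s x = x := by
  let s₀ : V →ₗ[F] V := LinearMap.id - ∑ i, (h.lin (a i - b i)).smulRight (a i - b i)
  have hs₀ : ∀ x, s₀ x = x - ∑ i, h x (a i - b i) • (a i - b i) := fun x => by simp [s₀]
  have hv : ∀ i j, h (a i - b i) (a j - b j) = if i = j then 2 else 0 := fun i j => by
    simp only [sub_left, sub_right, ha i j, hb i j, hab, symm0 (hab _ _)]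
    split_ifs <;> ring
  have h1 : ∀ x j, h (s₀ x) (a j - b j) = - h x (a j - b j) := fun x j => by
    rw [hs₀, sub_left, sum_left]
    simp only [smul_left, hv, mul_ite, mul_zero, Finset.sum_ite_eq', Finset.mem_univ, if_true]
    ring
  have hinv : Function.Involutive s₀ := fun x => by
    rw [hs₀ (s₀ x)]
    simp only [h1, neg_smul, Finset.sum_neg_distrib]
    rw [hs₀]; abel
  have h2 : ∀ x y, h (s₀ x) y = h x (s₀ y) := fun x y => by
    rw [hs₀, hs₀, sub_left, sub_right, sum_left, sum_right]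
    simp only [smul_left, smul_right, conj, mul_comm]
  refine ⟨LinearEquiv.ofInvolutive s₀ hinv, fun x y => ?_, fun i => ?_, fun i => ?_, fun x hx => ?_⟩
  · show h (s₀ x) (s₀ y) = _
    rw [h2, hinv]
  · show s₀ _ = _
    simp [hs₀, ha i _, hab]
  · show s₀ _ = _
    simp [hs₀, hb i _, symm0 (hab _ _)]
  · show s₀ _ = _
    simp [hs₀, hx]

variable {ι : Type*} [Fintype ι] [DecidableEq ι]

/-- an orthogonal decomposition into non-degenerate blocks of dimension `k` -/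
structure Dec (h : HF F V) (D : ι → Submodule F V) (k : ℕ) : Prop where
  nd : ∀ i, h.NdOn (D i)
  orth : ∀ i j, i ≠ j → ∀ x ∈ D i, ∀ y ∈ D j, h x y = 0
  rk : ∀ i, finrank F (D i) = k
  dec : ∀ x, ∃ c : ι → V, (∀ i, c i ∈ D i) ∧ x = ∑ i, c i

/-- permuting the blocks -/
def DecStab (D : ι → Submodule F V) (g : V ≃ₗ[F] V) : Prop := ∀ i, ∃ j, ∀ x ∈ D i, g x ∈ D j

variable {D : ι → Submodule F V} {k : ℕ}

omit [StarRing F] [NStar F] [Finite F] [FiniteDimensional F V] in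
theorem DecStab.mul {g g' : V ≃ₗ[F] V} (hg : DecStab D g) (hg' : DecStab D g') :
    DecStab D (g * g') := fun i => by
  obtain ⟨j, hj⟩ := hg' i
  obtain ⟨l, hl⟩ := hg j
  exact ⟨l, fun x hx => hl _ (hj x hx)⟩

theorem Dec.fix (d : h.Dec D k) {j : ι} {g : V ≃ₗ[F] V} (hg : g ∈ h.GUW (D j)) {i : ι}
    (hij : i ≠ j) {x : V} (hx : x ∈ D i) : g x = x := hg.2 x (d.orth i j hij x hx)

theorem Dec.stab (d : h.Dec D k) {j : ι} {g : V ≃ₗ[F] V} (hg : g ∈ h.GUW (D j)) : DecStab D g :=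
  fun i => ⟨i, fun x hx => by
    by_cases hij : i = j
    · subst hij; exact GUW_mem hg hx
    · rwa [d.fix hg hij hx]⟩

theorem Dec.comp (d : h.Dec D k) {c : ι → V} (hc : ∀ i, c i ∈ D i) {j : ι} {y : V} (hy : y ∈ D j) :
    h y (∑ i, c i) = h y (c j) := by
  rw [sum_right, Finset.sum_eq_single j (fun i _ hi => d.orth j i hi.symm y hy _ (hc i)) (by simp)]

theorem Dec.eq_of_mem (d : h.Dec D k) {i j : ι} {x : V} (hx : x ≠ 0) (hi : x ∈ D i) (hj : x ∈ D j) :
    i = j := by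
  by_contra hij
  exact hx (d.nd i x hi fun y hy => d.orth i j hij y hy x hj)

theorem Dec.exists_swap (d : h.Dec D k) (hk : 0 < k) {i j : ι} (hij : i ≠ j) :
    ∃ s ∈ h.SU, DecStab D s ∧ (∀ x ∈ D j, ∃ y ∈ D i, s y = x) ∧
      ∀ l, l ≠ i → l ≠ j → ∀ x ∈ D l, s x = x := by
  obtain ⟨a, ha1, ha2, ha3⟩ := (d.nd i).exists_ON k (d.rk i)
  obtain ⟨b, hb1, hb2, hb3⟩ := (d.nd j).exists_ON k (d.rk j)
  obtain ⟨s, hs, h1, h2, h3⟩ := exists_swap_ON ha2 hb2 fun m n => d.orth i j hij _ (ha1 m) _ (hb1 n)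
  have h4 : ∀ l, l ≠ i → l ≠ j → ∀ x ∈ D l, s x = x := fun l hi hj x hx => h3 x fun m => by
    rw [d.orth l i hi x hx _ (ha1 m), d.orth l j hj x hx _ (hb1 m)]
  have h5 : DecStab D s := fun l => by
    by_cases hi : l = i
    · subst hi
      refine ⟨j, fun x hx => ?_⟩
      rw [ha3 x hx, map_sum]
      exact Submodule.sum_mem _ fun m _ => by rw [map_smul, h1]; exact Submodule.smul_mem _ _ (hb1 m)
    by_cases hj : l = j
    · subst hj
      refine ⟨i, fun x hx => ?_⟩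
      rw [hb3 x hx, map_sum]
      exact Submodule.sum_mem _ fun m _ => by rw [map_smul, h2]; exact Submodule.smul_mem _ _ (ha1 m)
    exact ⟨l, fun x hx => by rwa [h4 l hi hj x hx]⟩
  have hz : h (a ⟨0, hk⟩) (a ⟨0, hk⟩) ≠ 0 := by simp [ha2 _ _]
  have hR := R_mem_GUW (h := h) (ha1 ⟨0, hk⟩) (star (LinearMap.det (s : V →ₗ[F] V)))
  refine ⟨_, mul_R_mem_SU hs hz, h5.mul (d.stab hR), fun x hx => ?_, fun l hi hj x hx => ?_⟩
  · refine ⟨(h.R (a ⟨0, hk⟩) (star (LinearMap.det (s : V →ₗ[F] V))))⁻¹ (∑ m, h x (b m) • a m),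
      GUW_mem ((h.GUW _).inv_mem hR) (Submodule.sum_mem _ fun m _ => Submodule.smul_mem _ _ (ha1 m)), ?_⟩
    rw [mul_app, apply_inv_apply, map_sum]
    simp only [map_smul, h1]
    exact (hb3 x hx).symm
  · rw [mul_app, d.fix hR hi hx, h4 l hi hj x hx]

theorem D_mem_GUW {W : Submodule F V} {e f : V} {m : F} (he : e ∈ W) (hf : f ∈ W) (hee : h e e = 0)
    (hff : h f f = 0) (hef : h e f = 1) (hm : m ≠ 0) : h.D e f m ∈ h.GUW W :=
  ⟨D_mem_GU hee hff hef hm, fun x hx => by rw [D_apply hee hff hef hm, hx e he, hx f hf]; simp⟩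

theorem Dec.SU_le_of_ME (d : h.Dec D k) (hk : 2 ≤ k) (hkt : 3 ≤ k ∨ 3 ≤ Fintype.card ι)
    (hM : M ≤ h.SU) (hH : ∀ g ∈ h.SU, DecStab D g → g ∈ M) {i j : ι} (hij : i ≠ j) {a : V}
    (ha : a ∈ D i) (ha0 : a ≠ 0) (haa : h a a = 0) {w y : V} (hw : w ∈ h.ME M a haa) (hy : y ∈ D j)
    (hyw : h y w ≠ 0) : h.SU ≤ M := by
  have hSU : ∀ l, h.SUW (D l) ≤ M := fun l g hg => hH g hg.2 (d.stab hg.1)
  have hX : ∀ l, ∀ v ∈ D l, h.XIn M v := fun l v hv c _ => hSU l (T_mem_SUW hv c)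
  obtain ⟨f, hf, hff, haf⟩ := (d.nd i).exists_partner ha ha0 haa
  obtain ⟨l, hlj, z, hz, hza, hzz⟩ : ∃ l, l ≠ j ∧ ∃ z ∈ D l, h a z = 0 ∧ h z z = 1 := by
    rcases hkt with h3 | h3
    · obtain ⟨z, hz, hzz⟩ := ((d.nd i).inf_pv₂ ha hf haa hff haf).exists_unit (fun h0 => by
        have := finrank_inf_hyp ha hf haa haf
        rw [h0, d.rk] at this; simp at this; omega)
      exact ⟨i, hij, z, hz.1.1, symm0 hz.1.2, hzz⟩
    · obtain ⟨l, hl⟩ : ∃ l, l ∉ ({i, j} : Finset ι) := by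
        by_contra! h'
        have := Finset.card_le_card (show Finset.univ ⊆ {i, j} from fun l _ => h' l)
        have := Finset.card_le_two (a := i) (b := j)
        simp only [Finset.card_univ] at *; omega
      simp only [Finset.mem_insert, Finset.mem_singleton, not_or] at hl
      obtain ⟨z, hz, hzz⟩ := (d.nd l).exists_unit (fun h0 => by
        have := d.rk l
        rw [h0] at this; simp at this; omega)
      exact ⟨l, hl.2, z, hz, d.orth i l (Ne.symm hl.1) a ha z hz, hzz⟩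
  have h1 : D j ≤ core F (h.ME M a haa) := by
    refine (d.nd j).le_core_ME' hM (by rw [d.rk]; exact hk) (fun v hv _ => hX j v hv) haa
      (d.orth i j hij a ha) (fun v hv hv0 hvv m hm => ?_) hw hy hyw
    obtain ⟨v', hv', hvv', h2⟩ := (d.nd j).exists_partner hv hv0 hvv
    have h3 := D_mem_GUW hv hv' hvv hvv' h2 hm
    refine ⟨_, hH _ (mul_R_mem_SU h3.1 (z := z) (by simp [hzz]))
      ((d.stab h3).mul (d.stab (R_mem_GUW hz _))), ?_, ?_⟩
    · rw [mul_app, R_apply_of_perp hza, d.fix h3 hij ha]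
    · rw [mul_app, R_apply_of_perp (d.orth j l hlj.symm v hv z hz), D_apply hvv hvv' h2 hm]
      simp [hvv, h2]; module
  have h2 : ∀ l, l ≠ i → D l ≤ core F (h.ME M a haa) := by
    intro l hli x hx
    by_cases hlj : l = j
    · exact h1 (hlj ▸ hx)
    obtain ⟨s, hs, hs1, hs2, hs3⟩ := d.exists_swap (by omega) (Ne.symm hlj)
    obtain ⟨y, hy, rfl⟩ := hs2 x hx
    exact core_ME_map hM (h1 hy) (hH s hs hs1) (hs3 i hij (Ne.symm hli) a ha)
  refine SU_le_of_Q_X hM haa (qIn_of_ME haa (hX i a ha) fun w _ hwa => ?_) hff (by simp [haf])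
    (hX i f hf)
  obtain ⟨c, hc, rfl⟩ := d.dec w
  refine AddSubgroup.sum_mem _ fun l _ => ?_
  by_cases hli : l = i
  · subst hli
    refine mem_ME_of_QIn haa (fun w hw c _ => hSU l (E_mem_SUW ha hw c)) (hc l) (symm0 ?_)
    rw [← d.comp hc ha]; exact symm0 hwa
  · exact mem_of_mem_core (h2 l hli (hc l))

/-- from a point of `P(M)` meeting two orthogonal blocks to an Eichler element -/
theorem exists_ME_of_two (hM : M ≤ h.SU) {A B : Submodule F V} (hA : h.NdOn A) (hB : h.NdOn B)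
    (hA2 : 2 ≤ finrank F A) (hB2 : 2 ≤ finrank F B) (hAB : ∀ x ∈ A, ∀ y ∈ B, h x y = 0)
    (hXA : ∀ v ∈ A, h v v = 0 → h.XIn M v) (hXB : ∀ v ∈ B, h v v = 0 → h.XIn M v)
    (hq : (∃ t : F, star t = t ∧ t ≠ 0 ∧ t ≠ 1) ∨ (3 ≤ finrank F B ∧ h.SUW B ≤ M))
    {u x y : V} (huu : h u u = 0) (hu : h.XIn M u) (hx : x ∈ A) (hxu : h x u ≠ 0) (hy : y ∈ B)
    (hyu : h y u ≠ 0) :
    ∃ a ∈ A, a ≠ 0 ∧ ∃ haa : h a a = 0, ∃ b ∈ B, b ≠ 0 ∧ b ∈ h.ME M a haa := by
  obtain ⟨a, ha, haa, hau⟩ := hA.exists_iso_ne' hA2 hx hxu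
  have hua := symm_ne hau
  have hd := del_ne (F := F)
  obtain ⟨g, hg, b, hb, hb0, hbb, hgu, hbu⟩ : ∃ g ∈ M, ∃ b ∈ B, b ≠ 0 ∧ h b b = 0 ∧ g u = u + b ∧
      del F * h u a * h a u + h b u ≠ 0 := by
    rcases hq with ⟨t, ht, ht0, ht1⟩ | ⟨h3, hSU⟩
    · obtain ⟨b, hb, hbb, hbu⟩ := hB.exists_iso_ne' hB2 hy hyu
      have hub := symm_ne hbu
      obtain ⟨s, hs, hs0, hs1⟩ : ∃ s : F, star s = s ∧ s ≠ 0 ∧
          del F * h u a * h a u + s * del F * h u b * h b u ≠ 0 := by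
        by_cases h1 : del F * h u a * h a u + 1 * del F * h u b * h b u = 0
        · refine ⟨t, ht, ht0, fun h2 => ?_⟩
          have : (t - 1) * del F * h u b * h b u = 0 := by linear_combination h2 - h1
          simp [hd, hub, hbu, sub_ne_zero.2 ht1] at this
        · exact ⟨1, star_one F, one_ne_zero, h1⟩
      have h2 : s * del F + star (s * del F) = 0 := by simp [hs]
      refine ⟨_, hXB b hb hbb _ h2, (s * del F * h u b) • b, B.smul_mem _ hb, by
        simp [hs0, hd, hub, ne_zero_left hbu], by simp [hbb], T_apply hbb h2 u, by simpa using hs1⟩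
    · obtain ⟨w, hw, z, hz, rfl⟩ := hB.proj u
      have hw0 : w ≠ 0 := by rintro rfl; simp [symm0 (hz y hy)] at hyu
      by_cases hww : h w w = 0
      · obtain ⟨m, hm0, hm1⟩ := exists_ne_zero_one F
        obtain ⟨k, hk, hkw⟩ := hB.trans_iso h3 hw hw0 hww (B.smul_mem m hw) (smul_ne_zero hm0 hw0)
          (by simp [hww])
        refine ⟨k, hSU hk, (m - 1) • w, B.smul_mem _ hw, smul_ne_zero (sub_ne_zero.2 hm1) hw0,
          by simp [hww], ?_, ?_⟩
        · rw [map_add, hkw, hk.1.2 z hz]; module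
        · rw [smul_left, h.add_right w, hww, symm0 (hz w hw)]
          simpa only [add_zero, mul_zero] using mul_ne_zero (mul_ne_zero hd hua) hau
      · obtain ⟨b, hb, hb0, hbb, hbw⟩ := exists_iso_perp (h := h) B [w] (by simpa using h3)
        have hbw := hbw w (by simp)
        obtain ⟨c, hc⟩ := exists_tr (t := h (-(h w w)⁻¹ • w) (-(h w w)⁻¹ • w)) (h.conj _ _)
        have o : h.Ok b (-(h w w)⁻¹ • w) c := ⟨hbb, by simp [symm0 hbw], hc⟩
        refine ⟨_, hSU (E_mem_SUW hb (B.smul_mem (-(h w w)⁻¹) hw) c), b, hb, hb0, hbb, ?_, ?_⟩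
        · rw [E_apply_of_perp_left o (by simp [symm0 hbw, hz b hb])]
          simp [hz w hw, hww]
        · rw [h.add_right b, hbw, symm0 (hz b hb)]
          simpa only [add_zero, mul_zero] using mul_ne_zero (mul_ne_zero hd hua) hau
  have hba : h b a = 0 := symm0 (hAB a ha b hb)
  have h1 := ((hu.map hM huu hg).map hM (by rw [(hM hg).1, huu]) (hXA a ha haa _ del_tr))
  have h2 : h.T a (del F) (g u) = u + b + (del F * h u a) • a := by
    rw [T_apply haa del_tr, hgu]; simp [hba]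
  set a' := (del F * h u a) • a with ha'
  have haa' : h a' a' = 0 := by simp [ha', haa]
  have hba' : h b a' = 0 := by simp [ha', hba]
  have h3 := XIn.line hM huu (by rw [T_mem_GU, (hM hg).1, huu]) (by
    rw [h2]; simp only [add_left, huu, ha', smul_left]; convert hbu using 1; ring) hu h1 (-1) 1
  have h4 : (-1 : F) • u + (1 : F) • h.T a (del F) (g u) = a' + b := by rw [h2]; module
  rw [h4] at h3
  refine ⟨a', A.smul_mem _ ha, smul_ne_zero (mul_ne_zero hd hua) (ne_zero_left hau), haa',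
    del F • b, B.smul_mem _ hb, smul_ne_zero hd hb0, ?_⟩
  exact smul_mem_ME_of_X haa' hbb hba' del_tr (hXA _ (A.smul_mem _ ha) haa') (hXB b hb hbb)
    (h3 (by simp [haa', hbb, hba', symm0 hba']))

theorem Dec.exists_two (d : h.Dec D k) {u : V} (hu : ∀ i, u ∉ D i) (i₀ : ι) :
    ∃ i j, i ≠ j ∧ ∃ x ∈ D i, ∃ y ∈ D j, h x u ≠ 0 ∧ h y u ≠ 0 := by
  obtain ⟨c, hc, rfl⟩ := d.dec u
  obtain ⟨i, hi⟩ : ∃ i, c i ≠ 0 := by
    by_contra! h'; exact hu i₀ (by simp [h'])
  obtain ⟨j, hji, hj⟩ : ∃ j, j ≠ i ∧ c j ≠ 0 := by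
    by_contra! h'
    apply hu i
    rw [Finset.sum_eq_single i (fun j _ hj => h' j hj) (by simp)]
    exact hc i
  obtain ⟨x, hx, hx'⟩ := (d.nd i).exists_ne (hc i) hi
  obtain ⟨y, hy, hy'⟩ := (d.nd j).exists_ne (hc j) hj
  exact ⟨i, j, hji.symm, x, hx, y, hy, by rwa [d.comp hc hx], by rwa [d.comp hc hy]⟩

theorem Dec.core (d : h.Dec D k) (hk : 2 ≤ k)
    (hq : 3 ≤ k ∨ (3 ≤ Fintype.card ι ∧ ∃ t : F, star t = t ∧ t ≠ 0 ∧ t ≠ 1))
    (hM : M ≤ h.SU) (hH : ∀ g ∈ h.SU, DecStab D g → g ∈ M) (hg : ∃ g ∈ M, ¬ DecStab D g) :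
    h.SU ≤ M := by
  obtain ⟨g, hgM, hg⟩ := hg
  have hg1 := (hM hgM).1
  have hSU : ∀ l, h.SUW (D l) ≤ M := fun l g hg => hH g hg.2 (d.stab hg.1)
  have hX : ∀ l, ∀ v ∈ D l, h.XIn M v := fun l v hv c _ => hSU l (T_mem_SUW hv c)
  simp only [DecStab, not_forall, not_exists] at hg
  obtain ⟨i, hi⟩ := hg
  obtain ⟨v, hv, hvv, hu⟩ : ∃ v ∈ D i, h v v = 0 ∧ ∀ j, g v ∉ D j := by
    by_contra! h'
    obtain ⟨v₀, hv₀, hv₀', hvv₀⟩ := exists_iso (h := h) (K := D i) (by rw [d.rk]; exact hk)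
    obtain ⟨j, hj⟩ := h' v₀ hv₀ hvv₀
    obtain ⟨x, hx, hx'⟩ := hi j
    apply hx'
    refine (d.nd i).le_of_iso (A := (D j).comap (g : V →ₗ[F] V)) (by rw [d.rk]; exact hk)
      (fun v hv hvv => ?_) hx
    obtain ⟨l, hl⟩ := h' v hv hvv
    by_cases hlj : l = j
    · exact hlj ▸ hl
    have h1 : h v v₀ = 0 := by rw [← hg1]; exact d.orth l j hlj _ hl _ hj
    obtain ⟨m, hm⟩ := h' (v + v₀) ((D i).add_mem hv hv₀) (by simp [hvv, hvv₀, h1, symm0 h1])
    rw [map_add] at hm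
    by_cases hmj : m = j
    · subst hmj; simpa using (D m).sub_mem hm hj
    · exfalso
      have : g v₀ = 0 := d.nd j _ hj fun y hy => by
        simpa [d.orth j l (Ne.symm hlj) y hy _ hl] using d.orth j m (Ne.symm hmj) y hy _ hm
      exact hv₀' (by simpa using this)
  obtain ⟨i', j, hij, x, hx, y, hy, hxu, hyu⟩ := d.exists_two hu i
  obtain ⟨a, ha, ha0, haa, b, hb, hb0, hab⟩ := exists_ME_of_two hM (d.nd i') (d.nd j)
    (by rw [d.rk]; exact hk) (by rw [d.rk]; exact hk) (d.orth i' j hij) (fun v hv _ => hX _ v hv)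
    (fun v hv _ => hX _ v hv) (by
      rcases hq with h3 | h3
      · exact Or.inr ⟨by rw [d.rk]; exact h3, hSU j⟩
      · exact Or.inl h3.2) (by rw [hg1, hvv]) ((hX i v hv).map hM hvv hgM) hx hxu hy hyu
  obtain ⟨z, hz, hzb⟩ := (d.nd j).exists_ne hb hb0
  exact d.SU_le_of_ME hk (hq.imp id fun h => h.1) hM hH hij ha ha0 haa hab hz hzb

theorem Dec.ne (d : h.Dec D k) (hk : 2 ≤ k) (ht : 2 ≤ Fintype.card ι) :
    ∃ g ∈ h.SU, ¬ DecStab D g := by
  obtain ⟨i, j, hij⟩ := Fintype.exists_pair_of_one_lt_card (α := ι) (by omega)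
  have hne : ∀ l, D l ≠ ⊥ := fun l h0 => by
    have := d.rk l
    rw [h0] at this; simp at this; omega
  obtain ⟨a, ha, haa⟩ := (d.nd i).exists_unit (hne i)
  obtain ⟨b, hb, hbb⟩ := (d.nd j).exists_unit (hne j)
  obtain ⟨c, hc⟩ := exists_norm_eq (h := h) (v := b) (by simp [hbb]) (t := -1) (by simp)
  have hab := d.orth i j hij a ha b hb
  have hu : h (a + c • b) (a + c • b) = 0 := by
    rw [add_left, add_right, add_right, hc]; simp [haa, hab, symm0 hab]
  refine ⟨h.T (a + c • b) (del F), T_mem_SU _ _, fun hg => ?_⟩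
  obtain ⟨l, hl⟩ := hg i
  obtain ⟨a', ha', ha0', haa'⟩ := exists_ne_perp (h := h) (D i) [a] (by rw [d.rk]; simpa using hk)
  have h1 := hl a' ha'
  rw [T_apply_of_perp (by simp [haa' a (by simp), d.orth i j hij a' ha' b hb])] at h1
  obtain rfl := d.eq_of_mem ha0' ha' h1
  have := d.orth i j hij _ (hl a ha) b hb
  rw [T_apply hu del_tr] at this
  simp [haa, hab, hbb, del_ne] at this
  simp [this] at hc

end HF

theorem dec_of_decomp {F : Type*} [Field F] [Fintype F] {n q : ℕ} (hF : Fintype.card F = q ^ 2)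
    {t k : ℕ} {D : Fin t → Submodule F (Fin n → F)}
    (hD : Geo.IsNondegenerateMDecomposition (hermForm n F q) k D) :
    letI := powStar hF; (stdHF (Fin n) F).Dec D k := by
  letI := powStar hF
  refine ⟨fun i => ndOn_of_isNondegenerateOn hF (hD.nondegenerate i), hD.orthogonal,
    hD.decomp.finrank_eq, fun x => ?_⟩
  have : x ∈ iSup D := hD.decomp.iSup_eq_top ▸ trivial
  rw [Submodule.mem_iSup_iff_exists_finsupp] at this
  obtain ⟨f, hf, rfl⟩ := this
  exact ⟨f, hf, Finsupp.sum_fintype _ _ (by simp)⟩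

theorem exists_F0_ne {F : Type*} [Field F] [Fintype F] {q : ℕ} (hF : Fintype.card F = q ^ 2)
    (hq : 3 ≤ q) : letI := powStar hF; ∃ t : F, star t = t ∧ t ≠ 0 ∧ t ≠ 1 := by
  letI := powStar hF
  classical
  by_contra! h
  have h1 := card_F0 hF
  have : Nat.card (F0 F) ≤ Nat.card ({0, 1} : Finset F) := Nat.card_le_card_of_injective
    (fun x : F0 F => ⟨x.1, by
      by_cases h0 : x.1 = 0
      · simp [h0]
      · simp [h x.1 x.2 h0]⟩) fun x y hxy => Subtype.ext (by simpa using hxy)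
  rw [Nat.card_eq_fintype_card (α := ({0, 1} : Finset F)), Fintype.card_coe] at this
  have := Finset.card_le_two (a := (0 : F)) (b := 1)
  omega

theorem dec_maximal {F : Type*} [Field F] [Fintype F] (n q : ℕ) (hF : Fintype.card F = q ^ 2)
    {t : ℕ} (k : ℕ) (D : Fin t → Submodule F (Fin n → F))
    (hD : Geo.IsNondegenerateMDecomposition (hermForm n F q) k D) (hk : 2 ≤ k)
    (hq : 3 ≤ k ∨ (3 ≤ t ∧ 3 ≤ q)) :
    Geo.IsMaximalIn (GU n F q ⊓ Geo.specialLinear (Fin n) F)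
      (Geo.decompositionStabilizer D ⊓ (GU n F q ⊓ Geo.specialLinear (Fin n) F)) := by
  letI := powStar hF
  haveI := powStar_nstar hF
  have d := dec_of_decomp hF hD
  exact isMaximalIn_of_core (LinearEquiv.refl F _) (stdHF (Fin n) F) _ _ (mem_GU_iff hF n)
    (HF.DecStab D) (fun g _ => mem_decompositionStabilizer' hD.decomp)
    (d.ne hk (by simpa using hD.decomp.two_le)) fun M hM hH hg =>
      d.core hk (hq.imp id fun h => ⟨by simpa using h.1, exists_F0_ne hF h.2⟩) hM hH hg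

end Cfsg.Agent.H5.U
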