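import Cfsg.Agent.H5.U.Frame1

/-! Stabilisers of orthonormal frames: characteristic two. -/

set_option autoImplicit false
set_option linter.unusedSimpArgs false
set_option linter.unusedSectionVars false
set_option linter.unusedVariables false

namespace Cfsg.Agent.H5.U

open Module H6

section Dihedral

variable {G : Type*} [Group G] {s t : G}

theorem dihedral_cases [Finite G] (s t : G) :
    (∃ k : ℕ, s * t = ((s * t) ^ 2) ^ k) ∨ ∃ j : ℕ, (s * t) ^ j ≠ 1 ∧ (s * t) ^ j * (s * t) ^ j = 1 := by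
  rcases Nat.even_or_odd' (orderOf (s * t)) with ⟨k, hk | hk⟩
  · right
    have := orderOf_pos (s * t)
    exact ⟨k, pow_ne_one_of_lt_orderOf (by omega) (by omega), by
      rw [← pow_add, ← two_mul, ← hk, pow_orderOf_eq_one]⟩
  · left
    exact ⟨k + 1, by rw [← pow_mul, show 2 * (k + 1) = orderOf (s * t) + 1 by omega, pow_succ,
      pow_orderOf_eq_one, one_mul]⟩

theorem dihedral_left (hs : s * s = 1) (ht : t * t = 1) (j : ℕ) :
    s * (s * t) ^ j = ((s * t) ^ j)⁻¹ * s := by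
  have h1 : s * (s * t) * s⁻¹ = (s * t)⁻¹ := by
    rw [← mul_assoc, hs, one_mul, mul_inv_rev, inv_eq_of_mul_eq_one_right ht]
  rw [← inv_pow, ← h1, conj_pow]; simp

theorem dihedral_right (hs : s * s = 1) (ht : t * t = 1) (j : ℕ) :
    t * (s * t) ^ j = ((s * t) ^ j)⁻¹ * t := by
  have h1 : t * (s * t) * t⁻¹ = (s * t)⁻¹ := by
    rw [mul_inv_rev, inv_eq_of_mul_eq_one_right ht, inv_eq_of_mul_eq_one_right hs, mul_assoc,
      mul_assoc, ht, mul_one]
  rw [← inv_pow, ← h1, conj_pow]; simp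

theorem dihedral_conj (hs : s * s = 1) (ht : t * t = 1) (j : ℕ) :
    ∃ l : ℕ, s * (s * t) ^ j = ((s * t) ^ l)⁻¹ * s * (s * t) ^ l ∨
      s * (s * t) ^ j = ((s * t) ^ l)⁻¹ * t * (s * t) ^ l := by
  rcases Nat.even_or_odd' j with ⟨l, hl | hl⟩
  · exact ⟨l, Or.inl (by rw [← dihedral_left hs ht, hl, two_mul, pow_add, mul_assoc])⟩
  · refine ⟨l, Or.inr ?_⟩
    rw [← dihedral_right hs ht, hl, two_mul, pow_succ', ← mul_assoc, ← mul_assoc, hs, one_mul,
      pow_add, mul_assoc]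

end Dihedral

variable {F : Type*} {V : Type*} [Field F] [StarRing F] [AddCommGroup V] [Module F V]
  [NStar F] [Finite F] [FiniteDimensional F V]

theorem finite_equiv (F V : Type*) [Field F] [AddCommGroup V] [Module F V] [Finite F]
    [FiniteDimensional F V] : Finite (V ≃ₗ[F] V) := by
  haveI : Finite V := Module.finite_of_finite F
  exact DFunLike.finite _

theorem exists_two_tr (hq : ∃ t : F, star t = t ∧ t ≠ 0 ∧ t ≠ 1) :
    ∃ l m : F, l * star l = 1 ∧ l ≠ 1 ∧ m * star m = 1 ∧ m ≠ 1 ∧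
      (l - 1) * star (l - 1) ≠ (m - 1) * star (m - 1) := by
  classical
  obtain ⟨t, ht, ht0, ht1⟩ := hq
  obtain ⟨S, hS, hS'⟩ := card_normSet (F := F) 1 one_ne_zero
  have h3 : 3 ≤ Nat.card (F0 F) := by
    haveI := Fintype.ofFinite (F0 F)
    rw [Nat.card_eq_fintype_card]
    exact Fintype.two_lt_card_iff.2 ⟨0, 1, ⟨t, ht⟩, by simp, fun h => ht0 (congrArg Subtype.val h).symm,
      fun h => ht1 (congrArg Subtype.val h).symm⟩
  obtain ⟨x, hx, y, hy, hxy⟩ := Finset.one_lt_card.1 (show 1 < S.card by omega)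
  obtain ⟨l, h1, h2, rfl⟩ := hS' x hx
  obtain ⟨m, h4, h5, rfl⟩ := hS' y hy
  exact ⟨l, m, h1, h2, h4, h5, by simpa using hxy⟩

namespace HF

variable {h : HF F V} {M : Subgroup (V ≃ₗ[F] V)} {ι : Type*} [Fintype ι] [DecidableEq ι]
  {b : ι → V}

theorem T_eq_imp {u v : V} {c d : F} (hu : h u u = 0) (hv : h v v = 0) (hc : c + star c = 0)
    (hd : d + star d = 0) (hd0 : d ≠ 0) (huv : h.T u c = h.T v d) : ∃ a : F, v = a • u := by
  by_cases hv0 : v = 0
  · exact ⟨0, by simp [hv0]⟩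
  obtain ⟨x, hx⟩ := h.exists_ne hv0
  have := T_apply hu hc x
  rw [huv, T_apply hv hd, add_right_inj] at this
  exact ⟨(d * h x v)⁻¹ * (c * h x u), by rw [mul_smul, ← this, inv_smul_smul₀ (mul_ne_zero hd0 hx)]⟩

theorem T_sq (h2 : (2 : F) = 0) {u : V} {c : F} (hu : h u u = 0) (hc : c + star c = 0) :
    h.T u c * h.T u c = 1 := by
  rw [T_mul hu hc hc, ← two_mul, h2, zero_mul, T_zero]

theorem eq_self_of_commute_T (h2 : (2 : F) = 0) {z : V ≃ₗ[F] V} (hz : z ∈ h.GU) (hzz : z * z = 1)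
    {u : V} {c : F} (hu : h u u = 0) (hc : c + star c = 0) (hc0 : c ≠ 0)
    (hcomm : h.T u c * z = z * h.T u c) : z u = u := by
  by_cases hu0 : u = 0
  · simp [hu0]
  obtain ⟨a, ha⟩ := T_eq_imp hu (by rw [hz, hu]) hc hc hc0 (v := z u) (by
    rw [← conj_T hz hu hc, ← hcomm]; simp)
  have h1 : z (z u) = u := by rw [← mul_app, hzz, one_app]
  rw [ha, map_smul, ha, smul_smul] at h1
  have h3 : a * a = 1 := smul_left_injective F hu0 (h1.trans (one_smul F u).symm)
  have h4 : a = 1 := by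
    have : (a - 1) ^ 2 = 0 := by linear_combination h3 + (1 - a) * h2
    simpa [sub_eq_zero] using this
  rw [ha, h4, one_smul]

/-- the middle involution of a dihedral group generated by two transvections -/
theorem T_middle (h2 : (2 : F) = 0) {v w : V} {c : F} (hv : h v v = 0) (hw : h w w = 0)
    (hc : c + star c = 0) (hc0 : c ≠ 0) (hvw : h w v = h v w) (h0 : h v w ≠ 0)
    (h3 : h.T v c ∈ M) (h4 : h.T w c ∈ M) : h.T (v + w) (h v w)⁻¹ ∈ M := by
  haveI := finite_equiv F V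
  have hu : h (v + w) (v + w) = 0 := by simp [hv, hw, hvw]; linear_combination h v w * h2
  have hd : (h v w)⁻¹ + star (h v w)⁻¹ = 0 := by simp [hvw]; linear_combination (h v w)⁻¹ * h2
  have hmv : h.T (v + w) (h v w)⁻¹ v = w := by
    rw [T_apply hu hd]; simp [hv, h0, ← add_assoc, ← two_smul F v, h2]
  have hs := T_sq h2 hv hc
  have hm := T_sq h2 hu hd
  rcases dihedral_cases (h.T v c) (h.T (v + w) (h v w)⁻¹) with ⟨k, hk⟩ | ⟨j, hj1, hj2⟩
  · have h5 : (h.T v c * h.T (v + w) (h v w)⁻¹) ^ 2 ∈ M := by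
      have := conj_T (T_mem_GU (v + w) (h v w)⁻¹) hv hc
      rw [hmv, inv_eq_of_mul_eq_one_right hm] at this
      rw [sq, mul_assoc, ← mul_assoc _ (h.T v c) (h.T (v + w) _), this]
      exact M.mul_mem h3 h4
    exact (M.mul_mem_cancel_left h3).1 (hk ▸ M.pow_mem h5 k)
  · exfalso
    set z := (h.T v c * h.T (v + w) (h v w)⁻¹) ^ j with hz
    have hzG : z ∈ h.GU := h.GU.pow_mem (h.GU.mul_mem (T_mem_GU _ _) (T_mem_GU _ _)) j
    have h5 := eq_self_of_commute_T h2 hzG hj2 hv hc hc0 (by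
      rw [hz, dihedral_left hs hm, ← hz, inv_eq_of_mul_eq_one_right hj2])
    have h6 := eq_self_of_commute_T h2 hzG hj2 hu hd (inv_ne_zero h0) (by
      rw [hz, dihedral_right hs hm, ← hz, inv_eq_of_mul_eq_one_right hj2])
    rw [map_add, h5, add_right_inj] at h6
    apply hj1
    ext x
    have h7 : z (x - (h x w / h v w) • v - (h x v / h v w) • w) =
        x - (h x w / h v w) • v - (h x v / h v w) • w := by
      have h8 : h (x - (h x w / h v w) • v - (h x v / h v w) • w) v = 0 := by simp [hv, hvw, h0]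
      have h9 : h (x - (h x w / h v w) • v - (h x v / h v w) • w) w = 0 := by simp [hw, h0]
      exact (MulAction.stabilizer (V ≃ₗ[F] V) _).pow_mem ((MulAction.stabilizer (V ≃ₗ[F] V) _).mul_mem
        (T_apply_of_perp h8) (T_apply_of_perp (by rw [add_right, h8, h9, add_zero]))) j
    simpa [h5, h6] using h7

theorem ON.exists_diag {m : ℕ} {c : Fin m → V} (hc : h.ON c) (τ : Fin m → F)
    (hτ : ∀ a, τ a * star (τ a) = 1) : ∃ g ∈ h.GU, LinearMap.det (g : V →ₗ[F] V) = ∏ a, τ a ∧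
      ∀ x, g x = x + ∑ a, ((τ a - 1) * h x (c a)) • c a := by
  induction m with
  | zero => exact ⟨1, h.GU.one_mem, by simp, by simp⟩
  | succ m ih =>
    obtain ⟨g, hg, h1, h2⟩ := ih (c := fun a => c a.succ) (fun i j => by simpa using hc i.succ j.succ)
      (fun a => τ a.succ) (fun a => hτ _)
    have h0 : h (c 0) (c 0) = 1 := by simp [hc 0 0]
    refine ⟨h.R (c 0) (τ 0) * g, h.GU.mul_mem (R_mem_GU _ _) hg, ?_, fun x => ?_⟩
    · rw [det_mul', det_R (by simp [h0]) (hτ 0), h1, Fin.prod_univ_succ]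
    · rw [mul_app, R_apply1 h0 (hτ 0), h2, Fin.sum_univ_succ]
      simp [sum_left, hc _ 0]
      abel

theorem ONB.on_comp (hb : h.ONB b) {κ : Type*} [DecidableEq κ] {e : κ → ι}
    (he : Function.Injective e) : h.ON fun a => b (e a) := fun x y => by
  simp [hb.on _ _, he.eq_iff]

theorem Fr.exists_diag (f : h.Fr b M) {m : ℕ} {e : Fin m → ι} (he : Function.Injective e)
    (τ : Fin m → F) (hτ : ∀ a, τ a * star (τ a) = 1) (hp : ∏ a, τ a = 1) :
    ∃ g ∈ M, ∀ x, g x = x + ∑ a, ((τ a - 1) * h x (b (e a))) • b (e a) := by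
  obtain ⟨g, hg, h1, h2⟩ := (f.onb.on_comp he).exists_diag τ hτ
  refine ⟨g, f.mono g (mem_SU.2 ⟨hg, h1.trans hp⟩) fun i => ⟨i, ?_⟩, h2⟩
  by_cases hi : ∃ a, e a = i
  · obtain ⟨a, rfl⟩ := hi
    refine ⟨τ a, ?_⟩
    rw [h2]
    simp only [f.onb.on _ _, he.eq_iff, mul_ite, mul_one, mul_zero, ite_smul, zero_smul,
      Finset.sum_ite_eq, Finset.mem_univ, if_true]
    module
  · push Not at hi
    exact ⟨1, by rw [h2]; simp [f.onb.ne (hi _).symm]⟩

theorem ONB.coeff_out (hb : h.ONB b) {m : ℕ} {e : Fin m → ι} (c : Fin m → F) {i : ι}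
    (hi : ∀ a, e a ≠ i) : h (∑ a, c a • b (e a)) (b i) = 0 := by
  simp [sum_left, hb.ne (hi _)]

theorem ONB.exists_two_of_not_mono (hb : h.ONB b) {g : V ≃ₗ[F] V} (hg : ¬ Mono b g) :
    ∃ i a c, a ≠ c ∧ h (g (b i)) (b a) ≠ 0 ∧ h (g (b i)) (b c) ≠ 0 := by
  by_contra! h'
  refine hg fun i => ?_
  obtain ⟨a, ha⟩ := hb.exists_coord (u := g (b i)) (by
    simpa using ne_zero_left (h := h) (y := b i) (by simp [hb.self]))
  refine ⟨a, h (g (b i)) (b a), hb.ext fun c => ?_⟩
  by_cases hc : a = c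
  · simp [hc, hb.self]
  · simp [hb.ne hc, h' i a c hc ha]

theorem Fr.T_wt2_mem (f : h.Fr b M) (h2 : (2 : F) = 0) {i j : ι} (hij : i ≠ j) {l : F}
    (hl : l * star l = 1) : h (b i + l • b j) (b i + l • b j) = 0 ∧ h.T (b i + l • b j) 1 ∈ M := by
  have hb := f.onb
  have hu : h (b i + l • b j) (b i + l • b j) = 0 := by
    have := hb.wt2 hij 1 l
    rw [one_smul] at this
    rw [this, hl]; simp; linear_combination h2
  refine ⟨hu, f.mono _ (T_mem_SU _ _) fun m => ?_⟩
  rw [T_apply hu (by simp; linear_combination h2)]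
  by_cases hi : m = i
  · refine ⟨j, l, ?_⟩
    simp [hi, hb.self, hb.ne hij, ← add_assoc, ← two_smul F (b i), h2]
  by_cases hj : m = j
  · refine ⟨i, star l, ?_⟩
    simp only [hj, hb.self, hb.ne hij.symm, add_right, smul_right, mul_one, zero_add, one_mul,
      smul_add, smul_smul, mul_comm (star l), hl]
    linear_combination (norm := module) h2 • b j
  exact ⟨m, 1, by simp [hb.ne hi, hb.ne hj]⟩

theorem Fr.exists_wt3 (f : h.Fr b M) (h2 : (2 : F) = 0) (h5 : 5 ≤ Fintype.card ι)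
    (hg : ∃ g ∈ M, ¬ Mono b g) : ∃ v, h v v = 0 ∧ h.T v 1 ∈ M ∧ ∃ i j k, i ≠ j ∧ i ≠ k ∧ j ≠ k ∧
      h v (b i) ≠ 0 ∧ h v (b j) ≠ 0 ∧ h v (b k) ≠ 0 := by
  classical
  obtain ⟨g, hgM, hg⟩ := hg
  have hb := f.onb
  have hg1 := (f.le hgM).1
  obtain ⟨i, a, c, hac, ha, hc⟩ := hb.exists_two_of_not_mono hg
  by_contra! h'
  have key : ∀ j, i ≠ j → ∀ l : F, l * star l = 1 → ∀ x y z, x ≠ y → x ≠ z → y ≠ z →
      h (g (b i)) (b x) + l * h (g (b j)) (b x) ≠ 0 → h (g (b i)) (b y) + l * h (g (b j)) (b y) ≠ 0 →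
      h (g (b i)) (b z) + l * h (g (b j)) (b z) = 0 := by
    intro j hij l hl x y z hxy hxz hyz hx hy
    obtain ⟨h3, h4⟩ := f.T_wt2_mem h2 hij hl
    have := h' (g (b i + l • b j)) (by rw [hg1, h3]) (by
      rw [← conj_T hg1 h3 (by simp; linear_combination h2)]
      exact M.mul_mem (M.mul_mem hgM h4) (M.inv_mem hgM)) x y z hxy hxz hyz (by simpa using hx)
      (by simpa using hy)
    simpa using this
  obtain ⟨n, hn, hn'⟩ := exists_norm_one_star_ne F
  have hn1 : n ≠ 1 := fun h0 => hn' (by simp [h0])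
  have hn2 : star n ≠ 1 := fun h0 => hn1 (by simpa using congrArg star h0)
  have kill : ∀ x y l m : F, x ≠ 0 → x + l * y = 0 → x + m * y = 0 → l = m := by
    intro x y l m hx h1 h3
    have hy : y ≠ 0 := by rintro rfl; exact hx (by simpa using h1)
    exact mul_right_cancel₀ hy (by linear_combination h1 - h3)
  have full : ∀ e, h (g (b i)) (b e) ≠ 0 := by
    intro e he
    have hea : e ≠ a := by rintro rfl; exact ha he
    have hec : e ≠ c := by rintro rfl; exact hc he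
    have : b e = 0 := (hb.map hg1).ext fun j => by
      rw [zero_left]
      by_cases hij : i = j
      · rw [← hij]; exact symm0 he
      by_contra h3
      have h4 : ∀ l : F, l * star l = 1 → h (g (b i)) (b a) + l * h (g (b j)) (b a) = 0 ∨
          h (g (b i)) (b c) + l * h (g (b j)) (b c) = 0 := by
        intro l hl
        by_contra! h4
        have := key j hij l hl a c e hac hea.symm hec.symm h4.1 h4.2
        rw [he, zero_add] at this
        exact mul_ne_zero (ne_zero_of_norm_one hl) (symm_ne h3) this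
      rcases h4 1 (by simp) with h5 | h5 <;> rcases h4 n hn with h6 | h6 <;>
        rcases h4 _ (norm_one_star hn) with h7 | h7
      · exact hn1 (kill _ _ _ _ ha h6 h5)
      · exact hn1 (kill _ _ _ _ ha h6 h5)
      · exact hn2 (kill _ _ _ _ ha h7 h5)
      · exact hn' (kill _ _ _ _ hc h7 h6)
      · exact hn' (kill _ _ _ _ ha h7 h6)
      · exact hn2 (kill _ _ _ _ hc h7 h5)
      · exact hn1 (kill _ _ _ _ hc h6 h5)
      · exact hn1 (kill _ _ _ _ hc h6 h5)
    have h3 := hb.self e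
    simp [this] at h3
  obtain ⟨j, hj⟩ := exists_not_mem_list [i] (by simp; omega)
  have hij : i ≠ j := by rintro rfl; simp at hj
  have h3 : ∀ l : F, l * star l = 1 →
      (Finset.univ.filter fun x => h (g (b i)) (b x) + l * h (g (b j)) (b x) ≠ 0).card ≤ 2 := by
    intro l hl
    by_contra h3
    obtain ⟨x, y, z, hx, hy, hz, hxy, hxz, hyz⟩ := Finset.two_lt_card_iff.1 (not_le.1 h3)
    simp only [Finset.mem_filter, Finset.mem_univ, true_and] at hx hy hz
    exact hz (key j hij l hl x y z hxy hxz hyz hx hy)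
  have h4 := Finset.card_le_card (show (Finset.univ : Finset ι) ⊆
      (Finset.univ.filter fun x => h (g (b i)) (b x) + 1 * h (g (b j)) (b x) ≠ 0) ∪
      (Finset.univ.filter fun x => h (g (b i)) (b x) + n * h (g (b j)) (b x) ≠ 0) from fun x _ => by
    simp only [Finset.mem_union, Finset.mem_filter, Finset.mem_univ, true_and]
    by_contra! h4
    exact hn1 (kill _ _ _ _ (full x) h4.2 h4.1))
  have := Finset.card_union_le
      (Finset.univ.filter fun x => h (g (b i)) (b x) + 1 * h (g (b j)) (b x) ≠ 0)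
      (Finset.univ.filter fun x => h (g (b i)) (b x) + n * h (g (b j)) (b x) ≠ 0)
  have := h3 1 (by simp)
  have := h3 n hn
  simp only [Finset.card_univ] at *
  omega

theorem inj4 {i j k l : ι} (hij : i ≠ j) (hik : i ≠ k) (hil : i ≠ l) (hjk : j ≠ k) (hjl : j ≠ l)
    (hkl : k ≠ l) : Function.Injective ![i, j, k, l] := by
  intro x y
  fin_cases x <;> fin_cases y <;> simp [*, Ne.symm]

theorem Fr.SU_le_of_four (f : h.Fr b M) (h2 : (2 : F) = 0) (h5 : 5 ≤ Fintype.card ι)
    (hq : ∃ t : F, star t = t ∧ t ≠ 0 ∧ t ≠ 1) {v : V} (hv : h v v = 0) (hT : h.T v 1 ∈ M)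
    {i j k l : ι} (hij : i ≠ j) (hik : i ≠ k) (hil : i ≠ l) (hjk : j ≠ k) (hjl : j ≠ l)
    (hkl : k ≠ l) (hi : h v (b i) ≠ 0) (hj : h v (b j) ≠ 0) {x y β : F} (hx : x * star x = 1)
    (hx1 : x ≠ 1) (hy : y * star y = 1)
    (hβ : β = (x - 1) * (h v (b i) * h (b i) v) + (star x - 1) * (h v (b j) * h (b j) v) +
      (y - 1) * (h v (b k) * h (b k) v) + (star y - 1) * (h v (b l) * h (b l) v))
    (hβ1 : star β = β) (hβ0 : β ≠ 0)
    (hne : (x - 1) * star (x - 1) * (h v (b i) * h (b i) v) ≠ β ∨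
      (x - 1) * star (x - 1) * (h v (b j) * h (b j) v) ≠ β) : h.SU ≤ M := by
  have hb := f.onb
  have he := inj4 hij hik hil hjk hjl hkl
  obtain ⟨g, hg, hg'⟩ := f.exists_diag he ![x, star x, y, star y] (fun a => by
    fin_cases a <;> simp [hx, hy, mul_comm]) (by
    simp only [Fin.prod_univ_four]; simp [hx, mul_assoc, hy])
  obtain ⟨m, hm⟩ := exists_not_mem_list [i, j, k, l] (by simp; omega)
  have h1 : (1 : F) + star 1 = 0 := by simp; linear_combination h2
  have h3 : h (g v) v = β := by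
    rw [hg', add_left, hv, sum_left, Fin.sum_univ_four, hβ]; simp; ring
  have h4 : h v (g v) = β := by rw [← h.conj, h3, hβ1]
  have h6 := T_middle h2 hv (by rw [(f.le hg).1, hv]) h1 one_ne_zero (by rw [h3, h4])
    (by rw [h4]; exact hβ0) hT (by
      rw [← conj_T (f.le hg).1 hv h1]; exact M.mul_mem (M.mul_mem hg hT) (M.inv_mem hg))
  have h7 : h (v + g v) (v + g v) = 0 := by
    simp [hv, h3, h4, (f.le hg).1 v v]; linear_combination β * h2
  have h8 : v + g v = ∑ a, ((![x, star x, y, star y] a - 1) * h v (b (![i, j, k, l] a))) •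
      b (![i, j, k, l] a) := by
    rw [hg', ← add_assoc, ← two_smul F v, h2]; simp
  have h9 : h (v + g v) (b m) = 0 := by
    rw [h8]; refine hb.coeff_out _ fun a ha => hm ?_
    rw [← ha]; fin_cases a <;> simp
  have h10 := (hb.on_comp he).coeff (fun a => (![x, star x, y, star y] a - 1) * h v (b (![i, j, k, l] a)))
  rw [← h8] at h10
  rw [h4] at h6
  have hd : β⁻¹ + star β⁻¹ = 0 := by simp [hβ1]; linear_combination β⁻¹ * h2
  have hx1' : star x - 1 ≠ 0 := by simpa using star_ne_zero' (sub_ne_zero.2 hx1)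
  rcases hne with hne | hne
  · have h11 : h (v + g v) (b i) = (x - 1) * h v (b i) := by simpa using h10 0
    refine f.SU_le_of_T h5 hq h7 (inv_ne_zero hβ0) hd h6 h9 (i := i)
      (by rw [h11]; exact mul_ne_zero (sub_ne_zero.2 hx1) hi) (Or.inr ⟨h2, fun h12 => hne ?_⟩)
    rw [← h.conj (v + g v), h11, star_mul', conj] at h12
    field_simp at h12
    linear_combination h12
  · have h11 : h (v + g v) (b j) = (star x - 1) * h v (b j) := by simpa using h10 1
    refine f.SU_le_of_T h5 hq h7 (inv_ne_zero hβ0) hd h6 h9 (i := j)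
      (by rw [h11]; exact mul_ne_zero hx1' hj) (Or.inr ⟨h2, fun h12 => hne ?_⟩)
    rw [← h.conj (v + g v), h11, star_mul', conj] at h12
    simp only [star_sub, star_star, star_one] at h12 ⊢
    field_simp at h12
    linear_combination h12

theorem Fr.SU_le_of_eq_pairs (f : h.Fr b M) (h2 : (2 : F) = 0) (h5 : 5 ≤ Fintype.card ι)
    (hq : ∃ t : F, star t = t ∧ t ≠ 0 ∧ t ≠ 1) {v : V} (hv : h v v = 0) (hT : h.T v 1 ∈ M)
    {i j k l : ι} (hij : i ≠ j) (hik : i ≠ k) (hil : i ≠ l) (hjk : j ≠ k) (hjl : j ≠ l)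
    (hkl : k ≠ l) (hi : h v (b i) ≠ 0) (hj : h v (b j) ≠ 0) (hk : h v (b k) ≠ 0)
    (h3 : h v (b j) * h (b j) v = h v (b i) * h (b i) v)
    (h4 : h v (b l) * h (b l) v = h v (b k) * h (b k) v) : h.SU ≤ M := by
  obtain ⟨x, y, hx, hx1, hy, hy1, hxy⟩ := exists_two_tr hq
  set A := h v (b i) * h (b i) v with hA
  set B := h v (b k) * h (b k) v with hB
  have hA0 : A ≠ 0 := mul_ne_zero hi (symm_ne hi)
  have hB0 : B ≠ 0 := mul_ne_zero hk (symm_ne hk)
  have hA1 : star A = A := by simp [hA, mul_comm]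
  have hB1 : star B = B := by simp [hB, mul_comm]
  have key : ∀ x y : F, x * star x = 1 → x ≠ 1 → y * star y = 1 → y ≠ 1 →
      (x - 1) * star (x - 1) * A + (y - 1) * star (y - 1) * B ≠ 0 → h.SU ≤ M := by
    intro x y hx hx1 hy hy1 hne
    refine f.SU_le_of_four h2 h5 hq hv hT hij hik hil hjk hjl hkl hi hj hx hx1 hy
      (β := (x - 1) * star (x - 1) * A + (y - 1) * star (y - 1) * B) ?_ ?_ hne (Or.inl fun h6 => ?_)
    · rw [h3, h4]; simp only [star_sub, star_one]
      linear_combination A * hx + B * hy + ((1 - x - star x + 1) * A + (1 - y - star y + 1) * B) * h2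
    · rw [star_add, star_mul' _ A, star_mul' _ B, star_norm, star_norm, hA1, hB1]
    · exact mul_ne_zero (norm_ne_zero (sub_ne_zero.2 hy1)) hB0 (by linear_combination -h6)
  by_cases h6 : (x - 1) * star (x - 1) * A + (x - 1) * star (x - 1) * B = 0
  · refine key y x hy hy1 hx hx1 fun h7 => hxy ?_
    exact mul_right_cancel₀ hA0 (by linear_combination h6 - h7)
  · exact key x x hx hx1 hx hx1 h6

theorem Fr.SU_le_of_ne_pairs (f : h.Fr b M) (h2 : (2 : F) = 0) (h5 : 5 ≤ Fintype.card ι)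
    (hq : ∃ t : F, star t = t ∧ t ≠ 0 ∧ t ≠ 1) {v : V} (hv : h v v = 0) (hT : h.T v 1 ∈ M)
    {i j k l : ι} (hij : i ≠ j) (hik : i ≠ k) (hil : i ≠ l) (hjk : j ≠ k) (hjl : j ≠ l)
    (hkl : k ≠ l) (hi : h v (b i) ≠ 0) (hj : h v (b j) ≠ 0)
    (h3 : h v (b j) * h (b j) v ≠ h v (b i) * h (b i) v)
    (h4 : h v (b l) * h (b l) v ≠ h v (b k) * h (b k) v) : h.SU ≤ M := by
  set A := h v (b i) * h (b i) v with hA
  set A' := h v (b j) * h (b j) v with hA'
  set B := h v (b k) * h (b k) v with hB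
  set B' := h v (b l) * h (b l) v with hB'
  have hA1 : star A = A := by simp [hA, mul_comm]
  have hA1' : star A' = A' := by simp [hA', mul_comm]
  have hB1 : star B = B := by simp [hB, mul_comm]
  have hB1' : star B' = B' := by simp [hB', mul_comm]
  obtain ⟨x, y, hx, hx1, hy, hy1, hxy⟩ := exists_norm_sub_one_eq (A := A' - A) (B := B' - B)
    (by simp [hA1, hA1']) (sub_ne_zero.2 h3) (by simp [hB1, hB1']) (sub_ne_zero.2 h4)
  have key : ∀ x : F, x * star x = 1 → x ≠ 1 →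
      (x - 1) * star (x - 1) * (A' - A) = (y - 1) * star (y - 1) * (B' - B) →
      (x - 1) * A + (star x - 1) * A' + (y - 1) * B + (star y - 1) * B' ≠ 0 → h.SU ≤ M := by
    intro x hx hx1 hxy hne
    refine f.SU_le_of_four h2 h5 hq hv hT hij hik hil hjk hjl hkl hi hj hx hx1 hy rfl ?_ hne ?_
    · simp only [star_add, star_mul', star_sub, star_star, star_one, ← hA, ← hA', ← hB, ← hB',
        hA1, hA1', hB1, hB1'] at hxy ⊢
      linear_combination hxy - (A' - A) * hx + (B' - B) * hy +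
        ((x - 1) * (A' - A) + (1 - star y) * (B' - B)) * h2
    · by_contra! h6
      exact h3 (mul_left_cancel₀ (norm_ne_zero (sub_ne_zero.2 hx1)) (h6.2.trans h6.1.symm))
  by_cases h6 : (x - 1) * A + (star x - 1) * A' + (y - 1) * B + (star y - 1) * B' = 0
  · refine key (star x) (norm_one_star hx) (fun h0 => hx1 (by simpa using congrArg star h0))
      (by rw [← hxy]; simp [mul_comm]) fun h7 => ?_
    rw [star_star] at h7
    have h8 : (x - 1) * star (x - 1) * (A' - A) = 0 := by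
      simp only [star_sub, star_one]
      linear_combination h7 - h6 + (A' - A) * hx + (1 - x) * (A' - A) * h2
    exact mul_ne_zero (norm_ne_zero (sub_ne_zero.2 hx1)) (sub_ne_zero.2 h3) h8
  · exact key x hx hx1 hxy h6

theorem ONB.exists_fourth (hb : h.ONB b) (h2 : (2 : F) = 0) {v : V} (hv : h v v = 0) {i j k : ι}
    (hij : i ≠ j) (hik : i ≠ k) (hjk : j ≠ k) (hi : h v (b i) * h (b i) v = 1)
    (hj : h v (b j) * h (b j) v = 1) (hk : h v (b k) * h (b k) v = 1) :
    ∃ l, i ≠ l ∧ j ≠ l ∧ k ≠ l ∧ h v (b l) ≠ 0 := by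
  by_contra! h'
  rw [hb.form, ← Finset.sum_subset (Finset.subset_univ {i, j, k}) (fun l _ hl => by
    simp only [Finset.mem_insert, Finset.mem_singleton, not_or] at hl
    simp [h' l (Ne.symm hl.1) (Ne.symm hl.2.1) (Ne.symm hl.2.2)]),
    Finset.sum_insert (by simp [hij, hik]), Finset.sum_pair hjk, hi, hj, hk] at hv
  exact one_ne_zero (α := F) (by linear_combination hv - h2)

theorem Fr.core_even (f : h.Fr b M) (h2 : (2 : F) = 0) (h5 : 5 ≤ Fintype.card ι)
    (hq : ∃ t : F, star t = t ∧ t ≠ 0 ∧ t ≠ 1) (hg : ∃ g ∈ M, ¬ Mono b g) : h.SU ≤ M := by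
  obtain ⟨v, hv, hT, i, j, k, hij, hik, hjk, hi, hj, hk⟩ := f.exists_wt3 h2 h5 hg
  by_cases h0 : ∃ m, h v (b m) = 0
  · obtain ⟨m, hm⟩ := h0
    by_cases h1 : ∃ n, h v (b n) ≠ 0 ∧ h v (b n) * h (b n) v ≠ 1
    · obtain ⟨n, hn, hn'⟩ := h1
      exact f.SU_le_of_T h5 hq hv one_ne_zero (by simp; linear_combination h2) hT hm hn
        (Or.inr ⟨h2, by simpa using hn'⟩)
    push Not at h1
    obtain ⟨l, hil, hjl, hkl, hl⟩ := f.onb.exists_fourth h2 hv hij hik hjk (h1 i hi) (h1 j hj) (h1 k hk)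
    exact f.SU_le_of_eq_pairs h2 h5 hq hv hT hij hik hil hjk hjl hkl hi hj hk
      (by rw [h1 i hi, h1 j hj]) (by rw [h1 k hk, h1 l hl])
  push Not at h0
  obtain ⟨l, hl⟩ := exists_not_mem_list [i, j, k] (by simp; omega)
  obtain ⟨m, hm⟩ := exists_not_mem_list [i, j, k, l] (by simp; omega)
  simp only [List.mem_cons, List.not_mem_nil, or_false, not_or] at hl hm
  obtain ⟨hli, hlj, hlk⟩ := hl
  obtain ⟨hmi, hmj, hmk, hml⟩ := hm
  have E := fun i j k l hij hik hil hjk hjl hkl => f.SU_le_of_eq_pairs h2 h5 hq hv hT (i := i)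
    (j := j) (k := k) (l := l) hij hik hil hjk hjl hkl (h0 i) (h0 j) (h0 k)
  have N := fun i j k l hij hik hil hjk hjl hkl => f.SU_le_of_ne_pairs h2 h5 hq hv hT (i := i)
    (j := j) (k := k) (l := l) hij hik hil hjk hjl hkl (h0 i) (h0 j)
  have aux : ∀ i j k l m : ι, i ≠ j → i ≠ k → i ≠ l → i ≠ m → j ≠ k → j ≠ l → j ≠ m → k ≠ l →
      k ≠ m → l ≠ m → h v (b j) * h (b j) v = h v (b i) * h (b i) v →
      h v (b k) * h (b k) v = h v (b i) * h (b i) v →
      h v (b l) * h (b l) v ≠ h v (b i) * h (b i) v → h.SU ≤ M := by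
    intro i j k l m hij hik hil him hjk hjl hjm hkl hkm hlm h3 h4 h6
    by_cases h7 : h v (b m) * h (b m) v = h v (b i) * h (b i) v
    · exact E i j k m hij hik him hjk hjm hkm h3 (h7.trans h4.symm)
    · exact N i l j m hil hij him hjl.symm hlm hjm h6 (by rwa [h3])
  have aux2 : ∀ i j k l m : ι, i ≠ j → i ≠ k → i ≠ l → i ≠ m → j ≠ k → j ≠ l → j ≠ m → k ≠ l →
      k ≠ m → l ≠ m → h v (b j) * h (b j) v = h v (b i) * h (b i) v →
      h v (b l) * h (b l) v ≠ h v (b k) * h (b k) v → h.SU ≤ M := by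
    intro i j k l m hij hik hil him hjk hjl hjm hkl hkm hlm h3 h4
    by_cases h6 : h v (b k) * h (b k) v = h v (b i) * h (b i) v
    · exact aux i j k l m hij hik hil him hjk hjl hjm hkl hkm hlm h3 h6 (by rwa [← h6])
    by_cases h7 : h v (b l) * h (b l) v = h v (b i) * h (b i) v
    · exact aux i j l k m hij hil hik him hjl hjk hjm hkl.symm hlm hkm h3 h7 h6
    exact N i k j l hik hij hil hjk.symm hkl hjl h6 (by rwa [h3])
  by_cases h3 : h v (b j) * h (b j) v = h v (b i) * h (b i) v <;>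
    by_cases h4 : h v (b l) * h (b l) v = h v (b k) * h (b k) v
  · exact E i j k l hij hik (Ne.symm hli) hjk (Ne.symm hlj) (Ne.symm hlk) h3 h4
  · exact aux2 i j k l m hij hik (Ne.symm hli) (Ne.symm hmi) hjk (Ne.symm hlj) (Ne.symm hmj)
      (Ne.symm hlk) (Ne.symm hmk) (Ne.symm hml) h3 h4
  · exact aux2 k l i j m (Ne.symm hlk) hik.symm hjk.symm (Ne.symm hmk) hli hlj (Ne.symm hml) hij
      (Ne.symm hmi) (Ne.symm hmj) h4 h3
  · exact N i j k l hij hik (Ne.symm hli) hjk (Ne.symm hlj) (Ne.symm hlk) h3 h4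


/-! ### the field with four elements -/

section Four

variable (hq : ∀ t : F, star t = t → t = 0 ∨ t = 1)
include hq

theorem two_eq_zero_of_F4 : (2 : F) = 0 := by
  rcases hq 2 (by simp) with h | h
  · exact h
  · exact absurd (by linear_combination h) (one_ne_zero (α := F))

theorem norm_eq_one_of_F4 {x : F} (hx : x ≠ 0) : x * star x = 1 :=
  (hq _ (star_norm x)).resolve_left (norm_ne_zero hx)

theorem xIn_of_F4 {u : V} (hT : h.T u 1 ∈ M) : h.XIn M u := by
  intro c hc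
  have h2 := two_eq_zero_of_F4 hq
  rcases hq c (by linear_combination hc - c * h2) with rfl | rfl
  · rw [T_zero]; exact M.one_mem
  · exact hT

theorem exists_omega_F4 : ∃ w : F, w * star w = 1 ∧ w + star w = 1 := by
  obtain ⟨w, h1, h3⟩ := exists_norm_one_star_ne F
  have h2 := two_eq_zero_of_F4 hq
  refine ⟨w, h1, (hq _ (by simp [add_comm])).resolve_left fun h0 => h3 ?_⟩
  linear_combination h0 - w * h2

theorem Fr.pt_F4 (f : h.Fr b M) (h3 : 3 ≤ Fintype.card ι) {i j : ι} (hij : i ≠ j) : h.Pt b M i j := by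
  have h2 := two_eq_zero_of_F4 hq
  obtain ⟨h4, h5⟩ := f.T_wt2_mem h2 hij (l := 1) (by simp)
  exact f.pt_of_one h3 hij (s := 1) (t := 1) one_ne_zero (by simp; linear_combination h2)
    (by simpa using xIn_of_F4 hq h5)

theorem Fr.diag_F4 (f : h.Fr b M) {v : V} (hv : h v v = 0) (hX : h.XIn M v) {m : ℕ} {e : Fin m → ι}
    (he : Function.Injective e) (τ : Fin m → F) (hτ : ∀ a, τ a * star (τ a) = 1)
    (hp : ∏ a, τ a = 1) (hs : ∑ a, (τ a - 1) * (h v (b (e a)) * h (b (e a)) v) = 1) :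
    h (∑ a, ((τ a - 1) * h v (b (e a))) • b (e a)) (∑ a, ((τ a - 1) * h v (b (e a))) • b (e a)) = 0 ∧
      h.XIn M (∑ a, ((τ a - 1) * h v (b (e a))) • b (e a)) := by
  have h2 := two_eq_zero_of_F4 hq
  obtain ⟨g, hg, hg'⟩ := f.exists_diag he τ hτ hp
  have h3 : h (g v) v = 1 := by
    rw [hg', add_left, hv, sum_left, zero_add]; simpa [mul_assoc] using hs
  have h4 : (-1 : F) • v + (1 : F) • g v = ∑ a, ((τ a - 1) * h v (b (e a))) • b (e a) := by
    rw [hg']; module
  have h5 : h ((-1 : F) • v + (1 : F) • g v) ((-1 : F) • v + (1 : F) • g v) = 0 := by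
    simp [hv, h3, symm1 h3, (f.le hg).1 v v]; linear_combination -h2
  have := XIn.line f.le hv (by rw [(f.le hg).1, hv]) (by simp [h3]) hX (hX.map f.le hv hg) (-1) 1 h5
  rw [h4] at this h5
  exact ⟨h5, this⟩

theorem Fr.SU_le_F4 (f : h.Fr b M) (h5 : 5 ≤ Fintype.card ι) {v : V} (hv : h v v = 0)
    (hX : h.XIn M v) {i j k m : ι} (hij : i ≠ j) (hik : i ≠ k) (hjk : j ≠ k) (hi : h v (b i) ≠ 0)
    (hj : h v (b j) ≠ 0) (hk : h v (b k) ≠ 0) (hm : h v (b m) = 0) : h.SU ≤ M := by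
  have h2 := two_eq_zero_of_F4 hq
  have hb := f.onb
  have hN : ∀ n, h v (b n) ≠ 0 → h v (b n) * h (b n) v = 1 := fun n hn => by
    simpa using norm_eq_one_of_F4 hq hn
  obtain ⟨l, hil, hjl, hkl, hl⟩ := hb.exists_fourth h2 hv hij hik hjk (hN i hi) (hN j hj) (hN k hk)
  have him : i ≠ m := by rintro rfl; exact hi hm
  have hjm : j ≠ m := by rintro rfl; exact hj hm
  have hkm : k ≠ m := by rintro rfl; exact hk hm
  have hlm : l ≠ m := by rintro rfl; exact hl hm
  obtain ⟨w, hw1, hw2⟩ := exists_omega_F4 hq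
  have hw3 : w - 1 ≠ 0 := by
    intro h0
    have : w = 1 := by linear_combination h0
    rw [this] at hw2; simp at hw2
  have hw4 : star w - 1 ≠ 0 := by simpa using star_ne_zero' hw3
  obtain ⟨h3, h4⟩ := f.diag_F4 hq hv hX (e := ![i, j, k, l, m]) (by
    intro x y; fin_cases x <;> fin_cases y <;> simp [*, Ne.symm])
    ![w, star w, star w, star w, star w] (fun a => by fin_cases a <;> simp [hw1, mul_comm])
    (by
      simp only [Fin.prod_univ_five]; simp
      linear_combination (star w ^ 3) * hw1 + (star w + 1) * (star w * hw2 - hw1) - h2)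
    (by
      simp only [Fin.sum_univ_five]; simp [hN i hi, hN j hj, hN k hk, hN l hl, hm]
      linear_combination hw2 + (star w - 2) * h2)
  simp only [Fin.sum_univ_five] at h3 h4
  simp only [Matrix.cons_val_zero, Matrix.cons_val_one, Matrix.cons_val, hm, mul_zero, zero_smul,
    add_zero] at h3 h4
  set a := ((w - 1) * h v (b i)) • b i + ((star w - 1) * h v (b j)) • b j with ha
  set c := ((star w - 1) * h v (b k)) • b k + ((star w - 1) * h v (b l)) • b l with hc
  have haA : a ∈ Submodule.span F {b i, b j} := Submodule.mem_span_pair.2 ⟨_, _, rfl⟩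
  have hcA : c ∈ Submodule.span F {b k, b l} := Submodule.mem_span_pair.2 ⟨_, _, rfl⟩
  have haa : h a a = 0 := by
    rw [ha, hb.wt2 hij, norm_eq_one_of_F4 hq (mul_ne_zero hw3 hi),
      norm_eq_one_of_F4 hq (mul_ne_zero hw4 hj)]; linear_combination h2
  have hcc : h c c = 0 := by
    rw [hc, hb.wt2 hkl, norm_eq_one_of_F4 hq (mul_ne_zero hw4 hk),
      norm_eq_one_of_F4 hq (mul_ne_zero hw4 hl)]; linear_combination h2
  have p : ∀ i j, i ≠ j → h.Pt b M i j := fun i j hij => f.pt_F4 hq (by omega) hij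
  have h6 := smul_mem_ME_of_X haa hcc
    (symm0 (hb.perp_pairs hik.symm hjk.symm hil.symm hjl.symm a haA c hcA)) del_tr
    (f.X_pair hij (p i j hij) a haA haa) (f.X_pair hkl (p k l hkl) c hcA hcc)
    (by rwa [hc, ← add_assoc])
  refine f.SU_le_of_ME h5 p hij hkl hik.symm hjk.symm hil.symm hjl.symm haA
    (ne_zero_left (h := h) (y := b i) ?_) haa (Submodule.smul_mem _ _ hcA)
    (smul_ne_zero del_ne (ne_zero_left (h := h) (y := b k) ?_)) h6
  · simp [ha, hb.self, hb.ne hij.symm, hw3, hi]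
  · simp [hc, hb.self, hb.ne hkl.symm, hw4, hk]

theorem Fr.core_F4 (f : h.Fr b M) (h7 : 7 ≤ Fintype.card ι) (hg : ∃ g ∈ M, ¬ Mono b g) :
    h.SU ≤ M := by
  have h2 := two_eq_zero_of_F4 hq
  have hb := f.onb
  obtain ⟨v, hv, hT, i, j, k, hij, hik, hjk, hi, hj, hk⟩ := f.exists_wt3 h2 (by omega) hg
  have hX := xIn_of_F4 hq hT
  by_cases h0 : ∃ m, h v (b m) = 0
  · obtain ⟨m, hm⟩ := h0
    exact f.SU_le_F4 hq (by omega) hv hX hij hik hjk hi hj hk hm
  push Not at h0
  have hN : ∀ n, h v (b n) * h (b n) v = 1 := fun n => by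
    simpa using norm_eq_one_of_F4 hq (h0 n)
  obtain ⟨e⟩ : Nonempty (Fin 7 ↪ ι) := Function.Embedding.nonempty_of_card_le (by simpa using h7)
  obtain ⟨w, hw1, hw2⟩ := exists_omega_F4 hq
  have hw3 : w - 1 ≠ 0 := by
    intro h0
    have : w = 1 := by linear_combination h0
    rw [this] at hw2; simp at hw2
  have hw4 : star w - 1 ≠ 0 := by simpa using star_ne_zero' hw3
  obtain ⟨h3, h4⟩ := f.diag_F4 hq hv hX e.injective ![w, star w, w, star w, w, star w, 1]
    (fun a => by fin_cases a <;> simp [hw1, mul_comm])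
    (by simp only [Fin.prod_univ_seven]; simp [hw1, mul_assoc])
    (by
      simp only [Fin.sum_univ_seven]; simp [hN]
      linear_combination 3 * hw2 - 2 * h2)
  have h5 := (hb.on_comp e.injective).coeff
    (fun a => (![w, star w, w, star w, w, star w, 1] a - 1) * h v (b (e a)))
  refine f.SU_le_F4 hq (by omega) h3 h4 (i := e 0) (j := e 1) (k := e 2) (m := e 6) (by simp)
    (by simp) (by simp) ?_ ?_ ?_ ?_ <;> rw [h5] <;> simp [hw3, hw4, h0]

end Four

end HF

end Cfsg.Agent.H5.U
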