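import Cfsg.Agent.H5.U.Bridge

/-! Stabilisers of subspaces in the special unitary group. -/

set_option autoImplicit false
set_option linter.unusedSimpArgs false
set_option linter.unusedSectionVars false
set_option linter.unusedVariables false

namespace Cfsg.Agent.H5.U

open Module H6

variable {F : Type*} {V : Type*} [Field F] [StarRing F] [AddCommGroup V] [Module F V]
  [NStar F] [Finite F] [FiniteDimensional F V]

namespace HF

variable {h : HF F V} {M : Subgroup (V ≃ₗ[F] V)}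

theorem ts_ne {W : Submodule F V} (h0 : W ≠ ⊥) (hW : ∀ u ∈ W, ∀ v ∈ W, h u v = 0) :
    ∃ g ∈ h.SU, g ∉ stabV W := by
  obtain ⟨e, he, he0⟩ := Submodule.exists_mem_ne_zero_of_ne_bot h0
  obtain ⟨f, hff, hef⟩ := exists_partner_top he0 (hW e he e he)
  refine ⟨h.T f (del F), T_mem_SU _ _, fun hg => ?_⟩
  have := hW e he _ ((hg e).1 he)
  rw [T_apply hff del_tr] at this
  simp [hW e he e he, hef, del_ne] at this

theorem ts_core {W : Submodule F V} (hW : ∀ u ∈ W, ∀ v ∈ W, h u v = 0)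
    (hM : M ≤ h.SU) (hH : ∀ g ∈ h.SU, g ∈ stabV W → g ∈ M) (hg : ∃ g ∈ M, g ∉ stabV W) :
    h.SU ≤ M := by
  obtain ⟨g, hgM, hg⟩ := hg
  have hQ : ∀ e ∈ W, h.QIn M ⊤ e := fun e he w _ c o => hH _ (E_mem_SU _ _ _)
    (mem_stabV_of_fd fun x hx => by
      rw [E_apply_of_perp_left o (hW x hx e he)]
      exact W.sub_mem hx (W.smul_mem _ he))
  obtain ⟨e, he, hge⟩ : ∃ e ∈ W, g e ∉ W := by
    by_contra! h'
    exact hg (mem_stabV_of_fd h')
  have hu : h (g e) (g e) = 0 := by rw [(hM hgM).1, hW e he e he]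
  have hQu := (hQ e he).map_top hM hgM
  obtain ⟨y, hy, hy'⟩ := exists_perp_ne (h := h) hge
  by_cases hp : g e ∈ h.perp W
  · obtain ⟨f, hf, hff, hef, -⟩ := exists_partner hp hy hu (by simp [hy'])
    refine SU_le_of_Q_X hM hu hQu hff (by simp [hef]) fun c hc => hH _ (T_mem_SU _ _)
      (mem_stabV_of_fd fun x hx => ?_)
    rwa [T_apply_of_perp (symm0 (hf x hx))]
  · simp only [mem_perp, not_forall] at hp
    obtain ⟨w, hw, hw'⟩ := hp
    exact SU_le_of_two hM hu (hW w hw w hw) hw' hQu (hQ w hw)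

theorem nd_ne {W : Submodule F V} (h0 : W ≠ ⊥) (hW : h.NdOn W) (h1 : W ≠ ⊤) :
    ∃ g ∈ h.SU, g ∉ stabV W := by
  obtain ⟨a, ha, haa⟩ := hW.exists_unit h0
  obtain ⟨b, hb, hbb⟩ := hW.perp.exists_unit (fun h' => h1 (by
    have := hW.isCompl.sup_eq_top
    rwa [h', sup_bot_eq] at this))
  obtain ⟨c, hc⟩ := exists_norm_eq (h := h) (v := b) (by simp [hbb]) (t := -1) (by simp)
  have hba := hb a ha
  have hu : h (a + c • b) (a + c • b) = 0 := by
    rw [add_left, add_right, add_right, hc]; simp [haa, hba, symm0 hba]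
  refine ⟨h.T (a + c • b) (del F), T_mem_SU _ _, fun hg => ?_⟩
  have := hb _ ((hg a).1 ha)
  rw [T_apply hu del_tr] at this
  simp [haa, hba, symm0 hba, hbb, del_ne] at this
  simp [this] at hc

/-- the key lemma for non-degenerate subspaces -/
theorem SU_le_of_mixed (hM : M ≤ h.SU) {W : Submodule F V} (hW : h.NdOn W)
    (h4 : 4 ≤ finrank F W) (hSU : h.SUW W ≤ M)
    (hX : ∀ v ∈ h.perp W, h v v = 0 → h.XIn M v) {a b : V} (ha : a ∈ h.perp W) (ha0 : a ≠ 0)
    (hb : b ∈ W) (hb0 : b ≠ 0) (hab : h (a + b) (a + b) = 0) (hu : h.XIn M (a + b)) :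
    h.SU ≤ M := by
  obtain ⟨y, hy, hyb⟩ := hW.exists_ne hb hb0
  obtain ⟨e, he, he0, hee, he'⟩ := exists_iso_perp (h := h) W [b, y] (by simpa using h4)
  have heb := he' b (by simp)
  have hey := he' y (by simp)
  have hae := ha e he
  have hQe : h.QIn M W e := fun w hw c _ => hSU (E_mem_SUW he hw c)
  have hXe := hQe.xIn hee
  have h1 : ∀ l : F, l • (a + b) ∈ h.ME M e hee := by
    intro l
    by_cases hl : l = 0
    · simp [hl]
    have hd := del_ne (F := F)
    have hby := symm_ne hyb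
    set m := l / del F with hm
    have hm0 : m ≠ 0 := div_ne_zero hl hd
    obtain ⟨c, o, hc⟩ := mem_ME_of_QIn (w := (-star (m * h b y)⁻¹) • y) hee hQe (W.smul_mem _ hy)
      (by simp [symm0 hey])
    have huu : h (m • (a + b)) (m • (a + b)) = 0 := by rw [smul_left, smul_right, hab]; simp
    have hue : h (m • (a + b)) e = 0 := by simp [hae, symm0 heb]
    have h2 := (hu.smul hab m).map hM huu hc
    rw [E_apply_of_perp_left o hue] at h2
    have h3 : h (m • (a + b)) ((-star (m * h b y)⁻¹) • y) = -1 := by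
      simp [ha y hy]; field_simp
    rw [h3, neg_smul, one_smul, sub_neg_eq_add, add_comm] at h2
    have := smul_mem_ME_of_X hee huu hue del_tr hXe (hu.smul hab m) h2
    rwa [smul_smul, hm, mul_div_cancel₀ _ hd] at this
  have h2 : a ∈ core F (h.ME M e hee) := fun l => by
    have := AddSubgroup.sub_mem _ (h1 l)
      (mem_ME_of_QIn (w := l • b) hee hQe (W.smul_mem _ hb) (by simp [symm0 heb]))
    simpa using this
  have h3 : h.perp W ≤ core F (h.ME M e hee) := by
    by_cases h5 : 2 ≤ finrank F (h.perp W)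
    · obtain ⟨z, hz, hza⟩ := hW.perp.exists_ne ha ha0
      exact hW.perp.le_core_ME hM h5 hX hee (fun v hv => symm0 (hv e he)) h2 hz hza
    · intro x hx
      have : x ∈ Submodule.span F {a} := by
        rw [Submodule.eq_of_le_of_finrank_le (S₁ := Submodule.span F {a}) (S₂ := h.perp W)
          (by simpa using ha) (by rw [finrank_span_singleton ha0]; omega)]
        exact hx
      obtain ⟨c, rfl⟩ := Submodule.mem_span_singleton.1 this
      exact Submodule.smul_mem _ _ h2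
  have hQ : h.QIn M ⊤ e := qIn_of_ME hee hXe fun w _ hwe => by
    obtain ⟨x, hx, z, hz, rfl⟩ := hW.proj w
    exact AddSubgroup.add_mem _ (mem_ME_of_QIn hee hQe hx (by simpa [hz e he] using hwe))
      (mem_of_mem_core (h3 hz))
  obtain ⟨f, hf, hff, hef⟩ := hW.exists_partner he he0 hee
  exact SU_le_of_Q_X hM hee hQ hff (by simp [hef]) fun c hc => hSU (T_mem_SUW hf c)

theorem GUW_mem_stabV {W : Submodule F V} {g : V ≃ₗ[F] V} (hg : g ∈ h.GUW W) : g ∈ stabV W :=
  mem_stabV_of_fd fun x hx => GUW_mem hg hx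

theorem stabV_perp {W : Submodule F V} {g : V ≃ₗ[F] V} (hg : g ∈ h.GU) (hW : g ∈ stabV W) :
    g ∈ stabV (h.perp W) :=
  mem_stabV_of_fd fun x hx w hw => by
    rw [GU_left hg]; exact hx _ ((((stabV W).inv_mem hW) w).1 hw)

theorem nd_core {W : Submodule F V} (hW : h.NdOn W) (hd : 2 * finrank F W < finrank F V)
    (h6 : 6 ≤ finrank F V)
    (hM : M ≤ h.SU) (hH : ∀ g ∈ h.SU, g ∈ stabV W → g ∈ M) (hg : ∃ g ∈ M, g ∉ stabV W) :
    h.SU ≤ M := by
  obtain ⟨g, hgM, hg⟩ := hg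
  have hg1 := (hM hgM).1
  have hdim := hW.finrank_perp
  have hW' := hW.perp
  have hSU : h.SUW (h.perp W) ≤ M := fun k hk => hH k hk.2 (by
    have := stabV_perp hk.1.1 (GUW_mem_stabV hk.1)
    rwa [perp_perp] at this)
  have hX : ∀ v ∈ W, h v v = 0 → h.XIn M v := fun v hv _ c _ =>
    hH _ (T_mem_SU _ _) (GUW_mem_stabV (T_mem_SUW hv c).1)
  have hXg : ∀ u ∈ (h.perp W).map (g : V →ₗ[F] V), h u u = 0 → h.XIn M u := by
    rintro _ ⟨x, hx, rfl⟩ hxx
    rw [LinearEquiv.coe_coe, hg1] at hxx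
    exact XIn.map hM hxx (fun c _ => hSU (T_mem_SUW hx c)) hgM
  have hdg : finrank F ((h.perp W).map (g : V →ₗ[F] V)) = finrank F (h.perp W) :=
    LinearEquiv.finrank_map_eq _ _
  obtain ⟨u₁, hu₁, huu₁, hu₁'⟩ := (hW'.map hg1).exists_iso_not_mem (A := h.perp W) (by omega)
    (fun h' => hg (by
      have := stabV_perp hg1 (mem_stabV_of_fd (W := h.perp W) (g := g) fun x hx => h' ⟨x, hx, rfl⟩)
      rwa [perp_perp] at this))
  obtain ⟨u₂, hu₂, huu₂, hu₂'⟩ := (hW'.map hg1).exists_iso_not_mem (A := W) (by omega)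
    (fun h' => by have := Submodule.finrank_mono h'; omega)
  obtain ⟨u, huu, hu, h1, h2⟩ : ∃ u, h u u = 0 ∧ h.XIn M u ∧ u ∉ W ∧ u ∉ h.perp W := by
    by_cases h1 : u₁ ∈ W
    swap; · exact ⟨u₁, huu₁, hXg _ hu₁ huu₁, h1, hu₁'⟩
    by_cases h2 : u₂ ∈ h.perp W
    swap; · exact ⟨u₂, huu₂, hXg _ hu₂ huu₂, hu₂', h2⟩
    have h3 : h (u₁ + u₂) (u₁ + u₂) = 0 := by simp [huu₁, huu₂, h2 _ h1, symm0 (h2 _ h1)]
    refine ⟨u₁ + u₂, h3, hXg _ (Submodule.add_mem _ hu₁ hu₂) h3, fun h' => hu₂' ?_, fun h' => hu₁' ?_⟩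
    · simpa using W.sub_mem h' h1
    · simpa using (h.perp W).sub_mem h' h2
  obtain ⟨a, ha, b, hb, rfl⟩ := hW.proj u
  refine SU_le_of_mixed hM hW' (by omega) hSU (by rwa [perp_perp]) (by rwa [perp_perp])
    (by rintro rfl; exact h2 (by simpa using hb)) hb (by rintro rfl; exact h1 (by simpa using ha))
    huu hu

end HF

theorem ts_maximal {F : Type*} [Field F] [Fintype F] (n q : ℕ) (hF : Fintype.card F = q ^ 2)
    (W : Submodule F (Fin n → F)) (hW0 : W ≠ ⊥)
    (hW : Geo.IsTotallySingularFor (hermForm n F q) W) :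
    Geo.IsMaximalIn (GU n F q ⊓ Geo.specialLinear (Fin n) F)
      (Geo.subspaceStabilizer W ⊓ (GU n F q ⊓ Geo.specialLinear (Fin n) F)) := by
  letI := powStar hF
  haveI := powStar_nstar hF
  exact isMaximalIn_of_core (LinearEquiv.refl F _) (stdHF (Fin n) F) _ _ (mem_GU_iff hF n)
    (fun g => g ∈ stabV W) (fun g _ => Iff.rfl) (HF.ts_ne hW0 hW)
    fun M hM hH hg => HF.ts_core hW hM hH hg

theorem nd_maximal {F : Type*} [Field F] [Fintype F] (n q : ℕ) (hF : Fintype.card F = q ^ 2)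
    (hn : 6 ≤ n) (W : Submodule F (Fin n → F)) (hW0 : W ≠ ⊥)
    (hW : Geo.IsNondegenerateOn (hermForm n F q) W) (hdim : 2 * Module.finrank F W < n) :
    Geo.IsMaximalIn (GU n F q ⊓ Geo.specialLinear (Fin n) F)
      (Geo.subspaceStabilizer W ⊓ (GU n F q ⊓ Geo.specialLinear (Fin n) F)) := by
  letI := powStar hF
  haveI := powStar_nstar hF
  have hW' := ndOn_of_isNondegenerateOn hF hW
  exact isMaximalIn_of_core (LinearEquiv.refl F _) (stdHF (Fin n) F) _ _ (mem_GU_iff hF n)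
    (fun g => g ∈ stabV W) (fun g _ => Iff.rfl)
    (HF.nd_ne hW0 hW' (by rintro rfl; simp at hdim; omega))
    fun M hM hH hg => HF.nd_core hW' (by simpa using hdim) (by simpa using hn) hM hH hg

end Cfsg.Agent.H5.U
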