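import Cfsg.Agent.H5.U.C1
import Cfsg.Agent.C6.Hall
import Cfsg.Agent.H9.O6.Kl5

/-! Normalisers of `4 ∘ 2^{1+6}` in `SU₈(p)`. -/

set_option autoImplicit false
set_option linter.unusedSimpArgs false
set_option linter.unusedSectionVars false
set_option linter.unusedVariables false

namespace Cfsg.Agent.H5.U

open Module H6 C6 Subgroup

universe u

variable {F V : Type u} [Field F] [AddCommGroup V] [Module F V] [Finite F] [FiniteDimensional F V]
  {R M : Subgroup (V ≃ₗ[F] V)} {i x y : V ≃ₗ[F] V}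

theorem es_irr (hR : ES R) (W : Submodule F V) (hW : ∀ r ∈ R, ∀ v ∈ W, r v ∈ W) : W = ⊥ ∨ W = ⊤ := by
  by_contra! h
  obtain ⟨w, hw, hw0⟩ := Submodule.exists_mem_ne_zero_of_ne_bot h.1
  obtain ⟨φ, hφ, hφ'⟩ := Submodule.exists_dual_map_eq_bot_of_lt_top (lt_top_iff_ne_top.2 h.2)
    inferInstance
  have := hR.eq_zero (f := φ.smulRight w ∘ₗ LinearMap.id) fun t ht => by
    rw [LinearMap.comp_id, LinearMap.trace_mul_comm, show (t : End F V) * φ.smulRight w =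
      φ.smulRight (t w) from LinearMap.ext fun v => by simp, LinearMap.trace_smulRight]
    exact (Submodule.eq_bot_iff _).1 hφ' _ ⟨_, hW t ht w hw, rfl⟩
  exact hφ (LinearMap.ext fun v => by simpa [hw0] using LinearMap.congr_fun this v)

variable [StarRing F] [NStar F]

namespace HF

variable {h : HF F V}

theorem bi (h : HF F V) : Bi h := ⟨h.add_left, h.add_right⟩

theorem su4_free (hp : ∀ c : F0 F, ∃ n : ℕ, c = n) (hn : finrank F V = 4) (hR : ES R)
    (hU : R ≤ h.GU) (hi : i ∈ R) (h1 : Sc i) (h2 : i * i = ng F V) (hM : M ≤ h.SU)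
    (hN : ∀ g ∈ h.SU, g ∈ normalizer (R : Set (V ≃ₗ[F] V)) → g ∈ M) :
    M ≤ normalizer (R : Set (V ≃ₗ[F] V)) ∨ h.SU ≤ M := by
  haveI : Nontrivial V := Module.nontrivial_of_finrank_pos (R := F) (by omega)
  obtain ⟨b, -, b1, b2⟩ := (ndOn_top (h := h)).exists_ON 4 (by simpa)
  have hb : h.ONB b := ⟨b1, fun x => b2 x trivial⟩
  let e : (Fin 4 → F) ≃ₗ[F] V := hb.basis.equivFun.symm
  have he : ∀ u v, h (e u) (e v) = stdHF (Fin 4) F u v := fun u v => by
    rw [hb.form]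
    show _ = ∑ k, u k * star (v k)
    refine Finset.sum_congr rfl fun k _ => ?_
    rw [← h.conj (e v), ← hb.basis_repr, ← hb.basis_repr]
    simp only [e, ← Basis.equivFun_apply, LinearEquiv.apply_symm_apply]
  have hG : ∀ g, gl0 g ∈ (stdHF (Fin 4) F).GU ↔ glEquiv e g ∈ h.GU := fun g =>
    ⟨fun hg u v => by
      obtain ⟨u, rfl⟩ := e.surjective u
      obtain ⟨v, rfl⟩ := e.surjective v
      simp only [glEquiv_apply, e.symm_apply_apply, he]
      exact hg u v, fun hg u v => by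
      have := hg (e u) (e v)
      simp only [glEquiv_apply, e.symm_apply_apply, he] at this
      exact this⟩
  have hS : ∀ g, g ∈ H9.O6.SU4 F ↔ glEquiv e g ∈ h.SU := fun g =>
    and_congr (hG g) (glEquiv_mem_SLV e g).symm
  have hmat : ∀ (g : GL (Fin 4) F) (A : Matrix (Fin 4) (Fin 4) F),
      (∀ v, glEquiv e g (e v) = e (A.mulVec v)) → g.1 = A := fun g A hA =>
    Matrix.ext_of_mulVec_single fun k => by
      simpa [glEquiv_apply] using hA (Pi.single k 1)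
  obtain ⟨ι, h5, h6⟩ := sc_sq h1 h2
  let R' := R.comap (glEquiv e).toMonoidHom
  have hN' : ∀ g, g ∈ Geo.subgroupNormalizer R' ↔ glEquiv e g ∈ normalizer (R : Set (V ≃ₗ[F] V)) :=
    fun g => by
      simp only [Geo.subgroupNormalizer, mem_normalizer_iff, (glEquiv e).surjective.forall,
        ← map_mul, ← map_inv]
      rfl
  have := (H9.O6.su4_core (R := R') (i := ι) (z := (glEquiv e).symm i) hp hR.two
    (fun r hr => (hG r).2 (hU hr)) (fun r hr => ?_) ⟨fun W hW => ?_, fun X hX => ?_⟩ h6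
    (by simpa [R'] using hi) (hmat _ _ fun v => by simp [h5, Matrix.smul_mulVec])).2
    (M.comap (glEquiv e).toMonoidHom) (fun g hg => hN _ ((hS g).1 hg.2) ((hN' g).1 hg.1))
    (fun g hg => (hS g).2 (hM hg))
  · refine this.imp (fun h' g hg => ?_) fun h' g hg => ?_ <;>
      obtain ⟨g, rfl⟩ := (glEquiv e).surjective g
    · exact (hN' g).1 (h'.le hg).1
    · exact h'.ge ((hS g).2 hg)
  · rw [← Units.val_mul]
    refine (hR.sq' hr).imp (fun a => hmat _ _ fun v => ?_) fun a => hmat _ _ fun v => ?_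
    · simpa using a (e v)
    · simpa [Matrix.neg_mulVec] using a (e v)
  · refine (es_irr hR (W.map e.toLinearMap) ?_).imp (fun a => by simpa using a) fun a => ?_
    · rintro r hr _ ⟨v, hv, rfl⟩
      obtain ⟨r, rfl⟩ := (glEquiv e).surjective r
      exact ⟨_, hW r hr v hv, by simp [glEquiv_apply]⟩
    · simpa [Submodule.map_eq_top_iff] using a
  · obtain ⟨c, hc⟩ := hR.cent (e.conj (Matrix.toLin' X)) fun r hr v => by
      obtain ⟨r, rfl⟩ := (glEquiv e).surjective r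
      simp [glEquiv_apply, LinearEquiv.conj_apply, hX r hr]
    refine ⟨c, Matrix.ext_of_mulVec_single fun k => e.injective ?_⟩
    rw [Matrix.smul_mulVec, Matrix.one_mulVec, map_smul, ← hc]
    simp [LinearEquiv.conj_apply]

theorem ndOn_Vp (p : Pr x y) (hx : x ∈ h.GU) : h.NdOn (Vp x) := fun w hw H =>
  congrArg Subtype.val (p.nd h.bi hx (fun z hz => h.nd hz) ⟨w, hw⟩ fun v => H v v.2)

theorem xIn_of_inv {K : Subgroup (V ≃ₗ[F] V)} (hn : finrank F V = 4) (p : Pr x y) (hx : x ∈ h.GU)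
    (hy : y ∈ h.GU) (hxK : x ∈ K) (hK : ∀ g ∈ h.SU, ∀ k ∈ K, g * k * g⁻¹ ∈ K) {v : V}
    (hv : h v v = 0) : h.XIn K v := by
  have hd := p.dim
  obtain ⟨e, he, he0, hee⟩ := exists_iso (h := h) (K := Vp x) (by omega)
  obtain ⟨u, hu, huu⟩ := (ndOn_Vp p hx).exists_unit (fun h0 => he0 (by simpa [h0] using he))
  have key : ∀ w ∈ Vp x, y w ∈ h.ME K e hee := fun w hw => by
    have h1 : h ((2 : F)⁻¹ • y w) e = 0 := by
      simpa using Or.inr (p.orth h.bi hx ⟨e, he⟩ ⟨w, hw⟩).2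
    obtain ⟨c, hc⟩ := exists_tr (t := h ((2 : F)⁻¹ • y w) ((2 : F)⁻¹ • y w)) (h.conj _ _)
    have o : h.Ok e _ c := ⟨hee, h1, hc⟩
    have h2 := K.mul_mem (hK _ (E_mem_SU e ((2 : F)⁻¹ • y w) c) _ hxK) (K.inv_mem hxK)
    have o' := (o.map hx).neg
    rw [mul_assoc, mul_assoc, ← mul_assoc x, ← conj_inv, conj_E hx o, E_inv (o.map hx)] at h2
    rw [show x e = e from he, map_smul, p.xy, show x w = w from hw, smul_neg, neg_neg] at h2 o'
    rw [E_mul o o'] at h2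
    have := o.add o'
    rw [← add_smul, ← two_mul, mul_inv_cancel₀ p.two, one_smul] at h2 this
    exact ⟨_, this, h2⟩
  have hX : h.XIn K e := fun c hc => by
    convert T_mem_of_ME (key u hu) (key _ ((Vp x).smul_mem (-c / 2) hu)) using 2
    have := p.two
    simp [hy _ _, huu, eq_neg_of_add_eq_zero_right hc]
    field_simp; ring
  by_cases hv0 : v = 0
  · exact hv0 ▸ xIn_zero
  obtain ⟨k, hk, rfl⟩ := (ndOn_top (h := h)).trans_iso (by simp; omega) trivial he0 hee trivial hv0 hv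
  intro c hc
  rw [← conj_T hk.2.1 hee hc]
  exact hK _ hk.2 _ (hX c hc)

theorem su_big (hn : finrank F V = 8) (hR : ES R) (hi : i ∈ R) (h1 : Sc i)
    (h2 : i * i = ng F V) (hM : M ≤ h.SU) (hRM : R ≤ M) (hD : HasD R M)
    (hN : ∀ g ∈ h.SU, g ∈ normalizer (R : Set (V ≃ₗ[F] V)) → g ∈ M) (hx : x ∈ R) (hy : y ∈ R)
    (p : Pr x y) (hB : (h.restrict _ (ndOn_Vp p (hM (hRM hx)).1)).SU ≤ resG x M) : h.SU ≤ M := by
  haveI : Nontrivial V := Module.nontrivial_of_finrank_pos (R := F) (by omega)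
  have hd := p.dim
  have hx1 := (hM (hRM hx)).1
  have hy1 := (hM (hRM hy)).1
  set h' := h.restrict _ (ndOn_Vp p hx1)
  have hR' := p.es hR hx hy
  have hU' : resG x R ≤ h'.GU := fun k hk => iso_resG (fun g hg => (hM (hRM hg)).1) hk
  obtain ⟨t, ht, htt, ht'⟩ := hR'.exists_inv (by omega)
  obtain ⟨s, hs, ps⟩ := hR'.exists_pr ht htt ht'
  obtain ⟨i', i'', rfl⟩ := p.exists_bd (h1.cm6 x).symm
  have hS := hR'.le_SLV (p.bd_mem_resG _ _ hi) (p.sc_of_bd h1) (LinearEquiv.ext fun v =>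
    Subtype.ext (by simpa [p.bd_mul] using LinearEquiv.congr_fun h2 v)) (by omega)
  have h3 : t ∈ p.Kg M := hN _ (mem_SU.2 ⟨p.iso_bd h.bi hx1 hy1 (hU' ht) fun _ _ => rfl, by
    rw [p.det_bd, mem_SLV'.1 (hS ht)]; simp⟩) (p.bd_norm' hR hx hy ht)
  have h4 : ∀ v ∈ Vp x, h v v = 0 → h.XIn M v := fun v hv hvv c hc => by
    have := xIn_of_inv (h := h') (by omega) ps (hU' ht) (hU' hs) h3
      (fun g hg k hk => p.Kg_conj (hB hg) hk) (v := ⟨v, hv⟩) hvv c hc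
    convert p.mem_Kg.1 this using 1
    refine p.ext (fun u => ?_) fun u => ?_
    · rw [p.bd_left, T_apply hvv hc, T_apply (h := h') (u := ⟨v, hv⟩) hvv hc]; rfl
    · rw [p.bd_right, T_apply_of_perp (p.orth h.bi hx1 ⟨v, hv⟩ u).2]; rfl
  obtain ⟨ι, h5, h6⟩ := sc_sq h1 h2
  obtain ⟨d, hd1, hd2⟩ := hD _ (mul_mem hx hy) _ hi (LinearEquiv.ext fun v => by
    simp [p.xy, p.xx, p.yy]) h2
  obtain ⟨e, he, he0, hee⟩ := exists_iso (h := h) (K := Vp x) (by omega)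
  have h7 : (2 : F)⁻¹ * (1 + ι) ≠ 0 := mul_ne_zero (inv_ne_zero p.two) fun h0 => p.two (by
    linear_combination (1 - ι) * h0 + h6)
  have h8 : d e = y (-((2 : F)⁻¹ * (1 + ι)) • e) + ((2 : F)⁻¹ * (1 + ι)) • e := by
    rw [← inv_smul_smul₀ p.two (d e), hd2, h5]
    simp only [LinearEquiv.mul_apply, map_add, map_smul, p.xy, show x e = e from he]
    module
  refine SU_le_of_mixed hM (ndOn_Vp p hx1) (by omega) (SUW_le_of_XIn (ndOn_Vp p hx1) (by omega) h4)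
    (fun v hv hvv => ?_) (fun w hw => (p.orth h.bi hx1 ⟨w, hw⟩ ⟨_, (Vp x).smul_mem _ he⟩).2)
    (y.map_ne_zero_iff.2 (smul_ne_zero (neg_ne_zero.2 h7) he0)) ((Vp x).smul_mem _ he) (smul_ne_zero h7 he0)
    (by rw [← h8, (hM hd1).1, hee]) (h8 ▸ (h4 e he hee).map hM hee hd1)
  obtain ⟨u, u', rfl⟩ := p.ind v
  obtain rfl : u = 0 := Subtype.ext (ndOn_Vp p hx1 _ u.2 fun w hw => symm0 (by
    simpa [(p.orth h.bi hx1 ⟨w, hw⟩ u').2] using hv w hw))
  simp only [ZeroMemClass.coe_zero, zero_add, hy1 _ _] at hvv ⊢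
  exact (h4 _ u'.2 hvv).map hM hvv (hRM hy)

theorem su8_core (hm : MainStmt F V) (hp : ∀ c : F0 F, ∃ n : ℕ, c = n) (hn : finrank F V = 8)
    (hR : ES R) (hU : R ≤ h.GU) (hi : i ∈ R) (h1 : Sc i) (h2 : i * i = ng F V) (hM : M ≤ h.SU)
    (hN : ∀ g ∈ h.SU, g ∈ normalizer (R : Set (V ≃ₗ[F] V)) → g ∈ M) :
    M ≤ normalizer (R : Set (V ≃ₗ[F] V)) ∨ h.SU ≤ M := by
  have hRM : R ≤ M := fun r hr =>
    hN r ⟨hU hr, hR.le_SLV hi h1 h2 (by omega) hr⟩ (le_normalizer hr)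
  have hD : HasD R M := fun a ha b hb a2 b2 => by
    obtain ⟨g, g1, g2⟩ := hR.exists_isD ha hb a2 b2
    exact ⟨g, hN g ⟨g2.iso hR.two h.bi (hU ha) (hU hb) a2 b2,
      g2.det_one hR hi h1 h2 (by omega) ha hb a2 b2⟩ g1, g2⟩
  refine or_iff_not_imp_right.2 fun hne => hm R M hR hn.ge (Or.inl ⟨i, hi, h1, h2⟩) hRM hD
    (hasZ_of_i hR hi h1 h2) (hasN_of fun x hx hxx hx' => ?_)
  obtain ⟨y, hy, p⟩ := hR.exists_pr hx hxx hx'
  have hd := p.dim
  haveI : Nontrivial (Vp x) := Module.nontrivial_of_finrank_pos (R := F) (by omega)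
  let h' := h.restrict _ (ndOn_Vp p (hU hx))
  have hR' := p.es hR hx hy
  have hM' : resG x M ≤ h'.GU := fun k hk => iso_resG (fun g hg => (hM hg).1) hk
  have hU' : resG x R ≤ h'.GU := fun k hk => iso_resG hU hk
  obtain ⟨i', i'', hi'⟩ := p.exists_bd (h1.cm6 x).symm
  have j1 : i' ∈ resG x R := p.bd_mem_resG _ _ (hi' ▸ hi)
  have j2 : Sc i' := p.sc_of_bd (hi' ▸ h1)
  have j3 : i' * i' = ng F _ := LinearEquiv.ext fun v =>
    Subtype.ext (by simpa [hi', p.bd_mul] using LinearEquiv.congr_fun h2 v)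
  have hN' : ∀ g ∈ h'.SU, g ∈ normalizer (resG x R : Set (Vp x ≃ₗ[F] Vp x)) →
      g ∈ resG x M ⊓ h'.SU := fun g hg hg' => ⟨p.bd_mem_resG g g (hN _ (mem_SU.2
        ⟨p.iso_bd h.bi (hU hx) (hU hy) hg.1 hg.1, by rw [p.det_bd, (mem_SU.1 hg).2, mul_one]⟩)
        (p.bd_norm hR hx hy hg')), hg⟩
  rcases su4_free hp (by omega) hR' hU' j1 j2 j3 inf_le_right hN' with h3 | h3
  · intro g hg
    refine hR'.mem_normalizer j1 j2 j3 (S := h'.SU) (le_inf hU' (hR'.le_SLV j1 j2 j3 (by omega)))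
      (fun a ha b hb a2 b2 k hk hk' => ⟨hk'.iso hR.two h'.bi (hU' ha) (hU' hb) a2 b2, hk⟩) ?_
    rw [show normalizer (resG x R : Set (Vp x ≃ₗ[F] Vp x)) ⊓ h'.SU = resG x M ⊓ h'.SU from
      le_antisymm (fun k hk => hN' k hk.2 hk.1) (le_inf h3 inf_le_right)]
    have key : ∀ g ∈ resG x M, resG x M ⊓ h'.SU ≤
        (resG x M ⊓ h'.SU).comap (MulAut.conj g).toMonoidHom := fun g hg k hk =>
      ⟨(resG x M).mul_mem (mul_mem hg hk.1) (inv_mem hg), conj_mem_SU (hM' hg) hk.2⟩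
    exact mem_normalizer_of_le (key g hg) (key _ (inv_mem hg))
  · exact absurd (su_big hn hR hi h1 h2 hM hRM hD hN hx hy p (h3.trans inf_le_left)) hne

theorem not_SU_le (h3 : 5 ≤ finrank F V) (hR : ES R) :
    ∃ g ∈ h.SU, g ∉ normalizer (R : Set (V ≃ₗ[F] V)) := by
  obtain ⟨e, -, f, -, hee, hff, hef⟩ := (ndOn_top (h := h)).exists_hyp (by simp; omega)
  refine ⟨_, T_mem_SU e (del F), fun hg => ?_⟩
  obtain ⟨c, hc⟩ := hR.sc_of_fix h3 hg (h.lin e) fun v hv => T_apply_of_perp hv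
  have := congrArg (h · f) (hc f)
  simp [T_apply hee del_tr, hff, hef, symm1 hef, del_ne] at this

end HF

theorem su8_c6 {F : Type u} [Field F] [Fintype F] (hm : MainStmt F (Fin 8 → F)) {q : ℕ}
    (hF : Fintype.card F = q ^ 2) (hp : q.Prime) (h4 : q % 4 = 3) {R : Subgroup (GL (Fin 8) F)}
    (h1 : Geo.IsSymplecticTypeGroup 2 R) (h2 : Geo.ActsAbsolutelyIrreducibly (Geo.matrixSet R))
    (h3 : R ≤ GU 8 F q) (hZ : Nat.card (Subgroup.center R) = 4) :
    Geo.IsMaximalIn (GU 8 F q ⊓ Geo.specialLinear (Fin 8) F)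
      (Geo.subgroupNormalizer R ⊓ (GU 8 F q ⊓ Geo.specialLinear (Fin 8) F)) := by
  letI := powStar hF
  haveI := powStar_nstar hF
  have := Fintype.ofFinite (F0 F)
  have hR := es_of_symplecticType h1 h2
    (H1.two_ne_zero_of_odd (hF ▸ (Nat.odd_iff.2 (by omega)).pow))
  obtain ⟨i, hi, i1, i2⟩ := exists_i h2 hR hZ
  exact isMaximalIn_of_core (LinearEquiv.refl F _) (stdHF (Fin 8) F) _ _ (mem_GU_iff hF 8)
    (· ∈ normalizer (im R : Set ((Fin 8 → F) ≃ₗ[F] (Fin 8 → F)))) (fun g _ => mem_normalizer_im)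
    (HF.not_SU_le (by simp) hR) fun M hM hH ⟨g, hg, hg'⟩ => (HF.su8_core hm
      (H1.prime_field_cast (by rwa [← Nat.card_eq_fintype_card, card_F0 hF])) (by simp) hR
      (by rintro _ ⟨r, hr, rfl⟩; exact h3 hr) hi i1 i2 hM hH).resolve_left fun h => hg' (h hg)

end Cfsg.Agent.H5.U
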