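import Cfsg.Agent.H5.U.Pair

/-! Subfield subgroups of index two: symplectic and orthogonal type. -/

set_option autoImplicit false
set_option linter.unusedSimpArgs false
set_option linter.unusedSectionVars false
set_option linter.unusedVariables false

namespace Cfsg.Agent.H5.U

open Module H6

variable {F : Type*} {V : Type*} [Field F] [StarRing F] [AddCommGroup V] [Module F V]
  [NStar F] [Finite F] [FiniteDimensional F V]

namespace HF

variable {h : HF F V} {M : Subgroup (V ≃ₗ[F] V)}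

/-- a semilinear involution compatible with the form up to the sign `ε` -/
structure Conj (h : HF F V) (ε : F) (cj : V →+ V) : Prop where
  smul : ∀ (c : F) x, cj (c • x) = star c • cj x
  invol : ∀ x, cj (cj x) = x
  form : ∀ x y, h (cj x) (cj y) = ε * h y x
  eps : ε = 1 ∨ ε = -1

/-- normalising the rational structure -/
def ConjStab (cj : V →+ V) (g : V ≃ₗ[F] V) : Prop := ∃ l : F, ∀ x, cj x = x → cj (g x) = l • g x

variable {ε : F} {cj : V →+ V}

theorem Conj.eps_ne (c : h.Conj ε cj) : ε ≠ 0 := by rcases c.eps with h | h <;> simp [h]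

theorem Conj.left (c : h.Conj ε cj) (x y : V) : h (cj x) y = ε * h (cj y) x := by
  rw [← c.form, c.invol]

theorem Conj.rat (c : h.Conj ε cj) {x y : V} (hx : cj x = x) (hy : cj y = y) :
    h x y = ε * h y x := by rw [← c.form, hx, hy]

theorem Conj.perp_cj (c : h.Conj ε cj) {x y : V} (hx : cj x = x) (hxy : h x y = 0) :
    h x (cj y) = 0 := by
  rw [← hx, c.form, symm0 hxy, mul_zero]

theorem Conj.add_cj (c : h.Conj ε cj) (x : V) : cj (x + cj x) = x + cj x := by
  rw [map_add, c.invol, add_comm]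

/-- rational vectors span every invariant subspace -/
theorem Conj.exists_rat_not_mem (c : h.Conj ε cj) {U S : Submodule F V} (hU : ∀ x ∈ U, cj x ∈ U)
    (hS : ¬ U ≤ S) : ∃ x ∈ U, cj x = x ∧ x ∉ S := by
  by_contra! h'
  apply hS
  intro x hx
  obtain ⟨θ, hθ⟩ := NStar.exists_ne (F := F)
  have h1 := h' _ (U.add_mem hx (hU x hx)) (c.add_cj x)
  have h2 := h' _ (U.add_mem (U.smul_mem θ hx) (hU _ (U.smul_mem θ hx))) (c.add_cj _)
  rw [c.smul] at h2
  have h3 := S.smul_mem (θ - star θ)⁻¹ (S.sub_mem h2 (S.smul_mem (star θ) h1))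
  convert h3 using 1
  have : θ - star θ ≠ 0 := sub_ne_zero.2 hθ.symm
  match_scalars <;> field_simp <;> ring

theorem Conj.exists_rat_ne (c : h.Conj ε cj) {U : Submodule F V} (hU : ∀ x ∈ U, cj x ∈ U)
    {φ : Dual F V} {y : V} (hy : y ∈ U) (hφ : φ y ≠ 0) : ∃ x ∈ U, cj x = x ∧ φ x ≠ 0 :=
  c.exists_rat_not_mem hU (S := LinearMap.ker φ) fun h' => hφ (h' hy)

theorem Conj.pv_inv (c : h.Conj ε cj) {e : V} (he : cj e = e) : ∀ x ∈ h.pv e, cj x ∈ h.pv e :=
  fun x hx => symm0 (c.perp_cj he (symm0 hx))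

theorem Conj.inv_pv₂ (c : h.Conj ε cj) {U : Submodule F V} (hU : ∀ x ∈ U, cj x ∈ U) (u : V) :
    ∀ x ∈ U ⊓ h.pv u ⊓ h.pv (cj u), cj x ∈ U ⊓ h.pv u ⊓ h.pv (cj u) := by
  intro x hx
  refine ⟨⟨hU x hx.1.1, ?_⟩, ?_⟩
  · have : h x (cj u) = 0 := hx.2
    show h (cj x) u = 0
    rw [c.left, symm0 this, mul_zero]
  · have : h x u = 0 := hx.1.2
    show h (cj x) (cj u) = 0
    rw [c.form, symm0 this, mul_zero]

omit [NStar F] [Finite F] in
theorem finrank_pv (a : V) : finrank F V ≤ finrank F (h.pv a) + 1 := finrank_ker_ge (h.lin a)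

theorem exists_dual_triple' {x y w : V} (hw : ∀ a b : F, w ≠ a • x + b • y) (s : F) :
    ∃ v, h x v = 0 ∧ h y v = 0 ∧ h w v = s := by
  obtain ⟨φ, h1, h2, h3⟩ := exists_dual_triple hw
  obtain ⟨v, hv⟩ := h.riesz φ
  exact ⟨star s • v, by simp [← hv, h1], by simp [← hv, h2], by simp [← hv, h3]⟩

theorem exists_dual_pair' {x w : V} (hw : ∀ a : F, w ≠ a • x) (s : F) :
    ∃ v, h x v = 0 ∧ h w v = s := by
  obtain ⟨v, -, h1, h2⟩ := exists_dual_triple' (h := h) (x := 0) (y := x) (w := w)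
    (by simpa using hw) s
  exact ⟨v, h1, h2⟩

/-- a rational vector orthogonal to the rational vector `e` with prescribed product with the
irrational vector `u` -/
theorem Conj.exists_rat_prod (c : h.Conj ε cj) {e u : V} (he : cj e = e)
    (hu : ∀ a b : F, u ≠ a • e + b • cj u) (s : F) :
    ∃ w, cj w = w ∧ h w e = 0 ∧ h u w = s := by
  obtain ⟨y, h1, h2, h3⟩ := exists_dual_triple' (h := h) hu s
  refine ⟨y + cj y, c.add_cj y, ?_, ?_⟩
  · simp [symm0 h1, symm0 (c.perp_cj he h1)]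
  · have : h u (cj y) = 0 := by rw [symm0]; rw [c.left, h2, mul_zero]
    simp [h3, this]

theorem indep_of_not_mem {e u v : V} (hu : ∀ l : F, v ≠ l • u) (hu0 : u ≠ 0)
    (he : e ∉ Submodule.span F {u, v}) (a b : F) : u ≠ a • e + b • v := by
  intro hab
  by_cases ha : a = 0
  · rw [ha, zero_smul, zero_add] at hab
    have hb : b ≠ 0 := by rintro rfl; exact hu0 (by simpa using hab)
    exact hu b⁻¹ (by rw [hab, inv_smul_smul₀ hb])
  · apply he
    refine Submodule.mem_span_pair.2 ⟨a⁻¹, -a⁻¹ * b, ?_⟩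
    rw [hab]; match_scalars <;> field_simp <;> ring

theorem Conj.T_not_stab (c : h.Conj ε cj) (h3 : 3 ≤ finrank F V) {u : V} (huu : h u u = 0)
    (hu : ∀ l : F, cj u ≠ l • u) : ¬ ConjStab cj (h.T u (del F)) := by
  rintro ⟨l, hl⟩
  have hu0 : u ≠ 0 := by rintro rfl; exact hu 0 (by simp)
  obtain ⟨x, hx, hx1, hx0⟩ := c.exists_rat_not_mem (c.inv_pv₂ (U := ⊤) (fun _ _ => trivial) u) (S := ⊥)
    (fun h' => by
      have := finrank_inf_pv₂ (h := h) ⊤ u (cj u)
      rw [le_bot_iff.1 h'] at this; simp at this; omega)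
  have h1 := hl x hx1
  rw [T_apply_of_perp hx.1.2, hx1] at h1
  have hl1 : l = 1 := by
    have : (l - 1) • x = 0 := by rw [sub_smul, ← h1]; simp
    rcases smul_eq_zero.1 this with h2 | h2
    · linear_combination h2
    · exact absurd h2 (by simpa using hx0)
  obtain ⟨y, hy⟩ := h.exists_ne hu0
  obtain ⟨z, -, hz1, hz⟩ := c.exists_rat_ne (U := ⊤) (fun _ _ => trivial) (φ := h.lin u) (y := y)
    trivial hy
  have h2 := hl z hz1
  rw [T_apply huu del_tr, hl1, one_smul, map_add, hz1, c.smul, add_right_inj] at h2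
  have h4 : star (del F * h z u) ≠ 0 := star_ne_zero' (mul_ne_zero del_ne hz)
  exact hu ((star (del F * h z u))⁻¹ * (del F * h z u)) (by rw [mul_smul, ← h2, inv_smul_smul₀ h4])

theorem conjStab_of_points (c : h.Conj ε cj) {g : V ≃ₗ[F] V} (S : Set V) (hS : ∀ x ∈ S, cj x = x)
    (hspan : ∀ φ : Dual F V, (∀ x ∈ S, φ x = 0) → φ = 0) {l : F}
    (hl : ∀ x ∈ S, cj (g x) = l • g x) : ConjStab cj g := by
  refine ⟨l, fun x hx => ?_⟩
  let A : V →ₗ[F] V :=
    { toFun := fun x => cj (g (cj x))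
      map_add' := fun x y => by simp
      map_smul' := fun a x => by simp [c.smul] }
  have : A x = l • g x := h.ext_left fun y => by
    have := hspan (h.lin y ∘ₗ (A - l • (g : V →ₗ[F] V))) fun z hz => by
      simp [A, hS z hz, hl z hz]
    have := LinearMap.congr_fun this x
    simp at this
    simp; linear_combination this
  simpa [A, hx] using this

omit [NStar F] [Finite F] [FiniteDimensional F V] in
theorem eq_of_eig_add {g : V ≃ₗ[F] V} {x y : V} {a b d : F} (hx : cj (g x) = a • g x)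
    (hy : cj (g y) = b • g y) (hxy : cj (g (x + y)) = d • g (x + y)) (hx0 : x ≠ 0)
    (hind : ∀ c : F, y ≠ c • x) : a = b := by
  rw [map_add, map_add, hx, hy] at hxy
  have h1 : (d - a) • x + (d - b) • y = 0 := by
    apply g.injective
    simp only [map_add, map_smul, map_zero]
    linear_combination (norm := module) -hxy
  have h2 : d - b = 0 := by
    by_contra h2
    apply hind (-(d - b)⁻¹ * (d - a))
    rw [← inv_smul_smul₀ h2 y, eq_neg_of_add_eq_zero_right h1]; module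
  rw [h2, zero_smul, add_zero, smul_eq_zero] at h1
  rcases h1 with h1 | h1
  · linear_combination h2 - h1
  · exact absurd h1 hx0

theorem Conj.eq_of_eig_smul (c : h.Conj ε cj) {g : V ≃ₗ[F] V} {x : V} {a b d : F} (hx1 : cj x = x)
    (hx2 : cj (d • x) = d • x) (hx : cj (g x) = a • g x) (hy : cj (g (d • x)) = b • g (d • x))
    (hx0 : d • x ≠ 0) : a = b := by
  have hx0' : x ≠ 0 := by rintro rfl; simp at hx0
  rw [c.smul, hx1] at hx2
  have hd : star d = d := smul_left_injective F hx0' hx2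
  rw [map_smul, c.smul, hd, hx, smul_comm, ← map_smul] at hy
  exact smul_left_injective F (by simpa using hx0) hy

/-! ### symplectic type -/

theorem Conj.sp_ne (c : h.Conj ε cj) (halt : ∀ x, cj x = x → h x x = 0) (h3 : 3 ≤ finrank F V) :
    ∃ g ∈ h.SU, ¬ ConjStab cj g := by
  obtain ⟨a, -, ha, ha0⟩ := c.exists_rat_not_mem (U := ⊤) (S := ⊥) (fun _ _ => trivial)
    (fun h' => by have := Submodule.finrank_mono h'; simp at this; omega)
  obtain ⟨b, hb1, hb, hb0⟩ := c.exists_rat_not_mem (c.pv_inv ha) (S := Submodule.span F {a})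
    (fun h' => by
      have := Submodule.finrank_mono h'
      have := finrank_span_one_le (F := F) a
      have := finrank_pv (h := h) a
      omega)
  have hba : h b a = 0 := hb1
  obtain ⟨θ, hθ⟩ := NStar.exists_ne (F := F)
  refine ⟨_, T_mem_SU _ _, c.T_not_stab h3 (u := a + θ • b)
    (by simp [halt a ha, halt b hb, hba, symm0 hba]) fun l hl => ?_⟩
  rw [map_add, c.smul, ha, hb] at hl
  by_cases h1 : star θ - l * θ = 0
  · have h2 : (1 - l) • a = 0 := by linear_combination (norm := module) hl - h1 • b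
    rcases smul_eq_zero.1 h2 with h2 | h2
    · apply hθ; linear_combination h1 - θ * h2
    · exact ha0 (by simpa using h2)
  · apply hb0
    refine Submodule.mem_span_singleton.2 ⟨(star θ - l * θ)⁻¹ * (l - 1), ?_⟩
    rw [← inv_smul_smul₀ h1 b, mul_smul]
    congr 1
    linear_combination (norm := module) -hl

theorem Conj.sp_core (c : h.Conj (-1) cj) (halt : ∀ x, cj x = x → h x x = 0)
    (h5 : 5 ≤ finrank F V) (hM : M ≤ h.SU) (hH : ∀ g ∈ h.SU, ConjStab cj g → g ∈ M)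
    (hg : ∃ g ∈ M, ¬ ConjStab cj g) : h.SU ≤ M := by
  obtain ⟨g, hgM, hg⟩ := hg
  have hg1 := (hM hgM).1
  have hd := del_ne (F := F)
  have hE : ∀ e w, cj e = e → cj w = w → h w e = 0 → ∀ d : F, d + star d = 0 →
      h.Ok e (del F • w) d ∧ h.E e (del F • w) d ∈ M := by
    intro e w he hw hwe d hd
    have o : h.Ok e (del F • w) d := ⟨halt e he, by simp [hwe], by simp [halt w hw, hd]⟩
    refine ⟨o, hH _ (E_mem_SU _ _ _) ⟨1, fun x hx => ?_⟩⟩
    have hd' : star d = -d := by linear_combination hd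
    rw [E_apply o, one_smul]
    simp [c.smul, he, hw, hx, hd', c.rat he hx, c.rat hw hx]
  have hX : ∀ e, cj e = e → h.XIn M e := fun e he d hd => by
    have := (hE e 0 he (by simp) (by simp) (-d) (by rw [star_neg]; linear_combination -hd)).2
    rwa [smul_zero] at this
  obtain ⟨x, hx, hxg⟩ : ∃ x, cj x = x ∧ ∀ l : F, cj (g x) ≠ l • g x := by
    by_contra! h'
    choose! l hl using h'
    obtain ⟨x₀, -, hx₀, hx₀'⟩ := c.exists_rat_not_mem (U := ⊤) (S := ⊥) (fun _ _ => trivial)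
      (fun h' => by have := Submodule.finrank_mono h'; simp at this; omega)
    refine hg ⟨l x₀, fun y hy => ?_⟩
    by_cases hy0 : y = 0
    · simp [hy0]
    rw [hl y hy]
    congr 1
    by_cases h1 : ∃ d : F, y = d • x₀
    · obtain ⟨d, rfl⟩ := h1
      exact (c.eq_of_eig_smul hx₀ hy (hl _ hx₀) (hl _ hy) hy0).symm
    · push Not at h1
      exact (eq_of_eig_add (hl _ hx₀) (hl _ hy) (hl _ (by rw [map_add, hx₀, hy]))
        (by simpa using hx₀') h1).symm
  set u := g x with hu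
  have huu : h u u = 0 := by rw [hu, hg1, halt x hx]
  have hXu : h.XIn M u := (hX x hx).map hM (halt x hx) hgM
  have hu0 : u ≠ 0 := fun h0 => hxg 0 (by simp [h0])
  obtain ⟨e, he1, he, heS⟩ := c.exists_rat_not_mem (c.inv_pv₂ (U := ⊤) (fun _ _ => trivial) u)
    (S := Submodule.span F {u, cj u}) (fun h' => by
      have := Submodule.finrank_mono h'
      have := finrank_span_pair_le (F := F) u (cj u)
      have := finrank_inf_pv₂ (h := h) ⊤ u (cj u)
      simp only [finrank_top] at this; omega)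
  have heu : h e u = 0 := he1.1.2
  have heu' : h e (cj u) = 0 := he1.2
  have hee := halt e he
  have h1 : ∀ l : F, l • u ∈ h.ME M e hee := by
    intro l
    by_cases hl : l = 0
    · simp [hl]
    obtain ⟨w, hw, hwe, huw⟩ := c.exists_rat_prod he (indep_of_not_mem hxg hu0 heS) l⁻¹
    obtain ⟨o, ho⟩ := hE e w he hw hwe 0 (by simp)
    have huu' : h ((l / del F) • u) ((l / del F) • u) = 0 := by simp [huu]
    have hue : h ((l / del F) • u) e = 0 := by simp [symm0 heu]
    have h2 := (hXu.smul huu (l / del F)).map hM huu' ho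
    rw [E_apply_of_perp_left o hue] at h2
    have h3 : h ((l / del F) • u) (del F • w) = -1 := by
      rw [smul_left, smul_right, huw, star_del]; field_simp
    rw [h3, neg_smul, one_smul, sub_neg_eq_add, add_comm] at h2
    have := smul_mem_ME_of_X hee huu' hue del_tr (hX e he) (hXu.smul huu _) h2
    rwa [smul_smul, mul_div_cancel₀ _ hd] at this
  have h2 : ∀ w, cj w = w → h w e = 0 → del F • w ∈ h.ME M e hee := fun w hw hwe =>
    ⟨0, hE e w he hw hwe 0 (by simp)⟩
  have h3 : u + cj u ∈ core F (h.ME M e hee) := by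
    intro l
    have h4 := h2 (star (l / del F) • u + cj (star (l / del F) • u)) (c.add_cj _)
      (by simp [c.smul, symm0 heu, symm0 heu'])
    have := AddSubgroup.add_mem _ (h1 (l - del F * star (l / del F))) h4
    convert this using 1
    rw [c.smul, star_star]
    match_scalars <;> field_simp <;> ring
  have h4 : ∀ v, cj v = v → h v e = 0 → h (u + cj u) v ≠ 0 → v ∈ core F (h.ME M e hee) := by
    intro v hv hve hav l
    have h5 := ME_map hM (h3 (l / (del F * h (u + cj u) v))) (hX v hv _ del_tr)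
      (T_apply_of_perp (symm0 hve))
    rw [T_apply (halt v hv) del_tr] at h5
    have := AddSubgroup.sub_mem _ h5 (h3 (l / (del F * h (u + cj u) v)))
    convert this using 1
    simp only [smul_left, add_sub_cancel_left]
    congr 1
    field_simp
  obtain ⟨y, hy1, hy2⟩ := exists_dual_pair' (h := h) (x := e) (w := u + cj u) (fun a ha => by
    have h5 := indep_of_not_mem hxg hu0 heS a (-1)
    apply h5; rw [← ha]; simp) 1
  obtain ⟨v₀, hv₀e, hv₀, hv₀'⟩ := c.exists_rat_ne (c.pv_inv he) (φ := h.lin (u + cj u)) (y := y)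
    (symm0 hy1) (by rw [lin_apply, symm1 hy2]; exact one_ne_zero)
  have h5 : h.pv e ≤ core F (h.ME M e hee) := by
    by_contra h'
    obtain ⟨v, hve, hv, hv'⟩ := c.exists_rat_not_mem (c.pv_inv he) h'
    apply hv'
    by_cases h6 : h (u + cj u) v = 0
    · have := Submodule.sub_mem _ (h4 (v + v₀) (by rw [map_add, hv, hv₀])
        ((h.pv e).add_mem hve hv₀e) (by rw [add_right, h6, zero_add]; exact symm_ne hv₀'))
        (h4 v₀ hv₀ hv₀e (symm_ne hv₀'))
      simpa using this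
    · exact h4 v hv hve h6
  have he0 : e ≠ 0 := by rintro rfl; exact heS (Submodule.zero_mem _)
  obtain ⟨z, hz⟩ := h.exists_ne he0
  obtain ⟨f, -, hf, hfe⟩ := c.exists_rat_ne (U := ⊤) (fun _ _ => trivial) (φ := h.lin e) (y := z)
    trivial hz
  exact SU_le_of_Q_X hM hee (qIn_of_ME hee (hX e he) fun w _ hw => mem_of_mem_core (h5 hw))
    (halt f hf) (symm_ne hfe) (hX f hf)

/-! ### orthogonal type -/

theorem Conj.star_rat (c : h.Conj 1 cj) {x y : V} (hx : cj x = x) (hy : cj y = y) :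
    h y x = h x y := by rw [c.rat hx hy, one_mul]

theorem Conj.exists_rat_iso (c : h.Conj 1 cj) {U : Submodule F V} (hU : ∀ x ∈ U, cj x ∈ U)
    (h3 : 3 ≤ finrank F U) : ∃ e ∈ U, cj e = e ∧ e ≠ 0 ∧ h e e = 0 := by
  have step : ∀ U : Submodule F V, (∀ x ∈ U, cj x ∈ U) → 1 ≤ finrank F U →
      ∃ e ∈ U, cj e = e ∧ e ≠ 0 := fun U hU h1 => by
    simpa using c.exists_rat_not_mem hU (S := ⊥)
      (fun h' => by rw [le_bot_iff.1 h'] at h1; simp at h1)
  obtain ⟨x, hx, hx1, hx0⟩ := step U hU (by omega)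
  by_cases hxx : h x x = 0
  · exact ⟨x, hx, hx1, hx0, hxx⟩
  have := finrank_inf_pv₂ (h := h) U x
  obtain ⟨y, hy, hy1, hy0⟩ := step (U ⊓ h.pv x) (fun z hz => ⟨hU z hz.1, c.pv_inv hx1 z hz.2⟩)
    (by have := finrank_inf_pv (h := h) U x; omega)
  by_cases hyy : h y y = 0
  · exact ⟨y, hy.1, hy1, hy0, hyy⟩
  obtain ⟨z, hz, hz1, hz0⟩ := step (U ⊓ h.pv x ⊓ h.pv y)
    (fun z hz => ⟨⟨hU z hz.1.1, c.pv_inv hx1 z hz.1.2⟩, c.pv_inv hy1 z hz.2⟩)
    (by have := finrank_inf_pv₂ (h := h) U x y; omega)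
  obtain ⟨a, b, hab⟩ := exists_sq_add_sq (F0 F) ⟨h x x, h.conj _ _⟩ ⟨h y y, h.conj _ _⟩
    ⟨h z z, h.conj _ _⟩ (fun h' => hxx (congrArg Subtype.val h'))
    (fun h' => hyy (congrArg Subtype.val h'))
  have hab' := congrArg (fun z : F0 F => (z : F)) hab
  simp at hab'
  have hyx : h y x = 0 := hy.2
  have hzx : h z x = 0 := hz.1.2
  have hzy : h z y = 0 := hz.2
  refine ⟨(a : F) • x + (b : F) • y + z, U.add_mem (U.add_mem (U.smul_mem _ hx) (U.smul_mem _ hy.1))
    hz.1.1, by simp [c.smul, hx1, hy1, hz1], fun h0 => ?_, ?_⟩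
  · have h1 := congrArg (fun t => h t x) h0
    have h2 := congrArg (fun t => h t y) h0
    simp [hyx, hzx, hzy, symm0 hyx, hxx, hyy] at h1 h2
    simp [h1, h2] at h0
    exact hz0 h0
  · simp [hyx, hzx, hzy, symm0 hyx, symm0 hzx, symm0 hzy]
    linear_combination hab'

theorem Conj.exists_rat_partner (c : h.Conj 1 cj) (h2 : (2 : F) ≠ 0) {U : Submodule F V} {e y : V}
    (heU : e ∈ U) (hyU : y ∈ U) (he : cj e = e) (hy : cj y = y) (hee : h e e = 0)
    (hye : h y e ≠ 0) :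
    ∃ f ∈ U, cj f = f ∧ h f f = 0 ∧ h e f = 1 ∧ ∃ a b : F, a ≠ 0 ∧ f = a • y + b • e := by
  have h1 := c.star_rat hy he
  refine ⟨(h y e)⁻¹ • y + (-(h y e)⁻¹ * (h y e)⁻¹ * (h y e)⁻¹ * h y y / 2 * h y e) • e,
    U.add_mem (U.smul_mem _ hyU) (U.smul_mem _ heU), by simp [c.smul, he, hy, h1], ?_, ?_,
    _, _, inv_ne_zero hye, rfl⟩
  · simp [hee, h1]; field_simp; ring
  · simp [hee, h1]; field_simp

theorem Conj.exists_rat_iso_ne (c : h.Conj 1 cj) (h2 : (2 : F) ≠ 0) {W : Submodule F V}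
    (hW : h.NdOn W) (hU : ∀ x ∈ W, cj x ∈ W) (h3 : 3 ≤ finrank F W) {φ : Dual F V} {y : V}
    (hy : y ∈ W) (hφ : φ y ≠ 0) : ∃ v ∈ W, cj v = v ∧ h v v = 0 ∧ φ v ≠ 0 := by
  obtain ⟨e, he, he1, he0, hee⟩ := c.exists_rat_iso hU h3
  obtain ⟨z, hz, hze⟩ := hW.exists_ne he he0
  obtain ⟨z, hz, hz1, hze⟩ := c.exists_rat_ne hU (φ := h.lin e) hz hze
  obtain ⟨f, hf, hf1, hff, hef, -⟩ := c.exists_rat_partner h2 he hz he1 hz1 hee hze
  obtain ⟨y, hy, hy1, hφ⟩ := c.exists_rat_ne hU hy hφ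
  by_cases h4 : φ e = 0
  swap; · exact ⟨e, he, he1, hee, h4⟩
  by_cases h5 : φ f = 0
  swap; · exact ⟨f, hf, hf1, hff, h5⟩
  set w := y - h y f • e - h y e • f with hw
  have hwe : h w e = 0 := by simp [hw, hee, symm1 hef]
  have hwf : h w f = 0 := by simp [hw, hff, hef]
  have hw1 : cj w = w := by
    simp [hw, c.smul, hy1, he1, hf1, c.star_rat hy1 he1, c.star_rat hy1 hf1]
  refine ⟨e + w - (h w w / 2) • f, W.sub_mem (W.add_mem he
    (W.sub_mem (W.sub_mem hy (W.smul_mem _ he)) (W.smul_mem _ hf))) (W.smul_mem _ hf), ?_, ?_, ?_⟩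
  · simp [c.smul, he1, hw1, hf1]
  · simp [hee, hff, hef, symm1 hef, hwe, hwf, symm0 hwe, symm0 hwf]; field_simp; ring
  · simp [hw, h4, h5, hφ]

theorem Conj.E_stab (c : h.Conj 1 cj) (h2 : (2 : F) ≠ 0) {e w : V} (he : cj e = e) (hw : cj w = w)
    (hee : h e e = 0) (hwe : h w e = 0) :
    h.Ok e w (h w w / 2) ∧ ConjStab cj (h.E e w (h w w / 2)) := by
  have o : h.Ok e w (h w w / 2) := ⟨hee, hwe, by simp; field_simp; ring⟩
  refine ⟨o, 1, fun x hx => ?_⟩
  rw [E_apply o, one_smul]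
  simp [c.smul, he, hw, hx, c.star_rat hx he, c.star_rat hx hw]

theorem Conj.R_rat (c : h.Conj 1 cj) {v x : V} (hv : cj v = v) (hx : cj x = x) :
    cj (h.R v (-1) x) = h.R v (-1) x := by
  by_cases hvv : h v v = 0
  · rw [R_of_not (by simp [hvv])]; exact hx
  rw [R_apply hvv (by simp)]
  simp [c.smul, hv, hx, c.star_rat hx hv]

theorem Conj.exists_rat_nonIso (c : h.Conj 1 cj) (h2 : (2 : F) ≠ 0) {W : Submodule F V}
    (hW : h.NdOn W) (hU : ∀ x ∈ W, cj x ∈ W) (h0 : W ≠ ⊥) : ∃ z ∈ W, cj z = z ∧ h z z ≠ 0 := by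
  obtain ⟨x, hx, hx1, hx0⟩ := c.exists_rat_not_mem hU (S := ⊥) (fun h' => h0 (le_bot_iff.1 h'))
  obtain ⟨y, hy, hyx⟩ := hW.exists_ne hx (by simpa using hx0)
  obtain ⟨y, hy, hy1, hyx⟩ := c.exists_rat_ne hU (φ := h.lin x) hy hyx
  by_contra! h'
  have := h' (x + y) (W.add_mem hx hy) (by rw [map_add, hx1, hy1])
  simp [h' x hx hx1, h' y hy hy1, c.star_rat hy1 hx1] at this
  exact hyx (by simpa [h2] using (show 2 * h y x = 0 by linear_combination this))

theorem Conj.X_of_ne (c : h.Conj 1 cj) (h2 : (2 : F) ≠ 0) (h3 : 3 ≤ finrank F V) (hM : M ≤ h.SU)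
    (hH : ∀ g ∈ h.SU, ConjStab cj g → g ∈ M) {e f : V} (he : cj e = e) (hf : cj f = f)
    (hee : h e e = 0) (hff : h f f = 0) (hef : h e f ≠ 0) (hX : h.XIn M e) : h.XIn M f := by
  have h1 := c.star_rat he hf
  have hf' : h e ((h e f)⁻¹ • f) = 1 := by simp [h1, hef]
  obtain ⟨z, hz, hz1, hzz⟩ := c.exists_rat_nonIso h2
    (ndOn_top.inf_pv₂ trivial trivial hee (by simp [hff]) hf')
    (fun x hx => ⟨⟨trivial, c.pv_inv he x hx.1.2⟩, c.pv_inv (by simp [c.smul, hf, h1]) x hx.2⟩)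
    (fun h0 => by
      have := finrank_inf_hyp (h := h) (W := ⊤) trivial trivial hee hf'
      rw [h0] at this; simp at this; omega)
  have hv : h (e - f) (e - f) ≠ 0 := by
    simp [hee, hff, h1]
    intro h'; exact hef (by simpa [h2] using (show 2 * h e f = 0 by linear_combination -h'))
  have h4 : h.R (e - f) (-1) * h.R z (-1) ∈ M := by
    refine hH _ (mem_SU.2 ⟨h.GU.mul_mem (R_mem_GU _ _) (R_mem_GU _ _), ?_⟩) ⟨1, fun x hx => ?_⟩
    · rw [det_mul', det_R hv (by simp), det_R hzz (by simp)]; simp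
    · rw [one_smul, mul_app]; exact c.R_rat (by simp [he, hf]) (c.R_rat hz1 hx)
  have h5 := hX.map hM hee h4
  rw [mul_app, R_apply_of_perp (symm0 hz.1.2), R_apply hv (by simp)] at h5
  convert h5 using 1
  simp only [sub_left, sub_right, hee, hff, h1]
  have : (0 : F) - h e f - (h e f - 0) = -2 * h e f := by ring
  rw [this]
  match_scalars <;> field_simp <;> ring

theorem Conj.SU_le_of_X (c : h.Conj 1 cj) (h2 : (2 : F) ≠ 0) (h5 : 5 ≤ finrank F V)
    (hM : M ≤ h.SU) (hH : ∀ g ∈ h.SU, ConjStab cj g → g ∈ M) {e : V} (he : cj e = e)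
    (he0 : e ≠ 0) (hee : h e e = 0) (hX : h.XIn M e) : h.SU ≤ M := by
  obtain ⟨y₁, hy₁⟩ := h.exists_ne he0
  obtain ⟨y₁, -, hy₁, hy₁e⟩ := c.exists_rat_ne (U := ⊤) (fun _ _ => trivial) (φ := h.lin e)
    (y := y₁) trivial hy₁
  have hXw : ∀ w, cj w = w → h w w = 0 → h w e = 0 → h.XIn M w := by
    intro w hw hww hwe
    by_cases hw0 : w = 0
    · rw [hw0]; exact xIn_zero
    obtain ⟨y₂, hy₂⟩ := h.exists_ne hw0
    obtain ⟨y₂, -, hy₂, hy₂w⟩ := c.exists_rat_ne (U := ⊤) (fun _ _ => trivial) (φ := h.lin w)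
      (y := y₂) trivial hy₂
    obtain ⟨y, hy, hye, hyw⟩ : ∃ y, cj y = y ∧ h y e ≠ 0 ∧ h y w ≠ 0 := by
      by_cases h3 : h y₁ w = 0
      swap; · exact ⟨y₁, hy₁, hy₁e, h3⟩
      by_cases h4 : h y₂ e = 0
      swap; · exact ⟨y₂, hy₂, h4, hy₂w⟩
      exact ⟨y₁ + y₂, by rw [map_add, hy₁, hy₂], by simpa [h4] using hy₁e, by simpa [h3] using hy₂w⟩
    obtain ⟨f, -, hf, hff, hef, a, b, ha, hab⟩ := c.exists_rat_partner h2 (U := ⊤) trivial trivial
      he hy hee hye
    exact c.X_of_ne h2 (by omega) hM hH hf hw hff hww (by simp [hab, symm0 hwe, ha, hyw])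
      (c.X_of_ne h2 (by omega) hM hH he hf hee hff (by simp [hef]) hX)
  obtain ⟨f, -, hf, hff, hef, -⟩ := c.exists_rat_partner h2 (U := ⊤) trivial trivial
      he hy₁ hee hy₁e
  have h1 : ⊤ ⊓ h.pv e ⊓ h.pv f ≤ core F (h.ME M e hee) := by
    intro y hy
    by_contra hyA
    obtain ⟨φ, h1, h3⟩ := exists_dual_one hyA
    obtain ⟨v, hv, hv1, hvv, hφ⟩ := c.exists_rat_iso_ne h2
      (ndOn_top.inf_pv₂ trivial trivial hee hff hef)
      (fun x hx => ⟨⟨trivial, c.pv_inv he x hx.1.2⟩, c.pv_inv hf x hx.2⟩)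
      (by have := finrank_inf_pv₂ (h := h) ⊤ e f; simp only [finrank_top] at this; omega)
      (φ := φ) hy (by simp [h3])
    refine hφ (h1 v fun l => ?_)
    have hve : h v e = 0 := hv.1.2
    obtain ⟨s, t, hs, ht, rfl⟩ := exists_coord (a := del F) (fun h' => by
      rw [star_del] at h'
      exact del_ne (F := F) (by simpa [h2] using (show 2 * del F = 0 by linear_combination -h'))) l
    have h4 : cj (s • v) = s • v := by rw [c.smul, hs, hv1]
    have h6 : cj (t • v) = t • v := by rw [c.smul, ht, hv1]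
    obtain ⟨o, ho⟩ := c.E_stab h2 he h4 hee (by simp [hve])
    have h7 := smul_mem_ME_of_X (M := M) (w := t • v) hee (by simp [hvv]) (by simp [hve]) del_tr hX
      (hXw _ h6 (by simp [hvv]) (by simp [hve]))
      (hXw _ (by rw [map_add, he, h6]) (by simp [hvv, hee, hve, symm0 hve]) (by simp [hve, hee]))
    have := AddSubgroup.add_mem _ (⟨_, o, hH _ (E_mem_SU _ _ _) ho⟩ : s • v ∈ h.ME M e hee) h7
    convert this using 1
    module
  refine SU_le_of_Q_X hM hee (qIn_of_ME hee hX fun w _ hwe => ?_) hff (by simp [hef])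
    (c.X_of_ne h2 (by omega) hM hH he hf hee hff (by simp [hef]) hX)
  have h3 : w - h w f • e ∈ ⊤ ⊓ h.pv e ⊓ h.pv f := ⟨⟨trivial, by simp [hee, hwe]⟩, by simp [hef]⟩
  simpa using AddSubgroup.add_mem _ (mem_of_mem_core (h1 h3)) (smul_self_mem_ME hee hX (h w f))

theorem Conj.exists_irrat (c : h.Conj 1 cj) (h2 : (2 : F) ≠ 0) (h3 : 3 ≤ finrank F V)
    {g : V ≃ₗ[F] V} (hg1 : g ∈ h.GU) (hg : ¬ ConjStab cj g) :
    ∃ a, cj a = a ∧ h a a = 0 ∧ ∀ l : F, cj (g a) ≠ l • g a := by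
  by_contra! h'
  choose! l hl using h'
  obtain ⟨x₀, -, hx₀, hx₀', hxx₀⟩ := c.exists_rat_iso (U := ⊤) (fun _ _ => trivial) (by simpa using h3)
  have hn : ∀ x y, cj x = x → h x x = 0 → cj y = y → h y y = 0 → h x y ≠ 0 →
      l x * star (l y) = 1 := by
    intro x y hx hxx hy hyy hxy
    have h1 := c.form (g x) (g y)
    rw [hl x hx hxx, hl y hy hyy, smul_left, smul_right, hg1, hg1, c.star_rat hx hy] at h1
    apply mul_right_cancel₀ hxy
    linear_combination h1
  have hn' : ∀ x, cj x = x → h x x = 0 → x ≠ 0 → l x * star (l x) = 1 := by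
    intro x hx hxx hx0
    have h1 := c.invol (g x)
    rw [hl x hx hxx, c.smul, hl x hx hxx, smul_smul] at h1
    have := smul_left_injective F (show g x ≠ 0 by simpa using hx0) (h1.trans (one_smul F _).symm)
    rw [mul_comm, this]
  refine hg (conjStab_of_points c {x | cj x = x ∧ h x x = 0} (fun x hx => hx.1) (fun φ hφ => ?_)
    (l := l x₀) ?_)
  · by_contra h0
    obtain ⟨y, hy⟩ := exists_apply_eq_one h0
    obtain ⟨v, -, hv1, hvv, hv⟩ := c.exists_rat_iso_ne h2 ndOn_top (fun _ _ => trivial)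
      (by simpa using h3) (φ := φ) (y := y) trivial (by simp [hy])
    exact hv (hφ v ⟨hv1, hvv⟩)
  · rintro y ⟨hy, hyy⟩
    by_cases hy0 : y = 0
    · simp [hy0]
    rw [hl y hy hyy]
    congr 1
    by_cases hyx : h y x₀ = 0
    · by_cases h1 : ∃ d : F, y = d • x₀
      · obtain ⟨d, rfl⟩ := h1
        exact (c.eq_of_eig_smul hx₀ hy (hl _ hx₀ hxx₀) (hl _ hy hyy) hy0).symm
      · push Not at h1
        exact (eq_of_eig_add (hl _ hx₀ hxx₀) (hl _ hy hyy) (hl _ (by rw [map_add, hx₀, hy])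
          (by simp [hxx₀, hyy, hyx, symm0 hyx])) hx₀' h1).symm
    · have h1 := hn y x₀ hy hyy hx₀ hxx₀ hyx
      have h4 := hn' x₀ hx₀ hxx₀ hx₀'
      linear_combination l x₀ * h1 - l y * h4

theorem Conj.o_ne (c : h.Conj 1 cj) (h2 : (2 : F) ≠ 0) (h5 : 5 ≤ finrank F V) :
    ∃ g ∈ h.SU, ¬ ConjStab cj g := by
  obtain ⟨e, -, he, he0, hee⟩ := c.exists_rat_iso (U := ⊤) (fun _ _ => trivial) (by simp; omega)
  refine ⟨_, T_mem_SU e (del F), ?_⟩
  rintro ⟨l, hl⟩
  have h1 := hl e he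
  rw [T_apply_of_perp hee, he] at h1
  have hl1 : l = 1 := smul_left_injective F he0 (h1.symm.trans (one_smul F e).symm)
  obtain ⟨y, hy⟩ := h.exists_ne he0
  obtain ⟨y, -, hy1, hy⟩ := c.exists_rat_ne (U := ⊤) (fun _ _ => trivial) (φ := h.lin e) (y := y)
    trivial hy
  have h3 := hl y hy1
  rw [T_apply hee del_tr, hl1, one_smul, map_add, hy1, c.smul, he, add_right_inj] at h3
  have h4 := smul_left_injective F he0 h3
  simp only [star_mul', star_del, conj, c.star_rat hy1 he] at h4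
  have : 2 * (del F * h y e) = 0 := by linear_combination -h4
  simp [h2, del_ne] at this
  exact hy this

theorem Conj.o_core (c : h.Conj 1 cj) (h2 : (2 : F) ≠ 0) (h7 : 7 ≤ finrank F V) (hM : M ≤ h.SU)
    (hH : ∀ g ∈ h.SU, ConjStab cj g → g ∈ M) (hg : ∃ g ∈ M, ¬ ConjStab cj g) : h.SU ≤ M := by
  obtain ⟨g, hgM, hg⟩ := hg
  have hg1 := (hM hgM).1
  obtain ⟨a, ha, haa, hga⟩ := c.exists_irrat h2 (by omega) hg1 hg
  set u := g a with hu
  have hu0 : u ≠ 0 := fun h0 => hga 0 (by simp [h0])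
  obtain ⟨y, hy1, hy2⟩ := exists_dual_pair' (h := h) (x := cj u) (w := u) (fun l hl => by
    have hl0 : l ≠ 0 := by rintro rfl; exact hu0 (by simpa using hl)
    exact hga l⁻¹ (by conv_rhs => rw [hl, inv_smul_smul₀ hl0])) 1
  obtain ⟨e, he1, he, he0, hee⟩ := c.exists_rat_iso
    (c.inv_pv₂ (c.inv_pv₂ (U := ⊤) (fun _ _ => trivial) u) y) (by
      have := finrank_inf_pv₂ (h := h) ⊤ u (cj u)
      have := finrank_inf_pv₂ (h := h) (⊤ ⊓ h.pv u ⊓ h.pv (cj u)) y (cj y)
      simp only [finrank_top] at *; omega)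
  have heu : h e u = 0 := he1.1.1.1.2
  have heu' : h e (cj u) = 0 := he1.1.1.2
  have heS : e ∉ Submodule.span F {u, cj u} := by
    intro h'
    obtain ⟨s, t, hst⟩ := Submodule.mem_span_pair.1 h'
    have h3 : h e y = 0 := he1.1.2
    have h4 : h e (cj y) = 0 := he1.2
    have h5 : h u (cj y) = 0 := by rw [symm0]; rw [c.left, hy1, mul_zero]
    rw [← hst] at h3 h4
    simp [hy1, hy2, h5, c.form, symm1 hy2] at h3 h4
    exact he0 (by rw [← hst, h3, h4]; simp)
  have hind := indep_of_not_mem hga hu0 heS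
  -- a vector `w'` of the image lattice outside `⟨e, u, cj u⟩`
  set S := Submodule.span F {e} ⊔ Submodule.span F {u, cj u} with hS
  have hS3 : finrank F S ≤ 3 := by
    have := Submodule.finrank_add_le_finrank_add_finrank (Submodule.span F {e})
      (Submodule.span F {u, cj u})
    have := finrank_span_pair_le (F := F) u (cj u)
    have := finrank_span_one_le (F := F) e
    rw [hS]; omega
  obtain ⟨w, hw1, hw, hwS⟩ := c.exists_rat_not_mem
    (c.inv_pv₂ (c.pv_inv ha) (g⁻¹ e)) (S := S.map ((g⁻¹ : V ≃ₗ[F] V) : V →ₗ[F] V)) (fun h' => by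
      have := Submodule.finrank_mono h'
      rw [LinearEquiv.finrank_map_eq] at this
      have := finrank_inf_pv₂ (h := h) (h.pv a) (g⁻¹ e) (cj (g⁻¹ e))
      have := finrank_pv (h := h) a
      omega)
  have hwa : h w a = 0 := hw1.1.1
  have hwe : h (g w) e = 0 := by rw [GU_left hg1]; exact hw1.1.2
  have hwS' : g w ∉ S := fun h' => hwS ⟨g w, h', by simp⟩
  obtain ⟨z, hz, hz'⟩ := exists_perp_ne (h := h) hwS'
  obtain ⟨z, hz1, hz, hzw⟩ := c.exists_rat_ne (c.inv_pv₂ (c.pv_inv he) u) (φ := h.lin (g w)) (y := z)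
    ⟨⟨hz e (Submodule.mem_sup_left (Submodule.mem_span_singleton_self e)),
      hz u (Submodule.mem_sup_right (Submodule.subset_span (by simp)))⟩,
      hz _ (Submodule.mem_sup_right (Submodule.subset_span (by simp)))⟩
    (by rw [lin_apply, symm1 hz']; exact one_ne_zero)
  have hze : h z e = 0 := hz1.1.1
  have hzu : h z u = 0 := hz1.1.2
  have hzw : h z (g w) ≠ 0 := hzw
  obtain ⟨o, ho⟩ := c.E_stab h2 ha hw haa hwa
  have h3 := M.mul_mem (M.mul_mem hgM (hH _ (E_mem_SU _ _ _) ho)) (M.inv_mem hgM)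
  rw [conj_E hg1 o] at h3
  have hME : ∀ v, cj v = v → h v e = 0 → v ∈ h.ME M e hee := fun v hv hve =>
    ⟨_, (c.E_stab h2 he hv hee hve).1, hH _ (E_mem_SU _ _ _) (c.E_stab h2 he hv hee hve).2⟩
  have h4 := ME_map hM (hME z hz hze) h3 (E_apply_of_perp heu (symm0 hwe))
  rw [E_apply_of_perp_left (o.map hg1) hzu] at h4
  have h5 := AddSubgroup.sub_mem _ (hME z hz hze) h4
  rw [sub_sub_cancel] at h5
  refine c.SU_le_of_X h2 (by omega) hM hH he he0 hee fun d hd => ?_
  obtain ⟨v, hv, hve, huv⟩ := c.exists_rat_prod he hind (d / 2 / h z (g w))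
  have h6 := T_mem_of_ME h5 (hME v hv hve)
  convert h6 using 2
  have hd' : star d = -d := by linear_combination hd
  rw [← h.conj _ v, smul_left, huv, mul_div_cancel₀ _ hzw]
  simp [hd']
  field_simp; ring

end HF

end Cfsg.Agent.H5.U
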