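import Cfsg.Agent.H5.U.Ten1
import Cfsg.Agent.H6.Ext2

/-! Extension field subgroups of unitary groups: field theory. -/

set_option autoImplicit false
set_option linter.unusedSimpArgs false
set_option linter.unusedSectionVars false
set_option linter.unusedVariables false

namespace Cfsg.Agent.H5.U

open Module H6 HF

variable {F K : Type*} [Field F] [Field K] [Algebra F K] [Finite K]

theorem gal_card : Nat.card (K ≃ₐ[F] K) = finrank F K := IsGalois.card_aut_eq_finrank F K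

theorem gal_pow (σ : K ≃ₐ[F] K) : σ ^ finrank F K = 1 := by
  rw [← gal_card]; exact pow_card_eq_one'

theorem gal_sq (ho : Odd (finrank F K)) {σ : K ≃ₐ[F] K} (h : σ * σ = 1) : σ = 1 := by
  obtain ⟨n, hn⟩ := ho
  have := gal_pow σ
  rwa [hn, pow_succ, pow_mul, sq, h, one_pow, one_mul] at this

theorem gal_cases (hr : (finrank F K).Prime) {τ : K ≃ₐ[F] K} (hτ : τ ≠ 1) (σ : K ≃ₐ[F] K) :
    ∃ n < finrank F K, σ = τ ^ n := by
  haveI := Fact.mk hr
  obtain ⟨n, rfl⟩ := mem_powers_of_prime_card (gal_card (F := F) (K := K)) hτ (g' := σ)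
  refine ⟨n % finrank F K, Nat.mod_lt _ hr.pos, ?_⟩
  conv_lhs => rw [← Nat.div_add_mod n (finrank F K)]
  simp only [pow_add, pow_mul, gal_pow, one_pow, one_mul]

theorem mem_of_fix (hr : (finrank F K).Prime) {σ : K ≃ₐ[F] K} (hσ : σ ≠ 1) {a : K}
    (ha : σ a = a) : ∃ t : F, a = t • (1 : K) := by
  rcases (Subalgebra.isSimpleOrder_of_finrank_prime F K hr).eq_bot_or_eq_top
    (AlgHom.equalizer (σ : K →ₐ[F] K) (AlgHom.id F K)) with h | h
  · have : a ∈ AlgHom.equalizer (σ : K →ₐ[F] K) (AlgHom.id F K) := ha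
    rw [h] at this
    obtain ⟨t, rfl⟩ := Algebra.mem_bot.1 this
    exact ⟨t, Algebra.algebraMap_eq_smul_one t⟩
  · refine absurd (AlgEquiv.ext fun b => ?_) hσ
    have : b ∈ AlgHom.equalizer (σ : K →ₐ[F] K) (AlgHom.id F K) := h ▸ trivial
    exact this

theorem ker2 (hr : (finrank F K).Prime) {τ : K ≃ₐ[F] K} (hτ : τ ≠ 1) {u v p₀ p₁ : K} (hu : u ≠ 0)
    (hv : ∀ t : F, v ≠ t • u) (h1 : p₀ * u + p₁ * τ u = 0) (h2 : p₀ * v + p₁ * τ v = 0) :
    p₀ = 0 ∧ p₁ = 0 := by
  have h3 : p₁ = 0 := by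
    by_contra h
    have hu' : τ u ≠ 0 := by simpa using hu
    obtain ⟨t, ht⟩ := mem_of_fix hr hτ (a := v / u) (by
      rw [map_div₀, div_eq_div_iff hu' hu]
      apply mul_left_cancel₀ h
      linear_combination u * h2 - v * h1)
    exact hv t (by rw [div_eq_iff hu] at ht; simpa using ht)
  exact ⟨by simpa [h3, hu] using h1, h3⟩

theorem ker3' (hr : (finrank F K).Prime) {τ : K ≃ₐ[F] K} (hτ : τ ≠ 1) {N : Submodule F K}
    (hN : 3 ≤ finrank F N) {p₀ p₁ p₂ : K} (h : ∀ a ∈ N, p₀ * a + p₁ * τ a + p₂ * τ (τ a) = 0) :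
    p₀ = 0 ∧ p₁ = 0 ∧ p₂ = 0 := by
  obtain ⟨a, ha, ha0⟩ := exists_ne_zero_of_finrank (K := N) (by omega)
  obtain ⟨b, hb, hb'⟩ := exists_not_mem_one (K := N) (by omega) a
  obtain ⟨c, hc, hc'⟩ := exists_not_mem_pair hN a b
  have h1 : τ a ≠ 0 := by simpa using ha0
  have h2 : τ (τ a) ≠ 0 := by simpa using ha0
  have key : ∀ x ∈ N, (p₁ * τ a + p₂ * τ (τ a)) * (τ (x / a) - x / a) +
      p₂ * τ (τ a) * τ (τ (x / a) - x / a) = 0 := by
    intro x hx
    simp only [map_sub, map_div₀]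
    field_simp
    linear_combination a * τ a * h x hx - x * τ a * h a ha
  have fix : ∀ x, τ (x / a) = x / a → ∃ t : F, x = t • a := fun x hx => by
    obtain ⟨t, ht⟩ := mem_of_fix hr hτ hx
    exact ⟨t, by rw [div_eq_iff ha0] at ht; simpa using ht⟩
  obtain ⟨h3, h4⟩ := ker2 hr hτ (fun h0 => by
    obtain ⟨t, ht⟩ := fix b (sub_eq_zero.1 h0)
    exact hb' t ht) (fun t ht => by
    obtain ⟨s, hs⟩ := fix (c - t • b) (by
      rw [sub_div, smul_div_assoc, map_sub, map_smul]
      rw [smul_sub] at ht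
      linear_combination ht)
    exact hc' s t (by rw [← hs]; abel)) (key b hb) (key c hc)
  have h5 : p₂ = 0 := by simpa [h2] using h4
  have h6 : p₁ = 0 := by simpa [h5, h1] using h3
  exact ⟨by simpa [h5, h6, ha0] using h a ha, h6, h5⟩

theorem gal_inv_app (τ : K ≃ₐ[F] K) (a : K) : τ⁻¹ (τ a) = a := τ.symm_apply_apply a

theorem gal_app_inv (τ : K ≃ₐ[F] K) (a : K) : τ (τ⁻¹ a) = a := τ.apply_symm_apply a

theorem ker3 (hr : (finrank F K).Prime) {τ : K ≃ₐ[F] K} (hτ : τ ≠ 1) {N : Submodule F K}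
    (hN : 3 ≤ finrank F N) {p₀ p₁ p₂ : K} (h : ∀ a ∈ N, p₀ * a + p₁ * τ a + p₂ * τ⁻¹ a = 0) :
    p₀ = 0 ∧ p₁ = 0 ∧ p₂ = 0 := by
  obtain ⟨h1, h2, h3⟩ := ker3' hr hτ hN (p₀ := τ p₂) (p₁ := τ p₀) (p₂ := τ p₁) fun a ha => by
    have := congrArg τ (h a ha)
    simp only [map_add, map_mul, gal_app_inv, map_zero] at this
    linear_combination this
  exact ⟨by simpa using h2, by simpa using h3, by simpa using h1⟩

theorem gal_li : LinearIndependent K fun σ : K ≃ₐ[F] K => (σ : K →ₐ[F] K).toLinearMap :=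
  (linearIndependent_toLinearMap F K K).comp (fun σ : K ≃ₐ[F] K => (σ : K →ₐ[F] K))
    AlgEquiv.coe_algHom_injective

theorem coef_zero {c : (K ≃ₐ[F] K) → K} (h : ∀ a, ∑ σ, c σ * σ a = 0) (σ : K ≃ₐ[F] K) :
    c σ = 0 := by
  refine Fintype.linearIndependent_iff.1 (gal_li (F := F) (K := K)) c ?_ σ
  ext a
  simpa using h a

theorem exists_coef (s : K →ₗ[F] K) : ∃ c : (K ≃ₐ[F] K) → K, ∀ a, s a = ∑ σ, c σ * σ a := by
  have h := (gal_li (F := F) (K := K)).span_eq_top_of_card_eq_finrank' (by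
    rw [finrank_linearMap_self, ← gal_card, Nat.card_eq_fintype_card])
  obtain ⟨c, hc⟩ := (Submodule.mem_span_range_iff_exists_fun K).1 (h ▸ Submodule.mem_top (x := s))
  exact ⟨c, fun a => by rw [← hc]; simp⟩

theorem tr_nd {a : K} (h : ∀ c, Algebra.trace F K (c * a) = 0) : a = 0 :=
  eq_zero_of_forall_mul (Algebra.trace_ne_zero F K) h

theorem tr_gal (σ : K ≃ₐ[F] K) (a : K) : Algebra.trace F K (σ a) = Algebra.trace F K a :=
  Algebra.trace_eq_of_algEquiv σ a

theorem tr_smul_one (a : K) : Algebra.trace F K a • (1 : K) = ∑ σ : K ≃ₐ[F] K, σ a := by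
  rw [← trace_eq_sum_automorphisms, Algebra.algebraMap_eq_smul_one]

variable [StarRing F] [StarRing K] [StarModule F K]

theorem gal_star (σ : K ≃ₐ[F] K) (x : K) : σ (star x) = star (σ x) := by
  by_cases hx : x = 0
  · simp [hx]
  obtain ⟨g, hg⟩ := IsCyclic.exists_monoid_generator (α := Kˣ)
  obtain ⟨n, hn⟩ := hg (Units.mk0 x hx)
  obtain ⟨i, hi⟩ := hg (Units.mk0 (σ g) (by simp))
  obtain ⟨j, hj⟩ := hg (Units.mk0 (star (g : K)) (by simp))
  replace hn : (g : K) ^ n = x := by simpa using congrArg Units.val hn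
  replace hi : (g : K) ^ i = σ g := by simpa using congrArg Units.val hi
  replace hj : (g : K) ^ j = star (g : K) := by simpa using congrArg Units.val hj
  rw [← hn, star_pow, map_pow σ, map_pow σ, star_pow, ← hi, star_pow, ← hj, map_pow σ, ← hi,
    pow_right_comm (g : K) i j]

theorem tr_star (a : K) : Algebra.trace F K (star a) = star (Algebra.trace F K a) := by
  apply (algebraMap F K).injective
  rw [algebraMap_star_comm, trace_eq_sum_automorphisms, trace_eq_sum_automorphisms, star_sum]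
  simp only [gal_star]

theorem norm_star (a : K) : Algebra.norm F (star a) = star (Algebra.norm F a) := by
  apply (algebraMap F K).injective
  rw [algebraMap_star_comm, Algebra.norm_eq_prod_automorphisms,
    Algebra.norm_eq_prod_automorphisms, star_prod]
  simp only [gal_star]

variable [NStar F]

theorem skew_ind (A : Submodule F K) (h : ∀ c, c + star c = 0 → c ∈ A) (c : K) : c ∈ A := by
  obtain ⟨ω, hω⟩ := NStar.exists_ne (F := F)
  have h1 : ω - star ω ≠ 0 := sub_ne_zero.2 hω.symm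
  have := A.smul_mem (ω - star ω)⁻¹ (A.sub_mem (h (ω • c - star ω • star c) (by simp))
    (A.smul_mem (star ω) (h (c - star c) (by simp))))
  convert this using 1
  match_scalars <;> field_simp <;> ring

theorem real_ind (A : Submodule F K) (h : ∀ c, star c = c → c ∈ A) (c : K) : c ∈ A := by
  refine skew_ind A (fun c hc => ?_) c
  have := A.smul_mem (del F)⁻¹ (h (del F • c) (by
    rw [star_smul, star_del, eq_neg_of_add_eq_zero_right hc]; simp))
  rwa [inv_smul_smul₀ del_ne] at this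

theorem exists_real_not_mem (hr : 2 ≤ finrank F K) :
    ∃ c : K, star c = c ∧ ∀ t : F, c ≠ t • (1 : K) := by
  by_contra! h
  obtain ⟨c, -, hc⟩ := exists_not_mem_one (K := (⊤ : Submodule F K)) (by simpa using hr) 1
  obtain ⟨t, ht⟩ := Submodule.mem_span_singleton.1 (real_ind (Submodule.span F {(1 : K)})
    (fun c hc => by obtain ⟨t, rfl⟩ := h c hc; exact Submodule.mem_span_singleton.2 ⟨t, rfl⟩) c)
  exact hc t ht.symm

theorem exists_real_cube (hr : (finrank F K).Prime) (ho : Odd (finrank F K)) :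
    ∃ c : K, star c = c ∧ c ≠ 0 ∧ c + 1 ≠ 0 ∧ c ^ 2 + c + 1 ≠ 0 := by
  obtain ⟨c, h1, h2⟩ := exists_real_not_mem (F := F) (K := K) hr.two_le
  refine ⟨c, h1, by simpa using h2 0, fun h => h2 (-1) (by simp; linear_combination h),
    fun h => ?_⟩
  haveI : Nontrivial (K ≃ₐ[F] K) := by
    rw [← Finite.one_lt_card_iff_nontrivial, gal_card]; exact hr.one_lt
  obtain ⟨τ, hτ⟩ := exists_ne (1 : K ≃ₐ[F] K)
  have h3 := congrArg τ h
  simp only [map_add, map_pow, map_one, map_zero] at h3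
  have h4 : (τ c - c) * (τ c + c + 1) = 0 := by linear_combination h3 - h
  obtain ⟨t, ht⟩ := mem_of_fix hr (σ := τ * τ) (fun h => hτ (gal_sq ho h)) (a := c) (by
    rw [AlgEquiv.mul_apply]
    rcases mul_eq_zero.1 h4 with h5 | h5
    · rw [sub_eq_zero.1 h5, sub_eq_zero.1 h5]
    · have := congrArg τ h5
      simp only [map_add, map_one, map_zero] at this
      linear_combination this - h5)
  exact h2 t ht

theorem span_real (A : Submodule K ((K ≃ₐ[F] K) → K))
    (h : ∀ b, star b = b → (fun σ : K ≃ₐ[F] K => σ b) ∈ A) (v : (K ≃ₐ[F] K) → K) : v ∈ A := by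
  classical
  by_contra hv
  obtain ⟨φ, h1, h2⟩ := exists_dual_one hv
  have h3 : ∀ x, φ x = ∑ σ, φ (Pi.single σ 1) * x σ := fun x => by
    conv_lhs => rw [pi_eq_sum_univ' x]
    simp [mul_comm]
  have h4 := coef_zero (c := fun σ => φ (Pi.single σ 1)) fun a => by
    refine real_ind (LinearMap.ker (∑ σ : K ≃ₐ[F] K, φ (Pi.single σ 1) • (σ : K →ₐ[F] K).toLinearMap))
      (fun b hb => ?_) a |>.symm.trans ?_ |>.symm
    · have := h1 _ (h b hb)
      rw [h3] at this
      simpa using this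
    · simp
  rw [h3] at h2
  simp [h4] at h2

end Cfsg.Agent.H5.U
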