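import Cfsg.Agent.H5.U.Ext1

/-! Extension field subgroups of unitary groups: the centre of the unipotent radical. -/

set_option autoImplicit false
set_option linter.unusedSimpArgs false
set_option linter.unusedSectionVars false
set_option linter.unusedVariables false

namespace Cfsg.Agent.H5.U

open Module H6 HF

variable {F K V : Type*} [Field F] [Field K] [Algebra F K] [Finite K] [StarRing F] [StarRing K]
  [StarModule F K] [NStar F] [NStar K] [Finite F] [AddCommGroup V] [Module F V] [Module K V]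
  [IsScalarTower F K V] [FiniteDimensional K V] [FiniteDimensional F V]

/-- standing hypotheses -/
structure XC (h : HF F V) (k : HF K V) (M : Subgroup (V ≃ₗ[F] V)) : Prop where
  tr : ∀ x y, h x y = Algebra.trace F K (k x y)
  hM : M ≤ h.SU
  hH : ∀ g ∈ h.SU, GamL K g → g ∈ M
  nS : ¬ h.SU ≤ M
  hr : finrank F K = 3 ∨ finrank F K = 5
  hk : 2 ≤ finrank K V
  hq : 3 ≤ finrank K V ∨ ∃ μ : K, μ * star μ = 1 ∧ Algebra.norm F μ = 1 ∧ μ ^ finrank F K ≠ 1

variable {h : HF F V} {k : HF K V} {M : Subgroup (V ≃ₗ[F] V)} {w w' f : V} {s t x : K → K}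

theorem k_smul_left (a : F) (u v : V) : k (a • u) v = a • k u v := by
  rw [← algebraMap_smul K a u, smul_left, Algebra.smul_def]

theorem k_smul_right (a : F) (u v : V) : k u (a • v) = star a • k u v := by
  rw [← algebraMap_smul K a v, smul_right, Algebra.smul_def, algebraMap_star_comm]

theorem XC.prime (c : XC h k M) : (finrank F K).Prime := by
  rcases c.hr with h | h <;> rw [h] <;> norm_num

theorem XC.odd (c : XC h k M) : Odd (finrank F K) := by
  rcases c.hr with h | h <;> rw [h] <;> decide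

theorem XC.three (c : XC h k M) : 3 ≤ finrank F K := by rcases c.hr with h | h <;> omega

theorem XC.rs_mem (c : XC h k M) {g : V ≃ₗ[K] V} (hg : g ∈ k.GU)
    (hd : Algebra.norm F (LinearMap.det (g : V →ₗ[K] V)) = 1) : rs F g ∈ M :=
  c.hH _ (mem_SU.2 ⟨fun x y => by rw [c.tr, c.tr, rs_apply, rs_apply, hg], by rw [det_rs, hd]⟩)
    (rs_gamL g)

theorem XC.rs_SU (c : XC h k M) {g : V ≃ₗ[K] V} (hg : g ∈ k.SU) : rs F g ∈ M :=
  c.rs_mem hg.1 (by rw [(mem_SU.1 hg).2, map_one])

theorem XC.k_ext (c : XC h k M) {u v u' v' : V} (H : ∀ a : K, h (a • u) v = h (a • u') v') :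
    k u v = k u' v' := by
  rw [← sub_eq_zero]
  refine tr_nd (F := F) fun a => ?_
  have := H a
  rw [c.tr, c.tr, smul_left, smul_left] at this
  rw [mul_sub, map_sub, this, sub_self]

theorem XC.k_ext' (c : XC h k M) {u v u' v' : V} (H : ∀ a : K, h u (a • v) = h u' (a • v')) :
    k u v = k u' v' := by
  rw [← k.conj v u, ← k.conj v' u', c.k_ext (u := v) (v := u) (u' := v') (v' := u') fun a => by
    rw [← h.conj u, ← h.conj u', H]]

theorem XC.trans (c : XC h k M) (hw0 : w ≠ 0) (hw : k w w = 0) (hw0' : w' ≠ 0) (hw' : k w' w' = 0) :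
    ∃ B ∈ k.SU, ∃ a : K, a ≠ 0 ∧ B w = a • w' :=
  move_iso (M := k.SU) ndOn_top (by simpa using c.hk) (fun e _ w _ c _ => E_mem_SU _ _ _)
    trivial hw0 hw trivial hw0' hw'

theorem XC.not_X (c : XC h k M) : ¬ ∀ u, k u u = 0 → h.XIn M u := by
  intro hX
  have hd := del_ne (F := F)
  obtain ⟨w, -, f, -, hw, hf, hwf⟩ := (ndOn_top (h := k)).exists_hyp (by simpa using c.hk)
  have hfw := symm1 hwf
  have hp : h w w = 0 := by rw [c.tr, hw, map_zero]
  have hXp := hX w hw
  set C := core F (h.ME M _ hp) with hC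
  have s0 : ∀ a : K, a • w ∈ C := by
    intro a l
    have := smul_mem_ME_of_X (M := M) (w := (l / del F) • a • w) hp
      (by simp [c.tr, k_smul_left, k_smul_right, hw]) (by simp [c.tr, k_smul_left, hw]) del_tr hXp
      (hX _ (by simp [k_smul_left, k_smul_right, hw]))
      (hX _ (by simp [k_smul_left, k_smul_right, hw]))
    rwa [smul_smul, mul_div_cancel₀ _ hd] at this
  have s1 : ∀ v, h w v = 0 → k w v ≠ 0 → v ∈ C := by
    intro v h1 h2
    obtain ⟨a, ha⟩ := exists_tr_mul (t := k v v) (k.conj _ _) h2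
    obtain ⟨b, hb⟩ : ∃ b : K, Algebra.trace F K (b * k w v) ≠ 0 := by
      by_contra! h3; exact h2 (tr_nd h3)
    have h3 : k (v - a • w) (v - a • w) = 0 := by
      simp only [sub_left, sub_right, smul_left, smul_right, hw]
      rw [k.conj] at ha
      linear_combination -ha
    have := mem_core_of_T c.hM (s0 b) (by rw [c.tr, h3, map_zero]) (hX _ h3)
      (by rw [sub_right, h1, c.tr]; simp [hw]) (by simpa [c.tr, hw] using hb)
    simpa using C.add_mem this (s0 a)
  obtain ⟨b, hb, hb0⟩ := exists_ne_zero_of_finrank (K := LinearMap.ker (Algebra.trace F K)) (by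
    have := finrank_ker_ge (Algebra.trace F K); have := c.three; omega)
  obtain ⟨b', hb'⟩ : ∃ b : K, Algebra.trace F K b ≠ 0 := by
    by_contra! h3; exact one_ne_zero (tr_nd (F := F) (a := (1 : K)) fun a => h3 _)
  refine c.nS (SU_le_of_Q_X c.hM hp (qIn_of_ME hp hXp fun v _ hv => mem_of_mem_core (F := F) ?_)
    (f := star b' • f) (by simp [c.tr, hf]) (by simpa [c.tr, hwf] using hb') (hX _ (by simp [hf])))
  by_cases h1 : k w v = 0
  · have h2 : h w (star b • f) = 0 := by simpa [c.tr, hwf] using hb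
    have := C.sub_mem (s1 (v + star b • f) (by rw [add_right, h2, symm0 hv, add_zero])
      (by simpa [h1, hwf] using hb0)) (s1 _ h2 (by simpa [hwf] using hb0))
    simpa using this
  · exact s1 v (symm0 hv) h1

/-- the elements `v ↦ v + s (k v w) w` of `M` -/
def ZK (k : HF K V) (M : Subgroup (V ≃ₗ[F] V)) (w : V) (s : K → K) : Prop :=
  ∃ g ∈ M, ∀ v, g v = v + s (k v w) • w

theorem ZK.congr (hs : ZK k M w s) (H : ∀ a, t a = s a) : ZK k M w t := by
  rwa [show t = s from funext H]

theorem zk_inv {g : V ≃ₗ[F] V} (hw : k w w = 0) (hg : ∀ v, g v = v + s (k v w) • w) (v : V) :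
    g⁻¹ v = v - s (k v w) • w := by
  obtain ⟨u, rfl⟩ := g.surjective v
  rw [inv_apply_apply, hg]; simp [hw]

variable (k M) in
/-- the functions `s` form a group -/
def ZG (hw : k w w = 0) : AddSubgroup (K → K) where
  carrier := {s | ZK k M w s}
  zero_mem' := ⟨1, M.one_mem, fun v => by simp⟩
  add_mem' := by
    rintro s t ⟨g, hg, h1⟩ ⟨g', hg', h2⟩
    exact ⟨g * g', M.mul_mem hg hg', fun v => by
      rw [mul_app, h2, h1]; simp [hw, add_smul]; abel⟩
  neg_mem' := by
    rintro s ⟨g, hg, h1⟩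
    exact ⟨g⁻¹, M.inv_mem hg, fun v => by rw [zk_inv hw h1]; simp [sub_eq_add_neg]⟩

theorem ZK.add (hw : k w w = 0) (hs : ZK k M w s) (ht : ZK k M w t) :
    ZK k M w fun a => s a + t a := (ZG k M hw).add_mem hs ht

theorem ZK.sub (hw : k w w = 0) (hs : ZK k M w s) (ht : ZK k M w t) :
    ZK k M w fun a => s a - t a := (ZG k M hw).sub_mem hs ht

theorem ZK.neg (hw : k w w = 0) (hs : ZK k M w s) : ZK k M w fun a => -s a :=
  (ZG k M hw).neg_mem hs

theorem ZK.zero (hw : k w w = 0) : ZK k M w fun _ => 0 := (ZG k M hw).zero_mem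

theorem ZK.conj {B : V ≃ₗ[K] V} (hB : B ∈ k.GU) (hB' : rs F B ∈ M) (hs : ZK k M w s) :
    ZK k M (B w) s := by
  obtain ⟨g, hg, h1⟩ := hs
  refine ⟨rs F B * g * (rs F B)⁻¹, M.mul_mem (M.mul_mem hB' hg) (M.inv_mem hB'), fun v => ?_⟩
  rw [mul_app, mul_app, h1, rs_inv_apply, rs_apply, map_add, apply_inv_apply, map_smul, GU_right hB]

theorem ZK.of_smul {a : K} (hs : ZK k M (a • w) s) : ZK k M w fun x => a * s (star a * x) := by
  obtain ⟨g, hg, h1⟩ := hs
  exact ⟨g, hg, fun v => by rw [h1, smul_right, smul_smul, mul_comm]⟩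

theorem ZK.scale (c : XC h k M) (hw0 : w ≠ 0) (hw : k w w = 0) (hs : ZK k M w s) {a : K}
    (ha0 : a ≠ 0) (ha : Algebra.norm F (a * (star a)⁻¹) = 1 ∨ 3 ≤ finrank K V) :
    ZK k M w fun x => a * s (star a * x) := by
  apply ZK.of_smul
  rcases ha with ha | ha
  · obtain ⟨f, hf, hwf⟩ := exists_partner_top hw0 hw
    have := hs.conj (D_mem_GU hw hf hwf ha0) (c.rs_mem (D_mem_GU hw hf hwf ha0) (by
      rw [det_D hw hf hwf ha0, ha]))
    rw [D_apply hw hf hwf ha0] at this
    simpa [hw, hwf, sub_smul] using this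
  · obtain ⟨B, hB, h1⟩ := (ndOn_top (h := k)).trans_iso (by simpa using ha) trivial hw0 hw trivial
      (smul_ne_zero ha0 hw0) (by simp [hw])
    rw [SUW_top] at hB
    exact h1 ▸ hs.conj hB.1 (c.rs_SU hB)

theorem ZK.scale_real (c : XC h k M) (hw0 : w ≠ 0) (hw : k w w = 0) (hs : ZK k M w s) {a : K}
    (ha : star a = a) : ZK k M w fun x => a * s (a * x) := by
  by_cases ha0 : a = 0
  · exact ZK.congr (ZG k M hw).zero_mem fun x => by simp [ha0]
  · simpa [ha] using hs.scale c hw0 hw ha0 (Or.inl (by rw [ha, mul_inv_cancel₀ ha0, map_one]))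

theorem ZK.skew (c : XC h k M) (hw0 : w ≠ 0) (hw : k w w = 0) (hs : ZK k M w s) (a b : K) :
    Algebra.trace F K (s a * star b) = -Algebra.trace F K (a * star (s b)) := by
  obtain ⟨f, hf, hwf⟩ := exists_partner_top hw0 hw
  obtain ⟨g, hg, h1⟩ := hs
  have := (c.hM hg).1 (a • f) (b • f)
  rw [h1, h1, c.tr, c.tr] at this
  simp only [smul_left, smul_right, add_left, add_right, hw, hf, hwf, symm1 hwf, mul_one, mul_zero,
    map_zero, zero_add, add_zero, map_add] at this
  rw [mul_comm (s a), mul_comm a]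
  linear_combination this

theorem XC.zk_T (c : XC h k M) (hw : k w w = 0) {a : K} (ha : a + star a = 0) :
    ZK k M w fun x => a * x :=
  ⟨_, c.rs_SU (T_mem_SU w a), fun v => by rw [rs_apply, T_apply hw ha]⟩

/-- the skew-hermitian maps attached to an automorphism -/
def Xf (τ : K ≃ₐ[F] K) (a : K) (x : K) : K := a * τ x - τ⁻¹ (star a * x)

theorem ZK.comp (c : XC h k M) (hw0 : w ≠ 0) (hw : k w w = 0) (hs : ZK k M w s)
    {p : (K ≃ₐ[F] K) → K} (hp : ∀ a, s a = ∑ σ, p σ * σ a) {τ : K ≃ₐ[F] K} (hτ : τ ≠ 1) {u : K}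
    (hu : star u = u) : ZK k M w (Xf τ (u * p τ)) := by
  classical
  let A : AddSubgroup ((K ≃ₐ[F] K) → K) :=
    { carrier := {v | ZK k M w fun a => ∑ σ : K ≃ₐ[F] K,
        (v σ + star (v σ) + σ (v σ⁻¹ + star (v σ⁻¹))) * (p σ * σ a)}
      zero_mem' := by
        rw [Set.mem_setOf_eq]
        exact ZK.congr (ZG k M hw).zero_mem fun x => by simp
      add_mem' := fun {v v'} hv hv' => by
        rw [Set.mem_setOf_eq] at *
        refine (ZK.add hw hv hv').congr fun x => ?_
        rw [← Finset.sum_add_distrib]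
        refine Finset.sum_congr rfl fun σ _ => ?_
        simp only [Pi.add_apply, star_add, map_add]; ring
      neg_mem' := fun {v} hv => by
        rw [Set.mem_setOf_eq] at *
        refine (hv.neg hw).congr fun x => ?_
        rw [← Finset.sum_neg_distrib]
        refine Finset.sum_congr rfl fun σ _ => ?_
        simp only [Pi.neg_apply, star_neg, map_add, map_neg]; ring }
  have hA : ∀ v, v ∈ A ↔ ZK k M w fun a => ∑ σ : K ≃ₐ[F] K,
    (v σ + star (v σ) + σ (v σ⁻¹ + star (v σ⁻¹))) * (p σ * σ a) := fun v => Iff.rfl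
  obtain ⟨θ, hθ⟩ := exists_tr_one K
  have h1 : Pi.single τ (θ * u) ∈ A := by
    refine mem_of_mem_core (span_real (core K A) (fun b hb a => ?_) _)
    rw [hA]
    have h2 : star (a + star a) = a + star a := by simp [add_comm]
    refine (((hs.scale_real c hw0 hw (a := a + star a + b) (by rw [star_add, h2, hb])).sub hw
      (hs.scale_real c hw0 hw h2)).sub hw (hs.scale_real c hw0 hw hb)).congr fun x => ?_
    simp only [hp, Finset.mul_sum, ← Finset.sum_sub_distrib]
    refine Finset.sum_congr rfl fun σ _ => ?_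
    simp only [Pi.smul_apply, smul_eq_mul, star_mul', ← gal_star, hb, map_add, map_mul,
      gal_app_inv]
    ring
  have h2 : ∀ σ, (Pi.single τ (θ * u) : _ → K) σ + star ((Pi.single τ (θ * u) : _ → K) σ) =
      if σ = τ then u else 0 := fun σ => by
    by_cases h : σ = τ
    · simp only [h, Pi.single_eq_same, star_mul', hu, if_true]; linear_combination u * hθ
    · simp [h]
  have h3 : ZK k M w fun a => u * p τ * τ a + τ⁻¹ u * p τ⁻¹ * τ⁻¹ a := by
    refine ((hA _).1 h1).congr fun a => ?_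
    have h5 : ∀ σ : K ≃ₐ[F] K, σ (if σ = τ⁻¹ then u else 0) = if σ = τ⁻¹ then σ u else 0 :=
      fun σ => by split_ifs <;> simp
    simp only [h2, add_mul, Finset.sum_add_distrib, inv_eq_iff_eq_inv, h5,
      ite_mul, zero_mul, Finset.sum_ite_eq', Finset.mem_univ, if_true, mul_assoc]
  obtain ⟨-, -, h4⟩ := ker3 c.prime hτ (N := ⊤) (by simpa using c.three) (p₀ := 0)
    (p₁ := u * p τ + τ (star (τ⁻¹ u * p τ⁻¹))) (p₂ := τ⁻¹ u * p τ⁻¹ + τ⁻¹ (star (u * p τ)))
    fun a _ => tr_nd (F := F) fun b => by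
      have := h3.skew c hw0 hw a (star b)
      generalize τ⁻¹ u * p τ⁻¹ = y at this ⊢
      generalize u * p τ = x at this ⊢
      simp only [star_star, star_add, star_mul', ← gal_star, mul_add, map_add] at this
      rw [← tr_gal τ⁻¹ (a * _), ← tr_gal τ (a * (_ * τ⁻¹ b)), ← map_add, eq_neg_iff_add_eq_zero,
        ← map_add] at this
      simp only [map_mul, gal_inv_app, gal_app_inv] at this
      rw [← this]; congr 1; ring
  refine h3.congr fun a => ?_
  rw [Xf, map_mul, eq_neg_of_add_eq_zero_left h4]; ring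

end Cfsg.Agent.H5.U
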