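import Cfsg.Agent.H5.U.Ext2

/-! Extension field subgroups of unitary groups: the centre of the radical is not enlarged. -/

set_option autoImplicit false
set_option linter.unusedSimpArgs false
set_option linter.unusedSectionVars false
set_option linter.unusedVariables false

namespace Cfsg.Agent.H5.U

open Module H6 HF

variable {F K V : Type*} [Field F] [Field K] [Algebra F K] [Finite K] [StarRing F] [StarRing K]
  [StarModule F K] [NStar F] [NStar K] [Finite F] [AddCommGroup V] [Module F V] [Module K V]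
  [IsScalarTower F K V] [FiniteDimensional K V] [FiniteDimensional F V]

variable {h : HF F V} {k : HF K V} {M : Subgroup (V ≃ₗ[F] V)} {w w' f : V} {s t x : K → K}
  {τ : K ≃ₐ[F] K}

theorem XC.exists_lam (c : XC h k M) : ∃ a : K, a ≠ 0 ∧
    (Algebra.norm F (a * (star a)⁻¹) = 1 ∨ 3 ≤ finrank K V) ∧
    ∀ t : F, a * (star a)⁻¹ ≠ t • (1 : K) := by
  rcases c.hq with hq | ⟨μ, h1, h2, h3⟩
  · obtain ⟨a, ha, ha'⟩ := exists_real_not_mem (F := F) (K := K) c.prime.two_le
    obtain ⟨ω, hω⟩ := NStar.exists_ne (F := F)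
    have h0 : a + ω • (1 : K) ≠ 0 := fun h0 => ha' (-ω) (by rw [neg_smul]; linear_combination h0)
    refine ⟨a + ω • 1, h0, Or.inr hq, fun t ht => ?_⟩
    rw [mul_inv_eq_iff_eq_mul₀ (star_ne_zero' h0)] at ht
    simp only [star_add, ha, star_smul, star_one, smul_mul_assoc, one_mul, smul_add,
      smul_smul] at ht
    by_cases h1 : 1 - t = 0
    · rw [← sub_eq_zero.1 h1, one_smul, one_mul, add_right_inj] at ht
      exact hω (smul_left_injective F one_ne_zero ht).symm
    · refine ha' ((1 - t)⁻¹ * (t * star ω - ω)) ?_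
      rw [mul_smul, eq_inv_smul_iff₀ h1]
      linear_combination (norm := module) ht
  · have h4 : ∀ t : F, μ ≠ t • (1 : K) := by
      rintro t rfl
      rw [← Algebra.algebraMap_eq_smul_one] at h2 h3
      rw [Algebra.norm_algebraMap] at h2
      exact h3 (by rw [← map_pow, h2, map_one])
    have h0 : 1 + μ ≠ 0 := fun h0 => h4 (-1) (by rw [neg_smul, one_smul]; linear_combination h0)
    have h5 : (1 + μ) * (star (1 + μ))⁻¹ = μ := by
      rw [mul_inv_eq_iff_eq_mul₀ (star_ne_zero' h0), star_add, star_one]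
      linear_combination -h1
    exact ⟨1 + μ, h0, Or.inl (by rw [h5, h2]), by rwa [h5]⟩

variable (k M) in
/-- all the maps attached to `τ` occur -/
def InG (w : V) (τ : K ≃ₐ[F] K) : Prop := ∀ a, ZK k M w (Xf τ a)

theorem ZK.full (c : XC h k M) (hw0 : w ≠ 0) (hw : k w w = 0) (hs : ZK k M w s)
    {p : (K ≃ₐ[F] K) → K} (hp : ∀ a, s a = ∑ σ, p σ * σ a) (hτ : τ ≠ 1) (h0 : p τ ≠ 0) :
    InG k M w τ := by
  intro a
  obtain ⟨l, hl0, hl, hl'⟩ := c.exists_lam
  have hl1 := star_ne_zero' hl0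
  obtain ⟨u, u', hu, hu', h1⟩ := exists_coord (a := l * τ (star l)) (fun h1 => by
    obtain ⟨t, ht⟩ := mem_of_fix c.prime hτ (a := l * (star l)⁻¹) (by
      rw [star_mul', ← gal_star, star_star] at h1
      have : τ (star l) ≠ 0 := by simpa using hl0
      rw [map_mul, map_inv₀]
      field_simp
      linear_combination h1)
    exact hl' t ht) (a / p τ)
  refine ((hs.comp c hw0 hw hp hτ hu).add hw ((hs.scale c hw0 hw hl0 hl).comp c hw0 hw
    (p := fun σ => l * σ (star l) * p σ) (fun b => ?_) hτ hu')).congr fun b => ?_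
  · simp only [hp, Finset.mul_sum, map_mul]
    exact Finset.sum_congr rfl fun σ _ => by ring
  · rw [div_eq_iff h0] at h1
    simp only [h1, Xf, add_mul, star_add, map_add]
    ring_nf

theorem XC.inG_one (c : XC h k M) (hw : k w w = 0) : InG k M w 1 := fun a =>
  (c.zk_T hw (a := a - star a) (by simp)).congr fun b => by simp [Xf, sub_mul]

theorem InG.inv (H : InG k M w τ) : InG k M w τ⁻¹ := fun a =>
  (H (-τ (star a))).congr fun b => by
    simp only [Xf, inv_inv, star_neg, ← gal_star, star_star, neg_mul, map_neg, map_mul, gal_inv_app]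
    ring

theorem InG.move (c : XC h k M) (hw0 : w ≠ 0) (hw : k w w = 0) (hw0' : w' ≠ 0) (hw' : k w' w' = 0)
    (H : InG k M w τ) : InG k M w' τ := by
  intro a
  obtain ⟨B, hB, b, hb, h1⟩ := c.trans hw0 hw hw0' hw'
  have h2 := (H (a / (b * τ (star b)))).conj hB.1 (c.rs_SU hB)
  rw [h1] at h2
  refine h2.of_smul.congr fun y => ?_
  have h3 : τ (star b) ≠ 0 := by simpa using hb
  have h4 : τ⁻¹ (star b) ≠ 0 := by simpa using hb
  simp only [Xf, map_mul, star_div₀, star_mul', ← gal_star, star_star, map_div₀, gal_inv_app]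
  field_simp

theorem XC.not_all (c : XC h k M) (hw0 : w ≠ 0) (hw : k w w = 0) : ¬ ∀ τ, InG k M w τ := by
  intro H
  refine c.not_X fun u hu t ht => ?_
  have hu' : h u u = 0 := by rw [c.tr, hu, map_zero]
  by_cases hu0 : u = 0
  · convert M.one_mem
    ext v; rw [T_apply hu' ht, hu0]; simp
  obtain ⟨θ, hθ⟩ := exists_tr_one F
  obtain ⟨g, hg, h1⟩ := (ZG k M hu).sum_mem (t := Finset.univ)
    fun σ _ => (H σ).move c hw0 hw hu0 hu ((θ * t) • (1 : K))
  convert hg
  ext v
  rw [T_apply hu' ht, h1, c.tr, Finset.sum_apply]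
  simp only [Xf, star_smul, star_one, smul_mul_assoc, one_mul, map_smul, Finset.sum_sub_distrib,
    ← Finset.smul_sum]
  have h2 : ∑ σ : K ≃ₐ[F] K, σ⁻¹ (k v u) = ∑ σ : K ≃ₐ[F] K, σ (k v u) :=
    Equiv.sum_comp (Equiv.inv (K ≃ₐ[F] K)) fun σ : K ≃ₐ[F] K => σ (k v u)
  rw [h2, ← tr_smul_one, ← sub_smul, smul_smul, smul_assoc, one_smul, star_mul',
    eq_neg_of_add_eq_zero_right ht]
  congr 3
  linear_combination -t * hθ

theorem zk_conj (hw : k w w = 0) (hf : k f f = 0) (hwf : k w f = 1) {S t x : K →ₗ[F] K}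
    (hs : ZK k M f S) (ht : ZK k M w t) (hx : ZK k M w x) (h0 : ∀ a, S (t (S a)) = 0) :
    ZK k M w fun a => x (a - S (t a)) - t (S (x (a - S (t a)))) := by
  have hfw := symm1 hwf
  obtain ⟨g₁, m₁, h₁⟩ := hs
  obtain ⟨g₂, m₂, h₂⟩ := ht
  obtain ⟨g₃, m₃, h₃⟩ := hx
  refine ⟨(g₁ * g₂ * g₁⁻¹) * g₃ * (g₁ * g₂ * g₁⁻¹)⁻¹, M.mul_mem (M.mul_mem
    (M.mul_mem (M.mul_mem m₁ m₂) (M.inv_mem m₁)) m₃)
    (M.inv_mem (M.mul_mem (M.mul_mem m₁ m₂) (M.inv_mem m₁))), fun v => ?_⟩
  have e1 : k ((g₁ * g₂ * g₁⁻¹)⁻¹ v) w = k v w - S (t (k v w)) := by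
    rw [mul_inv_rev, mul_inv_rev, inv_inv, ← mul_assoc, mul_app, mul_app, h₁, zk_inv hw h₂,
      zk_inv hf h₁]
    simp [hw, hf, hwf, hfw, h0]
  have e2 : ∀ a : K, (g₁ * g₂ * g₁⁻¹) (a • w) = (a - t (S a)) • w := fun a => by
    rw [mul_app, mul_app, h₁, h₂, zk_inv hf h₁]
    simp [hw, hf, hwf, hfw, h0, sub_smul]
    abel
  rw [mul_app, mul_app, h₃, map_add, apply_inv_apply, e1, e2]

theorem exists_ker₂ {F P W U : Type*} [Field F] [AddCommGroup P] [Module F P] [AddCommGroup W]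
    [Module F W] [AddCommGroup U] [Module F U] [FiniteDimensional F P] [FiniteDimensional F W]
    [FiniteDimensional F U] (Φ : P →ₗ[F] W →ₗ[F] W) (Ψ : P →ₗ[F] U)
    (H : finrank F W * finrank F W + finrank F U < finrank F P) :
    ∃ p, p ≠ 0 ∧ Φ p = 0 ∧ Ψ p = 0 := by
  obtain ⟨p, hp, hp0⟩ := Submodule.exists_mem_ne_zero_of_ne_bot
    ((Φ.prod Ψ).ker_ne_bot_of_finrank_lt (by rwa [finrank_prod, finrank_linearMap]))
  exact ⟨p, hp0, congrArg Prod.fst hp, congrArg Prod.snd hp⟩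

/-- maps with three components -/
def G3 (τ : K ≃ₐ[F] K) : (K × K × K) →ₗ[F] K →ₗ[F] K :=
  LinearMap.mk₂ F (fun p a => p.1 * a + p.2.1 * τ a + p.2.2 * τ⁻¹ a)
    (fun p q a => by simp only [Prod.fst_add, Prod.snd_add]; ring)
    (fun t p a => by simp [smul_add])
    (fun p a b => by simp only [map_add]; ring)
    (fun t p a => by simp [smul_add])

theorem G3_apply (p : K × K × K) (a : K) : G3 τ p a = p.1 * a + p.2.1 * τ a + p.2.2 * τ⁻¹ a := rfl

/-- the coordinates of the adjoint -/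
def ad3 (τ : K ≃ₐ[F] K) (p : K × K × K) : K × K × K :=
  (star p.1, τ (star p.2.2), τ⁻¹ (star p.2.1))

theorem tr_G3 (p : K × K × K) (a b : K) : Algebra.trace F K (G3 τ (ad3 τ p) a * star b) =
    Algebra.trace F K (a * star (G3 τ p b)) := by
  simp only [G3_apply, ad3, star_add, star_mul', ← gal_star, mul_add, add_mul, map_add]
  rw [← tr_gal τ⁻¹ (a * (_ * τ _)), ← tr_gal τ (a * (_ * τ⁻¹ _))]
  simp only [map_mul, gal_inv_app, gal_app_inv]
  ring_nf

theorem G3_zero (c : XC h k M) (hτ : τ ≠ 1) {p : K × K × K} {N : Submodule F K}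
    (hN : finrank F N ≤ 2) (hr : finrank F K = 5) (H : ∀ a, G3 τ p a ∈ N) : p = 0 := by
  have h1 := (G3 τ p).finrank_range_add_finrank_ker
  have h2 : finrank F (LinearMap.range (G3 τ p)) ≤ finrank F N :=
    Submodule.finrank_mono (by rintro _ ⟨a, rfl⟩; exact H a)
  obtain ⟨h3, h4, h5⟩ := ker3 c.prime hτ (N := LinearMap.ker (G3 τ p)) (by omega) fun a ha => ha
  exact Prod.ext h3 (Prod.ext h4 h5)

theorem InG.three (c : XC h k M) (hw : k w w = 0) (H : InG k M w τ) (p : K × K × K) :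
    ZK k M w (G3 τ (p - ad3 τ p)) :=
  (((c.inG_one hw p.1).add hw (H p.2.1)).add hw (H.inv p.2.2)).congr fun a => by
    simp only [G3_apply, ad3, Xf, Prod.fst_sub, Prod.snd_sub, inv_one, AlgEquiv.one_apply, map_mul,
      inv_inv]
    ring

theorem InG.mul_self (c : XC h k M) (hw0 : w ≠ 0) (hw : k w w = 0) (hτ : τ ≠ 1) (hr : finrank F K = 5)
    (H : InG k M w τ) : InG k M w (τ * τ) := by
  classical
  by_contra hn
  have hτ2 : τ * τ ≠ 1 := fun h => hτ (gal_sq c.odd h)
  have h5 : τ ^ 5 = 1 := hr ▸ gal_pow τ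
  have form : ∀ s : K →ₗ[F] K, ZK k M w s → ∃ p, s = G3 τ p := by
    intro s hs
    obtain ⟨p, hp⟩ := exists_coef s
    refine ⟨(p 1, p τ, p τ⁻¹), LinearMap.ext fun a => ?_⟩
    rw [hp, ← Finset.sum_subset (Finset.subset_univ {1, τ, τ⁻¹}), Finset.sum_insert (by
      simp [hτ.symm, hτ]), Finset.sum_pair (fun h => hτ2 (by nth_rewrite 1 [h]; simp)), G3_apply,
      add_assoc, AlgEquiv.one_apply]
    intro σ _ hσ
    by_contra h0
    simp only [Finset.mem_insert, Finset.mem_singleton, not_or] at hσ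
    have h1 := hs.full c hw0 hw hp hσ.1 (left_ne_zero_of_mul h0)
    obtain ⟨n, hn5, rfl⟩ := gal_cases c.prime hτ σ
    rw [hr] at hn5
    interval_cases n
    · exact hσ.1 (pow_zero _)
    · exact hσ.2.1 (pow_one _)
    · exact hn (sq τ ▸ h1)
    · refine hn (Eq.mp (congrArg _ ?_) h1.inv)
      rw [inv_eq_iff_mul_eq_one, ← h5]; group
    · exact hσ.2.2 (by rw [eq_inv_iff_mul_eq_one, ← pow_succ, h5])
  obtain ⟨f, hf, hwf⟩ := exists_partner_top hw0 hw
  have hf0 := ne_zero_right (h := k) (hwf ▸ one_ne_zero : k w f ≠ 0)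
  obtain ⟨y, hy, hy'⟩ := exists_real_not_mem (F := F) (K := K) c.prime.two_le
  have hd := del_ne (F := F)
  have he0 : τ y - y ≠ 0 := fun h0 => by
    obtain ⟨t, ht⟩ := mem_of_fix c.prime hτ (sub_eq_zero.1 h0)
    exact hy' t ht
  set e : K := del F • (τ y - y)⁻¹ with he
  have he1 : star e = -e := by simp [he, ← gal_star, hy]
  have he2 : e ≠ 0 := smul_ne_zero hd (inv_ne_zero he0)
  set S := G3 τ (e + τ⁻¹ e, -e, -τ⁻¹ e) with hS
  have hSf : ZK k M f S := ((c.zk_T hf (a := e + τ⁻¹ e) (by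
    simp only [star_add, ← gal_star, he1, map_neg]; ring)).add hf (H.move c hw0 hw hf0 hf (-e))).congr fun a => by
      simp only [hS, G3_apply, Xf, star_neg, he1, neg_neg, map_mul]; ring
  have k1 : finrank F (LinearMap.ker S) ≤ 2 := by
    by_contra! h0
    exact he2 (neg_eq_zero.1 (ker3 c.prime hτ h0 fun a ha => ha).2.1)
  have k2 : finrank F (LinearMap.range S) ≤ 3 := by
    have h1 := S.finrank_range_add_finrank_ker
    have h2 : ¬ finrank F (LinearMap.ker S) ≤ 1 := fun h2 => by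
      have := Submodule.eq_of_le_of_finrank_le (S₁ := Submodule.span F {(1 : K)})
        (S₂ := LinearMap.ker S) ((Submodule.span_singleton_le_iff_mem _ _).2 (by
          simp [hS, G3_apply])) (by rwa [finrank_span_singleton one_ne_zero])
      obtain ⟨t, ht⟩ := Submodule.mem_span_singleton.1 (this.ge (show S y = 0 by
        have h3 : e * (τ y - y) = del F • (1 : K) := by rw [he, smul_mul_assoc, inv_mul_cancel₀ he0]
        have h4 := congrArg (fun z => τ⁻¹ z) h3
        simp only [map_mul, map_sub, gal_inv_app, map_smul, map_one] at h4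
        simp only [hS, G3_apply]
        linear_combination h4 - h3))
      exact hy' t ht.symm
    omega
  have ex : ∀ v, ∃ p, p ≠ 0 ∧ (∀ a, S (G3 τ p (S a)) = 0) ∧ S (G3 τ p v) = 0 := by
    intro v
    obtain ⟨p, hp0, hp, hp'⟩ := exists_ker₂ (P := K × K × K) (W := LinearMap.range S) (U := K)
      { toFun := fun p => S.rangeRestrict ∘ₗ G3 τ p ∘ₗ (LinearMap.range S).subtype
        map_add' := fun p q => by simp [LinearMap.comp_add, LinearMap.add_comp]
        map_smul' := fun t p => by simp [LinearMap.comp_smul, LinearMap.smul_comp] }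
      (S ∘ₗ (G3 τ).flip v) (by
        simp only [finrank_prod, hr]
        have := Nat.mul_le_mul k2 k2
        omega)
    exact ⟨p, hp0, fun a => congrArg Subtype.val (LinearMap.congr_fun hp ⟨S a, a, rfl⟩), hp'⟩
  have sk := hSf.skew c hf0 hf
  have adj : ∀ p, (∀ a, S (G3 τ p (S a)) = 0) → ∀ a, S (G3 τ (p - ad3 τ p) (S a)) = 0 := by
    intro p hp a
    rw [map_sub, LinearMap.sub_apply, map_sub, hp, zero_sub, neg_eq_zero]
    refine tr_nd (F := F) fun b => ?_
    rw [mul_comm, ← star_star b, sk, tr_G3, sk, hp]; simp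
  have key : ∀ t t' : K →ₗ[F] K, ZK k M w t → ZK k M w t' → (∀ a, S (t (S a)) = 0) →
      (∀ a, S (t' (S a)) = 0) → ∀ v v', S (t' v) * star (S (t v')) + S (t v) * star (S (t' v')) = 0 := by
    intro t t' ht ht' h1 h2 v v'
    refine tr_nd (F := F) fun a => ?_
    refine skew_ind (LinearMap.ker (Algebra.trace F K ∘ₗ LinearMap.mulRight F _)) (fun a ha => ?_) a
    have hx : ZK k M w (LinearMap.mulLeft F a) := c.zk_T hw ha
    obtain ⟨p, hp⟩ := form (t ∘ₗ S ∘ₗ LinearMap.mulLeft F a ∘ₗ S ∘ₗ t' +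
        t' ∘ₗ S ∘ₗ LinearMap.mulLeft F a ∘ₗ S ∘ₗ t)
      (((((zk_conj hw hf hwf hSf (t := t + t') (ht.add hw ht') hx fun a => by
        simp [h1, h2]).sub hw (zk_conj hw hf hwf hSf ht hx h1)).sub hw
        (zk_conj hw hf hwf hSf ht' hx h2)).add hw hx).congr fun b => by
          simp only [LinearMap.add_apply, LinearMap.comp_apply, map_add, map_sub]; abel)
    have h3 := G3_zero c hτ k1 hr (p := p) fun b => by rw [← hp]; simp [h1, h2]
    rw [h3, map_zero] at hp
    have h4 := congrArg (fun z => Algebra.trace F K (z * star v')) (LinearMap.congr_fun hp v)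
    simp only [LinearMap.add_apply, LinearMap.comp_apply, add_mul, map_add, ht.skew c hw0 hw,
      ht'.skew c hw0 hw, sk, LinearMap.mulLeft_apply] at h4
    simpa [mul_add, mul_assoc] using h4
  obtain ⟨ω, hω⟩ := NStar.exists_ne (F := F)
  have hω' : ω - star ω ≠ 0 := sub_ne_zero.2 hω.symm
  have dec : ∀ p v, (ω - star ω) • S (G3 τ p v) = S (G3 τ (ω • p - ad3 τ (ω • p)) v) -
      star ω • S (G3 τ (p - ad3 τ p) v) := fun p v => by
    have : ad3 τ (ω • p) = star ω • ad3 τ p := by simp [ad3]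
    simp only [this, map_sub, map_smul, LinearMap.sub_apply, LinearMap.smul_apply]
    module
  have hsm : ∀ p, (∀ a, S (G3 τ p (S a)) = 0) → ∀ a, S (G3 τ (ω • p) (S a)) = 0 := fun p hp a => by
    simp [hp]
  obtain ⟨t, v', ht, h1, h2⟩ : ∃ (t : K →ₗ[F] K) (v' : K), ZK k M w t ∧ (∀ a, S (t (S a)) = 0) ∧
      S (t v') ≠ 0 := by
    obtain ⟨p, hp0, hp, -⟩ := ex 0
    by_contra! h0
    refine hp0 (G3_zero c hτ k1 hr fun a => ?_)
    have := dec p a
    rw [h0 _ a (H.three c hw _) (adj _ hp), h0 _ a (H.three c hw _) (adj _ (hsm p hp))] at this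
    simpa [hω'] using this
  obtain ⟨p, hp0, hp, hp'⟩ := ex v'
  refine hp0 (G3_zero c hτ k1 hr fun a => ?_)
  have h3 := key _ _ ht (H.three c hw p) h1 (adj _ hp)
  have h4 := key _ _ ht (H.three c hw (ω • p)) h1 (adj _ (hsm p hp))
  have h6 : ∀ v, ((ω - star ω) • S (G3 τ p v)) * star (S (t v')) = S (t v) *
      (star ω • star (S (G3 τ (p - ad3 τ p) v')) - star (S (G3 τ (ω • p - ad3 τ (ω • p)) v'))) := by
    intro v
    rw [dec, sub_mul, mul_sub, smul_mul_assoc, mul_smul_comm, eq_neg_of_add_eq_zero_left (h3 v v'),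
      eq_neg_of_add_eq_zero_left (h4 v v')]
    module
  have h7 := h6 v'
  rw [hp', smul_zero, zero_mul, eq_comm, mul_eq_zero, or_iff_right h2] at h7
  have h8 := h6 a
  rw [h7] at h8
  simpa [hω', h2] using h8

theorem ZK.scalar (c : XC h k M) (hw0 : w ≠ 0) (hw : k w w = 0) {s : K →ₗ[F] K}
    (hs : ZK k M w s) (a : K) : s a = s 1 * a := by
  classical
  obtain ⟨p, hp⟩ := exists_coef s
  have h1 : ∀ σ, σ ≠ 1 → p σ = 0 := by
    intro τ hτ
    by_contra h0
    have h1 := hs.full c hw0 hw hp hτ h0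
    refine c.not_all hw0 hw fun σ => ?_
    obtain ⟨n, hn, rfl⟩ := gal_cases c.prime hτ σ
    have h2 := gal_pow τ
    rcases c.hr with hr | hr <;> rw [hr] at hn h2
    · interval_cases n
      · exact pow_zero τ ▸ c.inG_one hw
      · exact (pow_one τ).symm ▸ h1
      · refine Eq.mp (congrArg _ ?_) h1.inv
        rw [inv_eq_iff_mul_eq_one, ← h2]; group
    · have h3 := h1.mul_self c hw0 hw hτ hr
      interval_cases n
      · exact pow_zero τ ▸ c.inG_one hw
      · exact (pow_one τ).symm ▸ h1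
      · exact (sq τ).symm ▸ h3
      · refine Eq.mp (congrArg _ ?_) h3.inv
        rw [inv_eq_iff_mul_eq_one, ← h2]; group
      · refine Eq.mp (congrArg _ ?_) h1.inv
        rw [inv_eq_iff_mul_eq_one, ← h2]; group
  have h2 : ∀ a, s a = p 1 * a := fun a => by
    rw [hp, Finset.sum_eq_single 1 (fun σ _ hσ => by simp [h1 σ hσ]) (by simp), AlgEquiv.one_apply]
  rw [h2, h2, mul_one]

end Cfsg.Agent.H5.U
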