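import Cfsg.Agent.H5.U.Ext3

/-! Extension field subgroups of unitary groups: the stabiliser of an isotropic point. -/

set_option autoImplicit false
set_option linter.unusedSimpArgs false
set_option linter.unusedSectionVars false
set_option linter.unusedVariables false

namespace Cfsg.Agent.H5.U

open Module H6 HF

variable {F K V : Type*} [Field F] [Field K] [Algebra F K] [AddCommGroup V] [Module F V]
  [Module K V] [IsScalarTower F K V]

variable (F K V) in
/-- the `K`-linear elements -/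
def KLin : Subgroup (V ≃ₗ[F] V) where
  carrier := {g | ∀ (c : K) v, g (c • v) = c • g v}
  mul_mem' {a b} ha hb c v := by rw [LinearEquiv.mul_apply, LinearEquiv.mul_apply, hb, ha]
  one_mem' c v := rfl
  inv_mem' {a} ha c v := by
    apply a.injective
    rw [ha, apply_inv_apply, apply_inv_apply]

theorem rs_mem_KLin (g : V ≃ₗ[K] V) : rs F g ∈ KLin F K V := fun c v => by simp

theorem semi_mul {a b : V ≃ₗ[F] V} (ha : Semi K a) (hb : Semi K b) : Semi K (a * b) := fun c => by
  obtain ⟨c', h1⟩ := hb c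
  obtain ⟨c'', h2⟩ := ha c'
  exact ⟨c'', fun v => by rw [LinearEquiv.mul_apply, LinearEquiv.mul_apply, h1, h2]⟩

variable (F K V) in
/-- the semilinear elements -/
def GG : Subgroup (V ≃ₗ[F] V) where
  carrier := {g | GamL K g}
  mul_mem' {a b} ha hb := ⟨semi_mul ha.1 hb.1, by rw [mul_inv_rev]; exact semi_mul hb.2 ha.2⟩
  one_mem' := ⟨fun c => ⟨c, fun _ => rfl⟩, fun c => ⟨c, fun _ => rfl⟩⟩
  inv_mem' {a} ha := ⟨ha.2, by rw [inv_inv]; exact ha.1⟩

theorem rs_mem_GG (g : V ≃ₗ[K] V) : rs F g ∈ GG F K V := rs_gamL g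

theorem semi_aut [Finite K] {g : V ≃ₗ[F] V} (hg : g ∈ GG F K V) {w : V} (hw : w ≠ 0) :
    ∃ σ : K ≃ₐ[F] K, ∀ (c : K) v, g (c • v) = σ c • g v := by
  choose σ hσ using hg.1
  have h0 : g w ≠ 0 := by simpa using hw
  have inj := smul_left_injective K h0
  let φ : K →ₐ[F] K :=
    { toFun := σ
      map_one' := inj (by simp only [← hσ, one_smul])
      map_mul' := fun a b => inj (by simp only [mul_smul, ← hσ])
      map_zero' := inj (by simp only [← hσ, zero_smul, map_zero])
      map_add' := fun a b => inj (by simp only [add_smul, ← hσ, map_add])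
      commutes' := fun t => inj (by simp only [← hσ, algebraMap_smul, map_smul]) }
  exact ⟨AlgEquiv.ofBijective φ (Finite.injective_iff_bijective.1 φ.injective), hσ⟩

variable [Finite K] [StarRing F] [StarRing K] [StarModule F K] [NStar F] [NStar K] [Finite F]
  [FiniteDimensional K V] [FiniteDimensional F V]

variable {h : HF F V} {k : HF K V} {M : Subgroup (V ≃ₗ[F] V)} {w w' f : V} {g : V ≃ₗ[F] V}

theorem eq_smul_of_perp (hw : k w w = 0) (hf : k f f = 0) (hwf : k w f = 1) {v : V}
    (H : ∀ y, k y w = 0 → k v y = 0) : v = k v f • w := by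
  refine k.ext_left fun z => ?_
  have := H (z - k z w • f) (by simp [symm1 hwf])
  simp only [sub_right, smul_right, conj] at this
  rw [smul_left]
  linear_combination this

theorem eq_of_mem_Kl (hwf : k w f = 1) {v : V} (hv : v ∈ Kl F K w) : v = k v f • w := by
  obtain ⟨a, rfl⟩ := mem_Kl.1 hv
  simp [hwf]

theorem eq_zero_of_anti {a b : K} {ω : F} (hω : star ω ≠ ω) (h1 : a = b) (h2 : ω • a = star ω • b) :
    a = 0 := by
  have : (ω - star ω) • a = 0 := by rw [sub_smul, h2, h1, sub_self]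
  simpa [sub_ne_zero.2 hω.symm] using this

theorem XC.Z (c : XC h k M) (hw0 : w ≠ 0) (hw : k w w = 0) (hg : g ∈ M)
    (H : ∀ v, g v - v ∈ Kl F K w) : ∃ a : K, a + star a = 0 ∧ ∀ v, g v = v + (a * k v w) • w := by
  obtain ⟨f, hf, hwf⟩ := exists_partner_top hw0 hw
  have hfw := symm1 hwf
  let s : K →ₗ[F] K :=
    { toFun := fun a => k (g (a • f) - a • f) f
      map_add' := fun a b => by simp [add_smul]; ring
      map_smul' := fun t a => by simp [smul_assoc, k_smul_left, smul_sub] }
  have fix : ∀ v, k v w = 0 → g v = v := fun v hv => h.ext_left fun y => by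
    obtain ⟨x, rfl⟩ := g.surjective y
    obtain ⟨b, hb⟩ := mem_Kl.1 (H x)
    rw [(c.hM hg).1, ← add_sub_cancel x (g x), ← hb, add_right, c.tr v (b • w)]
    simp [hv]
  have hs : ∀ v, g v = v + s (k v w) • w := fun v => by
    have h1 := fix (v - k v w • f) (by simp [hfw])
    have h2 : g (k v w • f) - k v w • f = s (k v w) • w := eq_of_mem_Kl hwf (H _)
    rw [map_sub] at h1
    linear_combination (norm := module) h1 + h2
  have hz : ZK k M w s := ⟨g, hg, hs⟩
  refine ⟨s 1, tr_nd (F := F) fun a => ?_, fun v => by rw [hs, hz.scalar c hw0 hw]⟩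
  have := hz.skew c hw0 hw a 1
  rw [hz.scalar c hw0 hw a, star_one, mul_one, mul_comm] at this
  rw [mul_add, map_add, this, neg_add_cancel]

theorem XC.Z_lin (c : XC h k M) (hw0 : w ≠ 0) (hw : k w w = 0) (hg : g ∈ M)
    (H : ∀ v, g v - v ∈ Kl F K w) : g ∈ KLin F K V := by
  obtain ⟨a, -, ha⟩ := c.Z hw0 hw hg H
  intro b v
  rw [ha, ha, smul_left]; module

theorem XC.Q (c : XC h k M) (hw0 : w ≠ 0) (hw : k w w = 0) (hg : g ∈ M)
    (h1 : ∀ a : K, g (a • w) = a • w) (h2 : ∀ y, k y w = 0 → g y - y ∈ Kl F K w) :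
    g ∈ KLin F K V := by
  obtain ⟨f, hf, hwf⟩ := exists_partner_top hw0 hw
  have hfw := symm1 hwf
  have hG := (c.hM hg).1
  have kw : ∀ v, k (g v) w = k v w := fun v => c.k_ext' fun a => by
    conv_lhs => rw [← h1 a, hG]
  have kw' : ∀ v, k (g⁻¹ v) w = k v w := fun v => by rw [← kw, apply_inv_apply]
  have hφ : ∀ y, k y w = 0 → g y = y + k (g y - y) f • w := fun y hy => by
    rw [← eq_of_mem_Kl hwf (h2 y hy)]; abel
  have lin : ∀ x, k x w = 0 → ∀ b : K, k (g (b • x) - b • x) f - b * k (g x - x) f =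
      k (g⁻¹ (b • f) - b • g⁻¹ f) x := by
    intro x hx
    obtain ⟨d, hd⟩ := exists_tr (t := k x x) (k.conj _ _)
    have o : k.Ok w x d := ⟨hw, hx, hd⟩
    have e1 : ∀ v, g (k.E w x d (g⁻¹ v)) = k.E w x d v +
        (k (g (k v w • x) - k v w • x) f - k (g⁻¹ v) x + k v x) • w := fun v => by
      have := hφ (k v w • x) (by simp [hx])
      rw [E_apply o, E_apply o, map_sub, map_add, apply_inv_apply, h1, kw']
      linear_combination (norm := module) this
    obtain ⟨a, -, ha⟩ := c.Z hw0 hw (M.mul_mem (M.mul_mem (M.mul_mem hg (c.rs_SU (E_mem_SU w x d)))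
      (M.inv_mem hg)) (M.inv_mem (c.rs_SU (E_mem_SU w x d)))) fun v => by
        obtain ⟨u, rfl⟩ := (rs F (k.E w x d)).surjective v
        rw [mul_app, inv_apply_apply, mul_app, mul_app, rs_apply, rs_apply, e1, add_sub_cancel_left]
        exact smul_mem_Kl _ _
    have e2 : ∀ b : K, k (g (b • x) - b • x) f - k (g⁻¹ (b • f)) x + b * k f x = a * b := fun b => by
      have := ha (rs F (k.E w x d) (b • f))
      rw [mul_app, inv_apply_apply, mul_app, mul_app, rs_apply, rs_apply, e1, add_right_inj,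
        E_apply o] at this
      simpa [hfw, hx, hw] using smul_left_injective K hw0 this
    intro b
    have e3 := e2 1
    simp only [one_smul] at e3
    rw [k.sub_left (g⁻¹ _), smul_left]
    linear_combination e2 b - b * e3
  obtain ⟨ω, hω⟩ := NStar.exists_ne (F := F)
  have lin' : ∀ x, k x w = 0 → ∀ b : K, g (b • x) = b • g x := fun x hx b => by
    have := eq_zero_of_anti hω (lin x hx b) (by
      rw [← k_smul_right, ← lin _ (by simp [k_smul_left, hx]), smul_comm b ω x]
      simp only [map_smul, ← smul_sub, k_smul_left, mul_smul_comm])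
    rw [hφ x hx, hφ (b • x) (by simp [hx]), sub_eq_zero.1 this]
    module
  have h3 : k (g f - f) w = 0 := by simp [kw]
  obtain ⟨d, hd⟩ := exists_tr (t := k (g f - f) (g f - f)) (k.conj _ _)
  have o : k.Ok w (g f - f) d := ⟨hw, h3, hd⟩
  have h4 : ∀ y, k y w = 0 → ((rs F (k.E w (g f - f) d))⁻¹ * g) y = y := fun y hy => by
    apply (rs F (k.E w (g f - f) d)).injective
    have : k (g y) (g f) = k y f := c.k_ext fun a => by rw [← lin' y hy, hG]
    rw [hφ y hy] at this
    simp only [add_left, smul_left, ← k.conj (g f) w, kw, hfw, star_one, mul_one] at this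
    rw [mul_app, apply_inv_apply, rs_apply, E_apply_of_perp_left o hy, hφ y hy, sub_right,
      ← this]
    module
  have h5 := M.mul_mem (M.inv_mem (c.rs_SU (E_mem_SU w (g f - f) d))) hg
  have := (KLin F K V).mul_mem (rs_mem_KLin (k.E w (g f - f) d)) (c.Z_lin hw0 hw h5 fun v => by
    rw [eq_smul_of_perp hw hf hwf (v := _ - v) fun y hy => ?_]
    · exact smul_mem_Kl _ _
    · rw [sub_left, sub_eq_zero]
      exact c.k_ext' fun a => by
        conv_lhs => rw [← h4 (a • y) (by simp [hy]), (c.hM h5).1])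
  simpa using this

theorem XC.cent (c : XC h k M) (hw : k w w = 0) (hf : k f f = 0) (hwf : k w f = 1)
    (x : V →ₗ[F] V) (hE : ∀ y d v, k.Ok w y d → x (k.E w y d v) = k.E w y d (x v))
    (hD : ∀ l v, star l = l → l ≠ 0 → x (k.D w f l v) = k.D w f l (x v)) :
    ∃ γ : K, ∀ v, x v = γ • v := by
  have hfw := symm1 hwf
  have hw0 := ne_zero_left (h := k) (hwf ▸ one_ne_zero : k w f ≠ 0)
  have hT : ∀ a : K, a + star a = 0 → ∀ v, x ((a * k v w) • w) = (a * k (x v) w) • w := by
    intro a ha v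
    have := hE 0 (-a) v (okT hw ha)
    change x (k.T w a v) = k.T w a (x v) at this
    rwa [T_apply hw ha, T_apply hw ha, map_add, add_right_inj] at this
  set γ := k (x f) w with hγ
  have h1 : ∀ a : K, x (a • w) = (a * γ) • w := skew_ind (F := F)
    { carrier := {a : K | x (a • w) = (a * γ) • w}
      add_mem' := fun {a b} ha hb => by
        simp only [Set.mem_setOf_eq] at *; rw [add_smul, map_add, ha, hb, add_mul, add_smul]
      zero_mem' := by simp
      smul_mem' := fun t a ha => by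
        simp only [Set.mem_setOf_eq] at *
        rw [smul_assoc, map_smul, ha, smul_mul_assoc, smul_assoc] }
    fun a ha => by simpa [hfw] using hT a ha f
  have h2 : ∀ v, k (x v) w = γ * k v w := fun v => by
    have := hT _ (del_tr (F := K)) v
    rw [h1] at this
    have := smul_left_injective K hw0 this
    apply mul_left_cancel₀ (del_ne (F := K))
    linear_combination -this
  have h3 : ∀ y, k y w = 0 → ∀ b : K, x (b • y) = (γ * b) • y + k ((γ * b) • f - x (b • f)) y • w := by
    intro y hy b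
    obtain ⟨d, hd⟩ := exists_tr (t := k y y) (k.conj _ _)
    have o : k.Ok w y d := ⟨hw, hy, hd⟩
    have := hE y d (b • f) o
    rw [E_apply o, E_apply o, map_sub, map_add, h1, h2] at this
    simp only [smul_left, hfw, mul_one, sub_left] at this ⊢
    linear_combination (norm := module) this
  obtain ⟨ω, hω⟩ := NStar.exists_ne (F := F)
  have h4 : ∀ y, k y w = 0 → x y = γ • y := fun y hy => by
    have e1 := h3 y hy 1
    have e2 := h3 (ω • y) (by simp [k_smul_left, hy]) 1
    simp only [one_smul, mul_one] at e1 e2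
    rw [map_smul, e1, k_smul_right, smul_add, smul_comm ω, add_right_inj, ← smul_assoc] at e2
    rw [eq_zero_of_anti hω rfl (smul_left_injective K hw0 e2)] at e1
    simpa using e1
  have h5 : ∀ b : K, x (b • f) = (γ * b) • f + k (x (b • f)) f • w := fun b => by
    have := eq_smul_of_perp hw hf hwf (v := (γ * b) • f - x (b • f)) fun y hy => by
      have := h3 y hy b
      rw [h4 _ (by simp [hy]), smul_smul, left_eq_add] at this
      simpa only [smul_eq_zero, hw0, or_false] using this
    simp only [sub_left, smul_left, hf, mul_zero] at this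
    linear_combination (norm := module) -this
  have h6 : ∀ l b : K, star l = l → l ≠ 0 → l * k (x ((l * b) • f)) f = k (x (b • f)) f := by
    intro l b hl hl0
    have := congrArg (fun z => k z f) (hD l⁻¹ (b • f) (by rw [star_inv₀, hl]) (inv_ne_zero hl0))
    simp only [D_apply hw hf hwf (inv_ne_zero hl0), star_inv₀, hl, inv_inv, smul_left, hf, hfw,
      add_left, hwf, mul_zero, zero_smul, add_zero, mul_one, ← add_smul] at this
    rw [show b + (l - 1) * b = l * b by ring] at this
    rw [this]; field_simp; ring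
  obtain ⟨ν, n1, n2, n3, n4⟩ := exists_real_cube c.prime c.odd
  have h7 : ∀ b : K, x (b • f) = (γ * b) • f := fun b => by
    have e1 := h6 ν b n1 n2
    have e2 := h6 (ν + 1) b (by simp [n1]) n3
    rw [add_mul ν 1 b, one_mul, add_smul, map_add, add_left] at e2
    have : (ν ^ 2 + ν + 1) * k (x (b • f)) f = 0 := by linear_combination ν * e2 - (ν + 1) * e1
    rw [h5, (mul_eq_zero.1 this).resolve_left n4]; simp
  refine ⟨γ, fun v => ?_⟩
  have := h4 (v - k v w • f) (by simp [hfw])
  rw [map_sub, h7] at this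
  linear_combination (norm := module) this

theorem XC.perp_stab (c : XC h k M) (hg : g ∈ M) (H : ∀ v ∈ Kl F K w, g⁻¹ v ∈ Kl F K w) {y : V}
    (hy : k y w = 0) : k (g y) w = 0 := by
  rw [← k.zero_left w]
  refine c.k_ext' fun a => ?_
  obtain ⟨b, hb⟩ := mem_Kl.1 (H _ (smul_mem_Kl a w))
  rw [GU_left (c.hM hg).1, ← hb, c.tr]; simp [hy]

theorem XC.semi_inv (c : XC h k M) (hw0 : w ≠ 0) (hw : k w w = 0) (hg : g ∈ M)
    (H : ∀ v ∈ Kl F K w, g v ∈ Kl F K w) : Semi K g⁻¹ := by
  obtain ⟨f, hf, hwf⟩ := exists_partner_top hw0 hw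
  have hfw := symm1 hwf
  have H' := inv_mem_of_stab H
  have hp : ∀ y, k y w = 0 → k (g⁻¹ y) w = 0 := fun y hy =>
    c.perp_stab (M.inv_mem hg) (by rwa [inv_inv]) hy
  have hE : ∀ y d, k.Ok w y d → g * rs F (k.E w y d) * g⁻¹ ∈ KLin F K V := fun y d o =>
    c.Q hw0 hw (M.mul_mem (M.mul_mem hg (c.rs_SU (E_mem_SU w y d))) (M.inv_mem hg)) (fun a => by
      obtain ⟨b, hb⟩ := mem_Kl.1 (H' _ (smul_mem_Kl a w))
      rw [mul_app, mul_app, ← hb, rs_apply, map_smul, E_self o, hb, apply_inv_apply]) fun z hz => by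
      rw [mul_app, mul_app, rs_apply, E_apply_of_perp_left o (hp z hz), map_sub, apply_inv_apply,
        sub_sub_cancel_left]
      exact neg_mem (H _ (smul_mem_Kl _ _))
  have hT : ∀ a : K, a + star a = 0 → ∃ a' : K, a' + star a' = 0 ∧
      ∀ b : K, g ((a * b) • w) = (a' * k (g (b • f)) w) • w := fun a ha => by
    obtain ⟨a', h1, h2⟩ := c.Z hw0 hw (M.mul_mem (M.mul_mem hg (c.rs_SU (T_mem_SU w a)))
      (M.inv_mem hg)) fun v => by
        rw [mul_app, mul_app, rs_apply, T_apply hw ha, map_add, apply_inv_apply, add_sub_cancel_left]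
        exact H _ (smul_mem_Kl _ _)
    refine ⟨a', h1, fun b => ?_⟩
    have := h2 (g (b • f))
    rw [mul_app, mul_app, inv_apply_apply, rs_apply, T_apply hw ha, map_add, add_right_inj] at this
    simpa [hfw] using this
  have hD : ∀ l, star l = l → l ≠ 0 → g * rs F (k.D w f l) * g⁻¹ ∈ KLin F K V := fun l hl hl0 => by
    have hd := del_ne (F := F)
    obtain ⟨a, a1, a2⟩ := hT (del F • 1) (by simp)
    obtain ⟨b, b1, b2⟩ := hT (del F • l) (by simp [hl])
    have a0 : a ≠ 0 := fun h0 => by simpa [h0, hd, hw0] using a2 1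
    have b0 : b ≠ 0 := fun h0 => by simpa [h0, hd, hw0, hl0] using b2 1
    have h1 : star (b / a) = b / a := by
      rw [star_div₀, eq_neg_of_add_eq_zero_right a1, eq_neg_of_add_eq_zero_right b1]
      simp [neg_div_neg_eq]
    have h0 := div_ne_zero b0 a0
    have h2 : ∀ x : K, g ((l * x) • w) = (b / a) • g (x • w) := fun x => by
      apply smul_right_injective V hd
      have e1 := a2 x
      have e2 := b2 x
      simp only [smul_mul_assoc, smul_assoc, map_smul, one_mul] at e1 e2
      simp only [e2]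
      rw [smul_comm, e1, smul_smul]; congr 1; field_simp
    have hDm : ∀ l, star l = l → l ≠ 0 → rs F (k.D w f l) ∈ M := fun l hl hl0 =>
      c.rs_mem (D_mem_GU hw hf hwf hl0) (by rw [det_D hw hf hwf hl0, hl, mul_inv_cancel₀ hl0, map_one])
    have := (KLin F K V).mul_mem (rs_mem_KLin (k.D w f (b / a))) (c.Q hw0 hw (M.mul_mem
      (M.inv_mem (hDm _ h1 h0)) (M.mul_mem (M.mul_mem hg (hDm l hl hl0)) (M.inv_mem hg)))
      (fun x => by
        apply (rs F (k.D w f (b / a))).injective
        obtain ⟨y, hy⟩ := mem_Kl.1 (H' _ (smul_mem_Kl x w))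
        have e1 : ∀ l : K, l ≠ 0 → ∀ y : K, k.D w f l (y • w) = (l * y) • w := fun l hl0 y => by
          rw [D_apply hw hf hwf hl0]; simp [hw, hwf]; module
        rw [mul_app, apply_inv_apply, mul_app, mul_app, ← hy, rs_apply, rs_apply, e1 _ hl0, e1 _ h0,
          h2, hy, apply_inv_apply, smul_smul])
      fun z hz => by
        have e1 : ∀ l : K, l ≠ 0 → ∀ y, k y w = 0 → k.D w f l y = y + ((l - 1) * k y f) • w :=
          fun l hl0 y hy => by rw [D_apply hw hf hwf hl0]; simp [hy]
        obtain ⟨y, hy⟩ := mem_Kl.1 (H _ (smul_mem_Kl ((l - 1) * k (g⁻¹ z) f) w))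
        rw [mul_app, mul_app, mul_app, rs_apply, e1 l hl0 _ (hp z hz), map_add, apply_inv_apply,
          ← hy]
        refine mem_Kl.2 ⟨(b / a)⁻¹ * (y - (b / a - 1) * k z f), eq_sub_of_add_eq' ?_⟩
        apply (rs F (k.D w f (b / a))).injective
        rw [apply_inv_apply, rs_apply, e1 _ h0 _ (by simp [hz, hw])]
        simp only [add_left, smul_left, hwf]
        match_scalars
        · rfl
        · field_simp; ring)
    simpa using this
  intro a
  obtain ⟨γ, hγ⟩ := c.cent hw hf hwf ((g⁻¹ : V ≃ₗ[F] V) ∘ₗ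
      (LinearMap.lsmul K V a).restrictScalars F ∘ₗ (g : V →ₗ[F] V)) (fun y d v o => by
    have := congrArg (fun z => g⁻¹ z) (hE y d o a (g v))
    simpa [mul_app] using this.symm) fun l v hl hl0 => by
    have := congrArg (fun z => g⁻¹ z) (hD l hl hl0 a (g v))
    simpa [mul_app] using this.symm
  exact ⟨γ, fun v => by simpa using hγ (g⁻¹ v)⟩

theorem XC.stab (c : XC h k M) (hw0 : w ≠ 0) (hw : k w w = 0) (hg : g ∈ M)
    (H : ∀ v ∈ Kl F K w, g v ∈ Kl F K w) : g ∈ GG F K V :=
  ⟨by simpa using c.semi_inv hw0 hw (M.inv_mem hg) (inv_mem_of_stab H), c.semi_inv hw0 hw hg H⟩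

theorem XC.stepB (c : XC h k M) (hw0 : w ≠ 0) (hw : k w w = 0) (hg : g ∈ M) {a : K}
    (ha : a + star a = 0) (ha0 : a ≠ 0) (H : g * rs F (k.T w a) * g⁻¹ ∈ GG F K V) :
    g ∈ GG F K V := by
  obtain ⟨f, hf, hwf⟩ := exists_partner_top hw0 hw
  have hfw := symm1 hwf
  obtain ⟨σ, hσ⟩ := semi_aut H hw0
  have hy : ∀ v, (g * rs F (k.T w a) * g⁻¹) v = v + g ((a * k (g⁻¹ v) w) • w) := fun v => by
    rw [mul_app, mul_app, rs_apply, T_apply hw ha, map_add, apply_inv_apply]
  set y := g * rs F (k.T w a) * g⁻¹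
  have h0 : g w ≠ 0 := by simpa using hw0
  have h1 : ∀ b : K, y (g (b • w)) = g (b • w) := fun b => by rw [hy]; simp [hw]
  have h2 : y (g w) = g w := by simpa using h1 1
  have h3 : σ = 1 := by
    by_contra hσ1
    refine one_ne_zero (ker3' c.prime hσ1 (N := ⊤) (by simpa using c.three) (p₀ := 1) (p₁ := -2)
      (p₂ := 1) fun b _ => smul_left_injective K h0 ?_).1
    have e1 := h1 (a * k (g⁻¹ (b • g w)) w)
    rw [← add_sub_cancel_left (b • g w) (g _), ← hy, hσ, h2, ← sub_smul, hσ, h2, map_sub] at e1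
    linear_combination (norm := module) e1
  have h4 : ∀ b : K, b • g w ∈ (Kl F K w).map (g : V →ₗ[F] V) := fun b => by
    have e1 := hy (g (a⁻¹ • f))
    rw [inv_apply_apply, smul_left, hfw, mul_one, mul_inv_cancel₀ ha0, one_smul] at e1
    have e2 := hσ b (g (a⁻¹ • f))
    rw [h3, AlgEquiv.one_apply, e1, hy, smul_add, add_right_inj] at e2
    exact ⟨_, smul_mem_Kl _ _, e2⟩
  have h5 : Kl F K (g w) = (Kl F K w).map (g : V →ₗ[F] V) := by
    apply Submodule.eq_of_le_of_finrank_eq
    · intro v hv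
      obtain ⟨b, rfl⟩ := mem_Kl.1 hv
      exact h4 b
    · rw [LinearEquiv.finrank_map_eq, finrank_Kl h0, finrank_Kl hw0]
  have h6 : k (g w) (g w) = 0 := by
    rw [← k.zero_left w]
    refine c.k_ext fun b => ?_
    obtain ⟨l, hl, hl'⟩ := h4 b
    obtain ⟨d, rfl⟩ := mem_Kl.1 hl
    rw [← hl', LinearEquiv.coe_coe, (c.hM hg).1, c.tr]; simp [hw]
  obtain ⟨B, hB, b, hb, h7⟩ := c.trans h0 h6 hw0 hw
  refine ((GG F K V).mul_mem_cancel_left (rs_mem_GG B)).1
    (c.stab hw0 hw (M.mul_mem (c.rs_SU hB) hg) fun v hv => ?_)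
  obtain ⟨d, hd⟩ := mem_Kl.1 (h5.ge ⟨v, hv, rfl⟩)
  rw [mul_app, rs_apply, ← LinearEquiv.coe_coe g, ← hd, map_smul, h7, smul_smul]
  exact smul_mem_Kl _ _

end Cfsg.Agent.H5.U
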