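import Cfsg.Agent.H5.U.Ext4

/-! Extension field subgroups of unitary groups: pairs of points with maximal intersection. -/

set_option autoImplicit false
set_option linter.unusedSimpArgs false
set_option linter.unusedSectionVars false
set_option linter.unusedVariables false

namespace Cfsg.Agent.H5.U

open Module H6 HF

theorem card_eq_sq (F : Type*) [Field F] [StarRing F] [NStar F] :
    Nat.card F = Nat.card (F0 F) ^ 2 := by
  obtain ⟨a, ha⟩ := NStar.exists_ne (F := F)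
  have : Function.Bijective fun p : F0 F × F0 F => (p.1 : F) + p.2 * a := by
    constructor
    · rintro ⟨x, y⟩ ⟨x', y'⟩ hxy
      simp only at hxy
      have h1 := congrArg star hxy
      simp only [star_add, star_mul', star_F0] at h1
      have h2 : ((y : F) - y') * (star a - a) = 0 := by linear_combination h1 - hxy
      have h3 : (y : F) = y' := by
        simpa [sub_ne_zero.2 ha, sub_eq_zero] using h2
      rw [h3] at hxy
      exact Prod.ext (Subtype.ext (add_right_cancel hxy)) (Subtype.ext h3)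
    · intro z
      obtain ⟨x, y, hx, hy, hz⟩ := exists_coord ha z
      exact ⟨(⟨x, hx⟩, ⟨y, hy⟩), hz.symm⟩
  rw [← Nat.card_eq_of_bijective _ this, Nat.card_prod, sq]

variable {F K V : Type*} [Field F] [Field K] [Algebra F K] [AddCommGroup V] [Module F V]
  [Module K V] [IsScalarTower F K V] [Finite K] [StarRing F] [StarRing K] [StarModule F K] [NStar F]
  [NStar K] [Finite F] [FiniteDimensional K V] [FiniteDimensional F V]

theorem card_F0_ext : Nat.card (F0 K) = Nat.card (F0 F) ^ finrank F K := by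
  apply Nat.pow_left_injective two_ne_zero
  simp only
  rw [← card_eq_sq, ← pow_mul, mul_comm, pow_mul, ← card_eq_sq,
    Module.natCard_eq_pow_finrank (K := F)]

variable (K) in
/-- translates of the line `K w` -/
def XL (w : V) (g : V ≃ₗ[F] V) : Submodule F V := (Kl F K w).map (g : V →ₗ[F] V)

/-- conjugates of `K`-transvections -/
noncomputable def xt (k : HF K V) (w : V) (g : V ≃ₗ[F] V) (a : K) : V ≃ₗ[F] V :=
  g * rs F (k.T w a) * g⁻¹

variable {h : HF F V} {k : HF K V} {M : Subgroup (V ≃ₗ[F] V)} {w : V} {g m n n' : V ≃ₗ[F] V}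

theorem mem_XL {v : V} : v ∈ XL K w n ↔ n⁻¹ v ∈ Kl F K w := mem_map_equiv'

theorem XL_one : XL K w (1 : V ≃ₗ[F] V) = Kl F K w := by
  ext v; rw [mem_XL, inv_one, one_app]

theorem app_mem_XL {v : V} (hv : v ∈ Kl F K w) : n v ∈ XL K w n := ⟨v, hv, rfl⟩

theorem finrank_XL (hw0 : w ≠ 0) : finrank F (XL K w n) = finrank F K := by
  rw [XL, LinearEquiv.finrank_map_eq, finrank_Kl hw0]

theorem xt_apply (hw : k w w = 0) {a : K} (ha : a + star a = 0) (v : V) :
    xt k w n a v = v + n ((a * k (n⁻¹ v) w) • w) := by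
  rw [xt, mul_app, mul_app, rs_apply, T_apply hw ha, map_add, apply_inv_apply]

theorem xt_sub_mem (hw : k w w = 0) {a : K} (ha : a + star a = 0) (v : V) :
    xt k w n a v - v ∈ XL K w n := by
  rw [xt_apply hw ha, add_sub_cancel_left]
  exact app_mem_XL (smul_mem_Kl _ _)

theorem XC.xt_mem (c : XC h k M) (hn : n ∈ M) (a : K) : xt k w n a ∈ M :=
  M.mul_mem (M.mul_mem hn (c.rs_SU (T_mem_SU _ _))) (M.inv_mem hn)

theorem xt_fix (hw : k w w = 0) {a : K} (ha : a + star a = 0) {v : V} (hv : k (n⁻¹ v) w = 0) :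
    xt k w n a v = v := by
  rw [xt_apply hw ha, hv]; simp

theorem xt_fix' (hw : k w w = 0) {a : K} (ha : a + star a = 0) {v : V} (hv : v ∈ XL K w n) :
    xt k w n a v = v := by
  obtain ⟨b, hb⟩ := mem_Kl.1 (mem_XL.1 hv)
  exact xt_fix hw ha (by rw [← hb]; simp [hw])

theorem XC.notStab (c : XC h k M) (hw0 : w ≠ 0) (hw : k w w = 0) (hn : n ∈ M) (hn' : n' ∈ M)
    (nk : n⁻¹ * n' ∉ GG F K V) {a : K} (ha : a + star a = 0) (ha0 : a ≠ 0) :
    ¬ ∀ v ∈ XL K w n', xt k w n a v ∈ XL K w n' := by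
  intro h1
  have h2 := c.stab hw0 hw (M.mul_mem (M.mul_mem (M.inv_mem hn') (c.xt_mem (w := w) hn a)) hn')
    fun v hv => mem_XL.1 (h1 _ (app_mem_XL hv))
  have := c.stepB hw0 hw (M.mul_mem (M.inv_mem hn') hn) ha ha0 (by
    convert h2 using 1; rw [xt]; group)
  exact nk (by simpa using (GG F K V).inv_mem this)

theorem gg_stab (hm : m ∈ GG F K V) {l : V} (hl : l ∈ Kl F K w) (hl0 : l ≠ 0)
    (h1 : m l ∈ Kl F K w) : ∀ v ∈ Kl F K w, m v ∈ Kl F K w := by
  intro v hv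
  rw [Kl_eq_of_mem hl hl0] at hv
  obtain ⟨a, rfl⟩ := mem_Kl.1 hv
  obtain ⟨b, hb⟩ := hm.1 a
  obtain ⟨d, hd⟩ := mem_Kl.1 h1
  rw [hb, ← hd, smul_smul]
  exact smul_mem_Kl _ _

/-- a pair of lines in different blocks with maximal intersection -/
structure XP (k : HF K V) (M : Subgroup (V ≃ₗ[F] V)) (w : V) (g : V ≃ₗ[F] V) : Prop where
  hw0 : w ≠ 0
  hw : k w w = 0
  hg : g ∈ M
  nk : g ∉ GG F K V
  mx : ∀ m ∈ M, finrank F ↥(Kl F K w ⊓ XL K w g) < finrank F ↥(Kl F K w ⊓ XL K w m) → m ∈ GG F K V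

theorem exists_xp (hw0 : w ≠ 0) (hw : k w w = 0) (h1 : ∃ g ∈ M, g ∉ GG F K V) :
    ∃ g, XP k M w g := by
  classical
  have hex : ∃ d, ∀ m ∈ M, d ≤ finrank F ↥(Kl F K w ⊓ XL K w m) → m ∈ GG F K V :=
    ⟨finrank F V + 1, fun m _ h =>
      absurd (Submodule.finrank_le (Kl F K w ⊓ XL K w m)) (by omega)⟩
  have h0 : Nat.find hex ≠ 0 := fun h0 => by
    obtain ⟨g, hg, hg'⟩ := h1
    exact hg' (Nat.find_spec hex g hg (by omega))
  have h1 := Nat.find_min hex (m := Nat.find hex - 1) (by omega)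
  simp only [not_forall] at h1
  obtain ⟨g, h2, h3, h4⟩ := h1
  exact ⟨g, hw0, hw, h2, h4, fun m hm h5 => Nat.find_spec hex m hm (by omega)⟩

theorem XP.key (c : XC h k M) (p : XP k M w g) (hn : n ∈ M) (hn' : n' ∈ M)
    {N : Submodule F V} (h1 : N ≤ XL K w n) (h2 : N ≤ XL K w n')
    (h3 : finrank F ↥(Kl F K w ⊓ XL K w g) < finrank F N) : XL K w n' = XL K w n := by
  have h4 : n⁻¹ * n' ∈ GG F K V := p.mx _ (M.mul_mem (M.inv_mem hn) hn') (h3.trans_le (by
    rw [← LinearEquiv.finrank_map_eq n⁻¹ N]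
    apply Submodule.finrank_mono
    rintro _ ⟨v, hv, rfl⟩
    exact ⟨mem_XL.1 (h1 hv), mem_XL.2 (by simpa using mem_XL.1 (h2 hv))⟩))
  obtain ⟨l, hl, hl0⟩ := exists_ne_zero_of_finrank (K := N) (by omega)
  have h5 := gg_stab h4 (mem_XL.1 (h2 hl)) (by simpa using hl0) (by simpa using mem_XL.1 (h1 hl))
  refine Submodule.eq_of_le_of_finrank_eq ?_ (by rw [finrank_XL p.hw0, finrank_XL p.hw0])
  rintro _ ⟨v, hv, rfl⟩
  exact mem_XL.2 (h5 v hv)

theorem XP.key' (c : XC h k M) (p : XP k M w g) (hn : n ∈ M) (hm : m ∈ M)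
    {N : Submodule F V} (h1 : N ≤ XL K w n) (h2 : ∀ v ∈ N, m v ∈ XL K w n)
    (h3 : finrank F ↥(Kl F K w ⊓ XL K w g) < finrank F N) : ∀ v ∈ XL K w n, m v ∈ XL K w n := by
  have h4 := p.key c hn (M.mul_mem hm hn) (N := N.map (m : _ →ₗ[F] _))
    (by rintro _ ⟨v, hv, rfl⟩; exact h2 v hv)
    (by rintro _ ⟨v, hv, rfl⟩; exact mem_XL.2 (by simpa using mem_XL.1 (h1 hv)))
    (by rwa [LinearEquiv.finrank_map_eq])
  intro v hv
  rw [← h4]; exact mem_XL.2 (by simpa using mem_XL.1 hv)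

theorem XP.N (c : XC h k M) (p : XP k M w g) (hn : n ∈ M) (nk : n ∉ GG F K V)
    (h1 : Kl F K w ⊓ XL K w g ≤ XL K w n) {a : K} (ha : a + star a = 0) (ha0 : a ≠ 0) {v : V}
    (hv : v ∈ Kl F K w) (h3 : xt k w n a v ∈ Kl F K w) : v ∈ Kl F K w ⊓ XL K w g := by
  by_contra h4
  refine c.notStab p.hw0 p.hw hn M.one_mem (by simpa using nk) ha ha0
    (p.key' c M.one_mem (c.xt_mem hn _) (N := (Kl F K w ⊓ XL K w g) ⊔ Submodule.span F {v})
    (by rw [XL_one]; exact sup_le inf_le_left ((Submodule.span_singleton_le_iff_mem _ _).2 hv))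
    ?_ ?_)
  · intro x hx
    obtain ⟨y, hy, b, hb, rfl⟩ := Submodule.mem_sup.1 hx
    obtain ⟨s, rfl⟩ := Submodule.mem_span_singleton.1 hb
    rw [map_add, map_smul, xt_fix' p.hw ha (h1 hy), XL_one]
    exact Submodule.add_mem _ hy.1 (Submodule.smul_mem _ _ h3)
  · rw [Submodule.finrank_sup_span_singleton h4]; omega

theorem XP.lt (c : XC h k M) (p : XP k M w g) :
    finrank F ↥(Kl F K w ⊓ XL K w g) < finrank F K := by
  rw [← finrank_XL (n := g) p.hw0]
  refine Submodule.finrank_lt_finrank_of_lt (lt_of_le_of_ne inf_le_right fun h1 => p.nk ?_)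
  exact c.stab p.hw0 p.hw p.hg fun v hv => (h1.ge (app_mem_XL hv)).1

theorem XP.eq_bot (c : XC h k M) (p : XP k M w g) : Kl F K w ⊓ XL K w g = ⊥ := by
  classical
  by_contra hI
  obtain ⟨i, hi, hi0⟩ := Submodule.exists_mem_ne_zero_of_ne_bot hI
  have hw := p.hw
  have hd := del_ne (F := K)
  let Ω := {L : Submodule F V // ∃ n ∈ M, n ∉ GG F K V ∧ L = XL K w n ∧ Kl F K w ⊓ XL K w g ≤ L}
  haveI : Finite V := Module.finite_of_finite F
  haveI : Finite Ω := Finite.of_injective (fun L : Ω => (L.1 : Set V)) fun L L' h =>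
    Subtype.ext (SetLike.coe_injective h)
  choose κ κ1 κ2 κ3 κ4 using fun L : Ω => L.2
  let a : (F0 K)ˣ → K := fun b => ((b : F0 K) : K) * del K
  have a1 : ∀ b, a b + star (a b) = 0 := fun b => by simp [a]
  have a2 : ∀ b, a b ≠ 0 := fun b => by simp [a, hd]
  have a3 : Function.Injective a := fun b b' h =>
    Units.ext (Subtype.ext (mul_right_cancel₀ hd h))
  have e2 : ∀ L : Ω, ∀ b, ∀ v ∈ Kl F K w ⊓ XL K w g, xt k w (κ L) (a b) v = v :=
    fun L b v hv => xt_fix' hw (a1 b) (κ3 L ▸ κ4 L hv)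
  let Φ : Ω × (F0 K)ˣ → Ω := fun x => ⟨XL K w (xt k w (κ x.1) (a x.2)), _, c.xt_mem (κ1 x.1) _,
    fun h0 => κ2 x.1 (c.stepB p.hw0 hw (κ1 x.1) (a1 _) (a2 _) h0), rfl,
    fun v hv => by rw [← e2 x.1 x.2 v hv]; exact app_mem_XL hv.1⟩
  have hσ : ∀ x : Ω × (F0 K)ˣ, ∃ σ : K ≃ₐ[F] K, ∀ (b : K) v,
      ((κ (Φ x))⁻¹ * xt k w (κ x.1) (a x.2)) (b • v) =
        σ b • ((κ (Φ x))⁻¹ * xt k w (κ x.1) (a x.2)) v := fun x =>
    semi_aut (c.stab p.hw0 hw (M.mul_mem (M.inv_mem (κ1 _)) (c.xt_mem (κ1 _) _)) fun v hv =>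
      mem_XL.1 (κ3 (Φ x) ▸ app_mem_XL hv)) p.hw0
  choose σ hσ using hσ
  obtain ⟨l, hl, hl'⟩ := exists_mem_not_mem_of_finrank_lt (K := Kl F K w)
    (L := Kl F K w ⊓ XL K w g) (by rw [finrank_Kl p.hw0]; exact p.lt c)
  have hinj : Function.Injective fun x => (Φ x, σ x) := by
    rintro ⟨L, b⟩ ⟨L', b'⟩ h0
    obtain ⟨h0, h0'⟩ := Prod.ext_iff.1 h0
    simp only at h0 h0'
    have h2 : xt k w (κ L) (a b) l = xt k w (κ L') (a b') l := by
      obtain ⟨d, rfl⟩ := mem_Kl.1 (Kl_eq_of_mem hi.1 hi0 ▸ hl)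
      have e3 := hσ (L, b) d i
      have e4 := hσ (L', b') d i
      rw [mul_app, mul_app, e2 _ _ i hi] at e3 e4
      rw [← h0, ← h0', ← e3] at e4
      exact ((κ (Φ (L, b)))⁻¹.injective e4).symm
    have h3 : xt k w (κ L) (a b) l - l ∉ Kl F K w ⊓ XL K w g := fun h4 => hl' (
      p.N c (κ1 L) (κ2 L) (κ3 L ▸ κ4 L) (a1 b) (a2 b) hl (by
        simpa using Submodule.add_mem _ h4.1 hl))
    have h4 := p.key c (κ1 L) (κ1 L')
      (N := (Kl F K w ⊓ XL K w g) ⊔ Submodule.span F {xt k w (κ L) (a b) l - l})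
      (sup_le (κ3 L ▸ κ4 L) ((Submodule.span_singleton_le_iff_mem _ _).2 (xt_sub_mem hw (a1 b) l)))
      (sup_le (κ3 L' ▸ κ4 L') ((Submodule.span_singleton_le_iff_mem _ _).2
        (h2 ▸ xt_sub_mem hw (a1 b') l)))
      (by rw [Submodule.finrank_sup_span_singleton h3]; omega)
    have h5 : L = L' := Subtype.ext (by rw [κ3 L, κ3 L', h4])
    subst h5
    rw [xt_apply hw (a1 b), add_sub_cancel_left] at h3
    rw [xt_apply hw (a1 b), xt_apply hw (a1 b'), add_right_inj] at h2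
    rw [a3 (mul_right_cancel₀ (fun h6 => h3 (by
      rw [h6, mul_zero, zero_smul, map_zero]; exact zero_mem _))
      (smul_left_injective K p.hw0 ((κ L).injective h2)))]
  have h1 := Nat.card_le_card_of_injective _ hinj
  haveI : Nonempty Ω := ⟨⟨XL K w g, g, p.hg, p.nk, rfl, inf_le_right⟩⟩
  rw [Nat.card_prod, Nat.card_prod, Nat.mul_le_mul_left_iff Nat.card_pos, Nat.card_units, gal_card,
    card_F0_ext (F := F)] at h1
  have h2 : 2 ^ finrank F K ≤ _ := Nat.pow_le_pow_left (Finite.one_lt_card (α := F0 F)) _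
  rcases c.hr with hr | hr <;> rw [hr] at h1 h2 <;> omega

theorem XC.core (c : XC h k M) : M ≤ GG F K V := by
  by_contra hM
  obtain ⟨w, -, hw0, hw⟩ := exists_iso (h := k) (K := ⊤) (by simpa using c.hk)
  obtain ⟨g, p⟩ := exists_xp hw0 hw (SetLike.not_le_iff_exists.1 hM)
  have hI := p.eq_bot c
  have fix : ∀ m ∈ M, m (g w) = g w → ∀ v ∈ XL K w g, m v ∈ XL K w g := fun m hm h1 =>
    p.key' c p.hg hm (N := Submodule.span F {g w})
      ((Submodule.span_singleton_le_iff_mem _ _).2 (app_mem_XL (self_mem_Kl w))) (fun v hv => by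
        obtain ⟨a, rfl⟩ := Submodule.mem_span_singleton.1 hv
        rw [map_smul, h1]; exact Submodule.smul_mem _ _ (app_mem_XL (self_mem_Kl w))) (by
        rw [hI, finrank_bot, finrank_span_singleton (by simpa using hw0)]; omega)
  have h1 : ∀ y, y ≠ 0 → k y y = 0 → k y (g w) ≠ 0 := by
    intro y hy0 hy h2
    obtain ⟨B, hB, b, hb, h3⟩ := c.trans hw0 hw hy0 hy
    refine c.notStab hw0 hw (c.rs_SU hB) p.hg (fun h0 => p.nk
      (((GG F K V).mul_mem_cancel_left ((GG F K V).inv_mem (rs_mem_GG B))).1 h0)) del_tr del_ne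
      (fix _ (c.xt_mem (c.rs_SU hB) _) (xt_fix hw del_tr ?_))
    rw [rs_inv_apply, ← GU_right hB.1, h3, smul_right, symm0 h2, mul_zero]
  have h2 : finrank K V = 2 := by
    by_contra h2
    obtain ⟨y, -, hy0, hy, h3⟩ := exists_iso_perp (h := k) ⊤ [g w] (by have := c.hk; simp; omega)
    exact h1 y hy0 hy (h3 _ (by simp))
  obtain ⟨μ, m1, m2, m3⟩ := c.hq.resolve_left (by omega)
  have h0 : g w ≠ 0 := by simpa using hw0
  obtain ⟨z, -, hz0, hz⟩ := exists_ne_perp (h := k) ⊤ [g w] (by simp [h2])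
  replace hz := hz _ (List.mem_singleton_self _)
  have hzz : k z z ≠ 0 := fun h => h1 z hz0 h hz
  have hR : rs F (k.R z μ) ∈ M := c.rs_mem (R_mem_GU _ _) (by rw [det_R hzz m1, m2])
  have hR' : rs F (k.R z μ) (g w) = g w := R_apply_of_perp (symm0 hz)
  obtain ⟨σ, hσ⟩ := semi_aut (c.stab hw0 hw (M.mul_mem (M.mul_mem (M.inv_mem p.hg) hR) p.hg)
    fun v hv => mem_XL.1 (fix _ hR hR' _ (app_mem_XL hv))) hw0
  have h3 : ∀ (j : ℕ) (a : K), k (g ((σ ^ j) a • w)) z = μ ^ j * k (g (a • w)) z := by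
    intro j a
    induction j with
    | zero => simp
    | succ j ih =>
      have := congrArg g (hσ ((σ ^ j) a) w)
      simp only [mul_app, hR', apply_inv_apply, inv_apply_apply, rs_apply] at this
      rw [pow_succ' σ, AlgEquiv.mul_apply, ← this, R_apply hzz m1, add_left, smul_left, ih]
      field_simp; ring
  have h4 : XL K w g ≤ Kl F K (g w) := by
    rintro _ ⟨v, hv, rfl⟩
    obtain ⟨a, rfl⟩ := mem_Kl.1 hv
    have h5 := h3 (finrank F K) a
    rw [gal_pow, AlgEquiv.one_apply] at h5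
    have h6 : k (g (a • w)) z = 0 := by
      apply mul_left_cancel₀ (sub_ne_zero.2 m3)
      linear_combination -h5
    have h7 := finrank_inf_pv_lt (h := k) (K := ⊤) (x := z) trivial hzz
    rw [top_inf_eq, finrank_top, h2] at h7
    have h8 := Submodule.eq_of_le_of_finrank_le (S₁ := Submodule.span K {g w}) (S₂ := k.pv z)
      ((Submodule.span_singleton_le_iff_mem _ _).2 (symm0 hz))
      (by rw [finrank_span_singleton h0]; omega)
    exact h8.ge h6
  have h5 := Submodule.eq_of_le_of_finrank_eq h4 (by rw [finrank_XL hw0, finrank_Kl h0])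
  refine h1 _ h0 ?_ ?_ <;>
  · rw [← k.zero_left w]
    refine c.k_ext fun b => ?_
    obtain ⟨l, hl, hl'⟩ := h5.ge (smul_mem_Kl b (g w))
    obtain ⟨d, rfl⟩ := mem_Kl.1 hl
    rw [← hl', LinearEquiv.coe_coe, (c.hM p.hg).1, c.tr]; simp [hw]

end Cfsg.Agent.H5.U
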