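import Cfsg.Agent.H5.U.Ext5
import Cfsg.Agent.H5.U.Bridge

/-! Extension field subgroups of unitary groups: maximality. -/

set_option autoImplicit false
set_option linter.unusedSimpArgs false
set_option linter.unusedSectionVars false
set_option linter.unusedVariables false

namespace Cfsg.Agent.H5.U

open Module H6 HF

section Abs

variable {F K V : Type*} [Field F] [Field K] [Algebra F K] [AddCommGroup V] [Module F V]
  [Module K V] [IsScalarTower F K V] [Finite K] [StarRing F] [NStar F] [Finite F]
  [FiniteDimensional K V] [FiniteDimensional F V]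

theorem exists_mu [StarRing K] [StarModule F K] [NStar K] {q : ℕ} (hq : Nat.card (F0 F) = q)
    (hst : ∀ t : F, star t = t ^ q) (H : finrank F K * (q + 1) < q ^ finrank F K) :
    ∃ μ : K, μ * star μ = 1 ∧ Algebra.norm F μ = 1 ∧ μ ^ finrank F K ≠ 1 := by
  classical
  by_contra! h
  obtain ⟨a, ha⟩ := NStar.exists_ne (F := K)
  have h1 : star a - a ≠ 0 := sub_ne_zero.2 ha
  have hne : ∀ s : F0 K, (s : K) + a ≠ 0 := fun s h => ha (by
    have : a = -s := by linear_combination h
    rw [this, star_neg, s.2])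
  have hpos : 0 < (q + 1) * finrank F K := Nat.mul_pos (by omega) finrank_pos
  let φ : F0 K → Polynomial.nthRootsFinset ((q + 1) * finrank F K) (1 : K) := fun s =>
    ⟨((s : K) + star a) / ((s : K) + a), (Polynomial.mem_nthRootsFinset hpos _).2 (by
      have h2 : ((s : K) + star a) / ((s : K) + a) * star (((s : K) + star a) / ((s : K) + a)) = 1 := by
        have h2 := hne s
        have h3 := star_ne_zero' h2
        simp only [star_div₀, star_add, star_star, star_F0] at h3 ⊢
        field_simp
      generalize ((s : K) + star a) / ((s : K) + a) = ν at h2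
      rw [pow_mul]
      refine h _ (by rw [star_pow, ← mul_pow, h2, one_pow]) ?_
      rw [map_pow, pow_succ', ← hst, ← norm_star, ← map_mul, h2, map_one])⟩
  have h2 := Nat.card_le_card_of_injective φ fun s t hst => by
    have h3 := congrArg Subtype.val hst
    simp only [φ] at h3
    rw [div_eq_div_iff (hne s) (hne t)] at h3
    refine Subtype.ext (mul_right_cancel₀ h1 ?_)
    linear_combination -h3
  rw [card_F0_ext (F := F), hq, Nat.card_eq_fintype_card, Fintype.card_coe,
    Polynomial.nthRootsFinset_def] at h2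
  have := (Multiset.toFinset_card_le _).trans
    (Polynomial.card_nthRoots ((q + 1) * finrank F K) (1 : K))
  rw [mul_comm] at H
  omega

theorem ext_core_abs (h : HF F V) (adj : ∀ c : K, ∃ c' : K, ∀ u v, h (c • u) v = h u (c' • v))
    {q : ℕ} (hq : Nat.card (F0 F) = q) (hst : ∀ t : F, star t = t ^ q)
    (hr : finrank F K = 3 ∨ finrank F K = 5) (hk : 2 ≤ finrank K V)
    (hx : 3 ≤ finrank K V ∨ finrank F K * (q + 1) < q ^ finrank F K) (M : Subgroup (V ≃ₗ[F] V))
    (hM : M ≤ h.SU) (hH : ∀ g ∈ h.SU, GamL K g → g ∈ M) (hg : ∃ g ∈ M, ¬ GamL K g) :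
    h.SU ≤ M := by
  choose st hs using adj
  obtain ⟨x, -, hx0⟩ := exists_ne_zero_of_finrank (K := (⊤ : Submodule K V)) (by simp; omega)
  have ext : ∀ a b : K, (∀ u, h u (a • x) = h u (b • x)) → a = b := fun a b H =>
    smul_left_injective K hx0 (h.ext_right H)
  letI : StarRing K :=
    { star := st
      star_involutive := fun c => ext _ _ fun u => by
        rw [← hs, ← h.conj, ← hs, h.conj]
      star_mul := fun a b => ext _ _ fun u => by
        change h u (st (a * b) • x) = h u ((st b * st a) • x)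
        rw [← hs, mul_smul, hs, hs, mul_smul]
      star_add := fun a b => ext _ _ fun u => by
        change h u (st (a + b) • x) = h u ((st a + st b) • x)
        rw [← hs, add_smul, add_smul, add_left, add_right, hs, hs] }
  have hs' : ∀ (c : K) u v, h (c • u) v = h u (star c • v) := hs
  haveI : StarModule F K := ⟨fun t a => ext _ _ fun u => by
    rw [← hs', smul_assoc, smul_assoc, smul_left, smul_right, star_star, hs']⟩
  haveI : NStar K := ⟨by
    obtain ⟨ω, hω⟩ := NStar.exists_ne (F := F)
    exact ⟨algebraMap F K ω, fun h => hω ((algebraMap F K).injective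
      (by rwa [algebraMap_star_comm]))⟩⟩
  have hext : ∀ a b : K, (∀ c, Algebra.trace F K (c * a) = Algebra.trace F K (c * b)) → a = b :=
    fun a b H => sub_eq_zero.1 (tr_nd (F := F) fun c => by rw [mul_sub, map_sub, H, sub_self])
  have hex : ∀ x y : V, ∃ a : K, ∀ c : K, Algebra.trace F K (c * a) = h (c • x) y := by
    intro x y
    obtain ⟨a, ha⟩ := surjective_of_injective_dual
      (fun a : K => Algebra.trace F K ∘ₗ LinearMap.mulRight F a)
      (fun a b hab => hext a b fun c => LinearMap.congr_fun hab c)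
      (h.lin y ∘ₗ (LinearMap.toSpanSingleton K V x).restrictScalars F)
    exact ⟨a, fun c => LinearMap.congr_fun ha c⟩
  choose κ hκ using hex
  let k : HF K V :=
    { toFun := κ
      add_left' := fun x y z => hext _ _ fun c => by simp [mul_add, hκ]
      smul_left' := fun a x y => hext _ _ fun c => by simp [← mul_assoc, hκ, smul_smul]
      conj' := fun x y => hext _ _ fun c => by
        rw [hκ, ← star_star c, ← star_mul', tr_star, hκ, h.conj, star_star, hs']
      nd' := fun v hv => h.nd fun x => by simpa [hv] using (hκ x v 1).symm }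
  by_contra hne
  obtain ⟨g, hg, hg'⟩ := hg
  exact hg' (XC.core (k := k) ⟨fun x y => by simpa using (hκ x y 1).symm, hM, hH, hne, hr, hk,
    hx.imp_right (exists_mu hq hst)⟩ hg)

theorem ext_proper_u (h : HF F V) (hr : 2 ≤ finrank F K) (hn : 3 ≤ finrank F V) :
    ∃ g ∈ h.SU, ¬ GamL K g := by
  obtain ⟨v, -, hv0, hv⟩ := exists_iso (h := h) (K := ⊤) (by simp; omega)
  obtain ⟨c, -, hc⟩ := exists_not_mem_one (K := (⊤ : Submodule F K)) (by simpa using hr) 1
  refine ⟨h.T v (del F), T_mem_SU _ _, fun H => ?_⟩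
  obtain ⟨c', hc'⟩ := H.1 c
  obtain ⟨x, hx, hx0⟩ := exists_ne_zero_of_finrank (K := LinearMap.ker (h.lin v) ⊓
    LinearMap.ker (h.lin v ∘ₗ (LinearMap.lsmul K V c).restrictScalars F)) (by
      have := finrank_ker₂_ge (h.lin v) (h.lin v ∘ₗ (LinearMap.lsmul K V c).restrictScalars F)
      omega)
  have h1 := hc' x
  rw [T_apply_of_perp (x := x) hx.1, T_apply_of_perp (x := c • x) hx.2] at h1
  obtain rfl : c = c' := smul_left_injective K hx0 h1
  obtain ⟨y, hy⟩ := h.exists_ne hv0
  have h2 := hc' y
  rw [T_apply hv del_tr, T_apply hv del_tr, smul_add, add_right_inj] at h2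
  have h3 := mul_ne_zero (del_ne (F := F)) hy
  refine hc ((del F * h y v)⁻¹ * (del F * h (c • y) v)) (smul_left_injective K hv0 ?_)
  simp only [smul_assoc, one_smul]
  rw [mul_smul, h2, smul_comm c, inv_smul_smul₀ h3]

end Abs

section Bridge

open Matrix

theorem ext_maximal {F : Type*} [Field F] [Fintype F] (n q : ℕ) (hF : Fintype.card F = q ^ 2)
    (r : ℕ) (hr : r = 3 ∨ r = 5) (hn : 3 * r ≤ n ∨ (2 * r ≤ n ∧ r * (q + 1) < q ^ r))
    (K : Subalgebra F (Matrix (Fin n) (Fin n) F)) (hK : Geo.IsFieldSubalgebra r K)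
    (hA : Geo.IsAdjointClosedFor (hermForm n F q) K) :
    Geo.IsMaximalIn (GU n F q ⊓ Geo.specialLinear (Fin n) F)
      (Geo.subalgebraNormalizer K ⊓ (GU n F q ⊓ Geo.specialLinear (Fin n) F)) := by
  letI := powStar hF
  haveI := powStar_nstar hF
  have hnt : Nontrivial K := Module.nontrivial_of_finrank_pos (R := F) (by
    rw [hK.finrank_eq]; omega)
  have hf : IsField K :=
    { exists_pair_ne := exists_pair_ne K
      mul_comm := fun x y => Subtype.ext (hK.comm _ x.2 _ y.2)
      mul_inv_cancel := fun {x} hx => by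
        obtain ⟨y, hy, hxy⟩ := hK.inv _ x.2 fun h => hx (Subtype.ext h)
        exact ⟨⟨y, hy⟩, Subtype.ext hxy⟩ }
  let _ : Field K := hf.toField
  let _ : Module K (Fin n → F) :=
    { smul := fun c v => (c : Matrix _ _ F) *ᵥ v
      one_smul := fun v => Matrix.one_mulVec v
      mul_smul := fun a b v => (Matrix.mulVec_mulVec v _ _).symm
      smul_zero := fun a => Matrix.mulVec_zero _
      smul_add := fun a v w => Matrix.mulVec_add _ _ _
      add_smul := fun a b v => Matrix.add_mulVec _ _ _
      zero_smul := fun v => Matrix.zero_mulVec _ }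
  have hsm : ∀ (c : K) (v : Fin n → F), c • v = (c : Matrix _ _ F) *ᵥ v := fun _ _ => rfl
  have : IsScalarTower F K (Fin n → F) := ⟨fun a c v => Matrix.smul_mulVec a _ _⟩
  have : Finite K := inferInstance
  have : FiniteDimensional K (Fin n → F) := Module.Finite.of_finite
  have hr' : finrank F K = r := hK.finrank_eq
  have hmul := Module.finrank_mul_finrank F K (Fin n → F)
  rw [hr', finrank_fin_fun] at hmul
  have hsemi : ∀ g : GL (Fin n) F, Semi K (gl0 g) ↔ ∀ k ∈ K,
      (g : Matrix _ _ F) * k * ((g⁻¹ : GL _ F) : Matrix _ _ F) ∈ K := by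
    intro g
    constructor
    · intro h k hk
      obtain ⟨c', hc'⟩ := h ⟨k, hk⟩
      have : (g : Matrix _ _ F) * k = (c' : Matrix _ _ F) * (g : Matrix _ _ F) := by
        apply Matrix.toLin'.injective
        apply LinearMap.ext
        intro v
        simpa [gl0_apply, hsm] using hc' v
      rw [this, mul_assoc, Units.mul_inv, mul_one]
      exact c'.2
    · intro h c
      refine ⟨⟨_, h c c.2⟩, fun v => ?_⟩
      simp [gl0_apply, hsm, mul_assoc]
  have hP : ∀ g : GL (Fin n) F, g ∈ Geo.subalgebraNormalizer K ↔ GamL K (gl0 g) := by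
    intro g
    rw [GamL, ← map_inv, hsemi, hsemi]
    constructor
    · intro h
      exact ⟨fun k hk => (h k).1 hk, fun k hk => (inv_mem h k).1 hk⟩
    · rintro ⟨h1, h2⟩ k
      refine ⟨h1 k, fun hk => ?_⟩
      simpa [mul_assoc] using h2 _ hk
  refine isMaximalIn_of_core (LinearEquiv.refl F _) (stdHF (Fin n) F) _ _ (mem_GU_iff hF n)
    (GamL K) (fun g _ => hP g) (ext_proper_u _ (by omega) (by rw [finrank_fin_fun]; omega))
    (ext_core_abs _ (fun c => ?_) (card_F0 hF) (fun t => rfl) (by omega) ?_ ?_)
  · obtain ⟨c', hc', H⟩ := hA c c.2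
    exact ⟨⟨c', hc'⟩, H⟩
  · rcases hr with rfl | rfl <;> omega
  · rw [hr']
    refine hn.imp (fun h => ?_) And.right
    rcases hr with rfl | rfl <;> omega

end Bridge

end Cfsg.Agent.H5.U
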