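import Cfsg.Agent.H5.U.C2

/-! Stabilisers of orthonormal frames: common part. -/

set_option autoImplicit false
set_option linter.unusedSimpArgs false
set_option linter.unusedSectionVars false
set_option linter.unusedVariables false

namespace Cfsg.Agent.H5.U

open Module H6

theorem exists_not_mem_list {ι : Type*} [Fintype ι] [DecidableEq ι] (l : List ι)
    (hl : l.length < Fintype.card ι) : ∃ i, i ∉ l := by
  by_contra! h
  have := Finset.card_le_card (show Finset.univ ⊆ l.toFinset from fun i _ => by simpa using h i)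
  have := List.toFinset_card_le l
  simp only [Finset.card_univ] at *; omega

variable {F : Type*} {V : Type*} [Field F] [StarRing F] [AddCommGroup V] [Module F V]
  [NStar F] [Finite F] [FiniteDimensional F V]

theorem exists_norm_one_star_ne (F : Type*) [Field F] [StarRing F] [NStar F] :
    ∃ l : F, l * star l = 1 ∧ star l ≠ l := by
  obtain ⟨a, ha1, ha2⟩ : ∃ a : F, star a ≠ a ∧ star a ≠ -a := by
    obtain ⟨a, ha⟩ := NStar.exists_ne (F := F)
    by_cases h1 : star a = -a
    · refine ⟨1 + a, by simpa using ha, fun h2 => ha ?_⟩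
      rw [star_add, star_one, h1] at h2
      rw [h1]; linear_combination -a * h2
    · exact ⟨a, ha, h1⟩
  have ha0 : a ≠ 0 := by rintro rfl; simp at ha1
  have ha0' := star_ne_zero' ha0
  refine ⟨star a / a, by rw [star_div₀, star_star]; field_simp, fun h => ?_⟩
  rw [star_div₀, star_star, div_eq_div_iff ha0' ha0] at h
  have : (star a - a) * (star a + a) = 0 := by linear_combination -h
  rcases mul_eq_zero.1 this with h1 | h1
  · exact ha1 (by linear_combination h1)
  · exact ha2 (by linear_combination h1)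

theorem exists_wt2 {A B : F} (hA : star A = A) (hA0 : A ≠ 0) (hB : star B = B) (hB0 : B ≠ 0) :
    ∃ l m : F, l * star l = 1 ∧ l ≠ 1 ∧ m * star m = 1 ∧ m ≠ 1 ∧
      (l - 1) * star (l - 1) * A + (m - 1) * star (m - 1) * B = 0 ∧ (l - 1) * A + (m - 1) * B ≠ 0 := by
  obtain ⟨l, m, h1, h2, h3, h4, h5⟩ := exists_norm_sub_one_eq hA hA0 (B := -B) (by simp [hB])
    (neg_ne_zero.2 hB0)
  have h2' : star l ≠ 1 := fun h => h2 (by simpa using congrArg star h)
  have h4' : star m ≠ 1 := fun h => h4 (by simpa using congrArg star h)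
  simp only [star_sub, star_one] at h5 ⊢
  by_cases h6 : (l - 1) * A + (m - 1) * B = 0
  swap; · exact ⟨l, m, h1, h2, h3, h4, by linear_combination h5, h6⟩
  by_cases h7 : (star l - 1) * A + (m - 1) * B = 0
  swap
  · exact ⟨star l, m, HF.norm_one_star h1, h2', h3, h4, by rw [star_star]; linear_combination h5, h7⟩
  by_cases h8 : (l - 1) * A + (star m - 1) * B = 0
  swap
  · exact ⟨l, star m, h1, h2, HF.norm_one_star h3, h4', by rw [star_star]; linear_combination h5, h8⟩
  have hl : star l = l := mul_right_cancel₀ hA0 (by linear_combination h7 - h6)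
  have hm : star m = m := mul_right_cancel₀ hB0 (by linear_combination h8 - h6)
  rw [hl] at h1; rw [hm] at h3
  have hl1 : l = -1 := by
    have : (l - 1) * (l + 1) = 0 := by linear_combination h1
    rcases mul_eq_zero.1 this with h | h
    · exact absurd (by linear_combination h) h2
    · linear_combination h
  have hm1 : m = -1 := by
    have : (m - 1) * (m + 1) = 0 := by linear_combination h3
    rcases mul_eq_zero.1 this with h | h
    · exact absurd (by linear_combination h) h4
    · linear_combination h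
  have hAB : B = -A := by
    apply mul_left_cancel₀ (sub_ne_zero.2 h2)
    rw [hm1, ← hl1] at h6
    linear_combination h6
  obtain ⟨n, hn1, hn2⟩ := exists_norm_one_star_ne F
  refine ⟨n, star n, hn1, fun h => hn2 (by simp [h]), HF.norm_one_star hn1,
    fun h => hn2 (by have := congrArg star h; simp at this; simp [this]), ?_, fun h => hn2 ?_⟩
  · rw [star_star, hAB]; ring
  · apply mul_right_cancel₀ hA0
    rw [hAB] at h; linear_combination -h

namespace HF

variable {h : HF F V} {M : Subgroup (V ≃ₗ[F] V)} {ι : Type*} [Fintype ι] [DecidableEq ι]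
  {b : ι → V}

/-- monomial with respect to the frame `b` -/
def Mono (b : ι → V) (g : V ≃ₗ[F] V) : Prop := ∀ i, ∃ j, ∃ c : F, g (b i) = c • b j

omit [NStar F] [Finite F] [FiniteDimensional F V] in
theorem Mono.mul {g g' : V ≃ₗ[F] V} (hg : Mono b g) (hg' : Mono b g') : Mono b (g * g') := fun i => by
  obtain ⟨j, c, hj⟩ := hg' i
  obtain ⟨l, d, hl⟩ := hg j
  exact ⟨l, c * d, by rw [mul_app, hj, map_smul, hl, smul_smul]⟩

theorem ONB.mono_R (hb : h.ONB b) (i : ι) (l : F) : Mono b (h.R (b i) l) := fun j => by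
  by_cases hl : l * star l = 1
  · by_cases hij : j = i
    · subst hij; exact ⟨j, l, R_self (by simp [hb.self]) hl⟩
    · exact ⟨j, 1, by rw [R_apply_of_perp (hb.ne hij), one_smul]⟩
  · exact ⟨j, 1, by rw [R_of_not (by simp [hl])]; simp⟩

/-- the rank two torus elements -/
noncomputable def rr (h : HF F V) (u v : V) (l : F) : V ≃ₗ[F] V := h.R u l * h.R v (star l)

theorem rr_mem_SU {u v : V} {l : F} (hu : h u u = 1) (hv : h v v = 1) (hl : l * star l = 1) :
    h.rr u v l ∈ h.SU :=
  mem_SU.2 ⟨h.GU.mul_mem (R_mem_GU _ _) (R_mem_GU _ _), by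
    rw [rr, det_mul', det_R (by simp [hu]) hl, det_R (by simp [hv]) (norm_one_star hl), hl]⟩

theorem rr_apply {u v : V} {l : F} (hu : h u u = 1) (hv : h v v = 1) (huv : h v u = 0)
    (hl : l * star l = 1) (x : V) :
    h.rr u v l x = x + ((l - 1) * h x u) • u + ((star l - 1) * h x v) • v := by
  rw [rr, mul_app, R_apply1 hu hl, R_apply1 hv (norm_one_star hl)]
  simp [huv]; module

theorem conj_rr {g : V ≃ₗ[F] V} (hg : g ∈ h.GU) (u v : V) (l : F) :
    g * h.rr u v l * g⁻¹ = h.rr (g u) (g v) l := by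
  rw [rr, rr, ← conj_R hg, ← conj_R hg]; group

/-- a subgroup of `SU` containing the monomial group of the frame `b` -/
structure Fr (h : HF F V) (b : ι → V) (M : Subgroup (V ≃ₗ[F] V)) : Prop where
  onb : h.ONB b
  le : M ≤ h.SU
  mono : ∀ g ∈ h.SU, Mono b g → g ∈ M

theorem Fr.rr_mem (f : h.Fr b M) (i j : ι) {l : F} (hl : l * star l = 1) :
    h.rr (b i) (b j) l ∈ M :=
  f.mono _ (rr_mem_SU (f.onb.self i) (f.onb.self j) hl) ((f.onb.mono_R i l).mul (f.onb.mono_R j _))

theorem ONB.exists_transp (hb : h.ONB b) {i j : ι} (hij : i ≠ j) :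
    ∃ s ∈ h.GU, s (b i) = b j ∧ s (b j) = b i ∧ ∀ m, m ≠ i → m ≠ j → s (b m) = b m := by
  obtain ⟨s, hs, h1, h2, h3⟩ := exists_swap_ON (h := h) (κ := Unit) (a := fun _ => b i)
    (b := fun _ => b j) (fun _ _ => by simp [hb.self]) (fun _ _ => by simp [hb.self])
    (fun _ _ => hb.ne hij)
  exact ⟨s, hs, h1 (), h2 (), fun m hi hj => h3 _ fun _ => by rw [hb.ne hi, hb.ne hj]⟩

theorem Fr.exists_transp (f : h.Fr b M) {i j : ι} (hij : i ≠ j) :
    ∃ s ∈ M, Mono b s ∧ s (b i) = b j ∧ ∀ m, m ≠ i → m ≠ j → s (b m) = b m := by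
  obtain ⟨s, hs, h1, h2, h3⟩ := f.onb.exists_transp hij
  have h4 : Mono b s := fun m => by
    by_cases hi : m = i
    · exact ⟨j, 1, by rw [hi, h1, one_smul]⟩
    by_cases hj : m = j
    · exact ⟨i, 1, by rw [hj, h2, one_smul]⟩
    exact ⟨m, 1, by rw [h3 m hi hj, one_smul]⟩
  have h5 := h4.mul (f.onb.mono_R j (star (LinearMap.det (s : V →ₗ[F] V))))
  refine ⟨_, f.mono _ (mul_R_mem_SU hs (z := b j) (by simp [f.onb.self])) h5, h5, ?_,
    fun m hi hj => ?_⟩
  · rw [mul_app, R_apply_of_perp (f.onb.ne hij), h1]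
  · rw [mul_app, R_apply_of_perp (f.onb.ne hj), h3 m hi hj]

/-- all weight two isotropic vectors supported on `i, j` are centres of full root subgroups -/
def Pt (h : HF F V) (b : ι → V) (M : Subgroup (V ≃ₗ[F] V)) (i j : ι) : Prop :=
  ∀ s t : F, s * star s + t * star t = 0 → h.XIn M (s • b i + t • b j)

theorem ONB.wt2 (hb : h.ONB b) {i j : ι} (hij : i ≠ j) (s t : F) :
    h (s • b i + t • b j) (s • b i + t • b j) = s * star s + t * star t := by
  simp [hb.self, hb.ne hij, hb.ne hij.symm]; ring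

theorem Fr.pt_of_one (f : h.Fr b M) (h3 : 3 ≤ Fintype.card ι) {i j : ι} (hij : i ≠ j) {s t : F}
    (hs : s ≠ 0) (hst : s * star s + t * star t = 0) (hX : h.XIn M (s • b i + t • b j)) :
    h.Pt b M i j := by
  intro s' t' hst'
  have hb := f.onb
  by_cases hs' : s' = 0
  · have : t' = 0 := by
      by_contra h0; exact norm_ne_zero h0 (by simpa [hs'] using hst')
    rw [hs', this]; simpa using xIn_zero
  have ht : t ≠ 0 := by rintro rfl; exact norm_ne_zero hs (by simpa using hst)
  obtain ⟨m, hm⟩ := exists_not_mem_list [i, j] (by simp; omega)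
  simp only [List.mem_cons, List.not_mem_nil, or_false, not_or] at hm
  have h1 := star_ne_zero' hs
  have h2 := star_ne_zero' ht
  have h4 := star_ne_zero' hs'
  have hl : s * t' / (s' * t) * star (s * t' / (s' * t)) = 1 := by
    simp only [star_div₀, star_mul']
    field_simp
    linear_combination (s * star s) * hst' - (s' * star s') * hst
  have hu := (hb.wt2 hij s t).trans hst
  have h5 := (hX.map f.le hu (f.rr_mem j m hl)).smul (by rw [(f.le (f.rr_mem j m hl)).1, hu]) (s' / s)
  rw [rr_apply (hb.self j) (hb.self m) (hb.ne hm.2) hl] at h5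
  convert h5 using 1
  simp only [add_left, smul_left, hb.self, hb.ne hij, hb.ne (Ne.symm hm.1), hb.ne (Ne.symm hm.2)]
  match_scalars <;> field_simp <;> ring

theorem Pt.symm {i j : ι} (p : h.Pt b M i j) : h.Pt b M j i := fun s t hst => by
  rw [add_comm]; exact p t s (by rw [add_comm, hst])

theorem Fr.pt_move (f : h.Fr b M) {i j l : ι} (hij : i ≠ j) (hil : i ≠ l) (p : h.Pt b M i j) :
    h.Pt b M i l := by
  by_cases hjl : j = l
  · exact hjl ▸ p
  obtain ⟨g, hg, -, h1, h2⟩ := f.exists_transp hjl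
  intro s t hst
  have := (p s t hst).map f.le ((f.onb.wt2 hij s t).trans hst) hg
  rwa [map_add, map_smul, map_smul, h1, h2 i hij hil] at this

theorem Fr.pt_all (f : h.Fr b M) {i j : ι} (hij : i ≠ j) (p : h.Pt b M i j) {k l : ι}
    (hkl : k ≠ l) : h.Pt b M k l := by
  by_cases hki : k = i
  · subst hki; exact f.pt_move hij hkl p
  · exact f.pt_move hki hkl (f.pt_move hij (Ne.symm hki) p).symm

theorem ONB.ndOn_pair (hb : h.ONB b) {i j : ι} (hij : i ≠ j) :
    h.NdOn (Submodule.span F {b i, b j}) ∧ finrank F (Submodule.span F {b i, b j}) = 2 := by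
  constructor
  · intro w hw hx
    obtain ⟨s, t, rfl⟩ := Submodule.mem_span_pair.1 hw
    have h1 := hx (b i) (Submodule.subset_span (by simp))
    have h2 := hx (b j) (Submodule.subset_span (by simp))
    simp [hb.self, hb.ne hij, hb.ne hij.symm] at h1 h2
    simp [h1, h2]
  · refine le_antisymm (finrank_span_pair_le _ _) ?_
    have : h.ON ![b i, b j] := fun x y => by
      fin_cases x <;> fin_cases y <;> simp [hb.self, hb.ne hij, hb.ne hij.symm]
    simpa using this.card_le (W := Submodule.span F {b i, b j}) fun x => by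
      fin_cases x <;> exact Submodule.subset_span (by simp)

theorem Fr.X_pair (f : h.Fr b M) {i j : ι} (hij : i ≠ j) (p : h.Pt b M i j) :
    ∀ v ∈ Submodule.span F {b i, b j}, h v v = 0 → h.XIn M v := by
  intro v hv hvv
  obtain ⟨s, t, rfl⟩ := Submodule.mem_span_pair.1 hv
  exact p s t (by rw [← f.onb.wt2 hij, hvv])

theorem Fr.SUW_pair (f : h.Fr b M) {i j : ι} (hij : i ≠ j) (p : h.Pt b M i j) :
    h.SUW (Submodule.span F {b i, b j}) ≤ M :=
  SUW_le_of_XIn (f.onb.ndOn_pair hij).1 (by rw [(f.onb.ndOn_pair hij).2]; omega) (f.X_pair hij p)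

theorem ONB.perp_pair (hb : h.ONB b) {i j m : ι} (hi : m ≠ i) (hj : m ≠ j) :
    ∀ x ∈ Submodule.span F {b i, b j}, h x (b m) = 0 := by
  intro x hx
  obtain ⟨s, t, rfl⟩ := Submodule.mem_span_pair.1 hx
  simp [hb.ne hi.symm, hb.ne hj.symm]

theorem ONB.perp_pairs (hb : h.ONB b) {i j k l : ι} (hki : k ≠ i) (hkj : k ≠ j) (hli : l ≠ i)
    (hlj : l ≠ j) : ∀ x ∈ Submodule.span F {b i, b j}, ∀ y ∈ Submodule.span F {b k, b l},
      h x y = 0 := by
  intro x hx y hy
  obtain ⟨s, t, rfl⟩ := Submodule.mem_span_pair.1 hy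
  simp [hb.perp_pair hki hkj x hx, hb.perp_pair hli hlj x hx]

theorem Fr.SU_le_of_ME (f : h.Fr b M) (h5 : 5 ≤ Fintype.card ι)
    (p : ∀ i j, i ≠ j → h.Pt b M i j) {i j k l : ι} (hij : i ≠ j) (hkl : k ≠ l) (hki : k ≠ i)
    (hkj : k ≠ j) (hli : l ≠ i) (hlj : l ≠ j) {a w : V} (ha : a ∈ Submodule.span F {b i, b j})
    (ha0 : a ≠ 0) (haa : h a a = 0) (hw : w ∈ Submodule.span F {b k, b l}) (hw0 : w ≠ 0)
    (hwa : w ∈ h.ME M a haa) : h.SU ≤ M := by
  have hb := f.onb
  obtain ⟨m, hm⟩ := exists_not_mem_list [i, j, k, l] (by simp; omega)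
  simp only [List.mem_cons, List.not_mem_nil, or_false, not_or] at hm
  obtain ⟨hW, hW2⟩ := hb.ndOn_pair hkl
  obtain ⟨y, hy, hyw⟩ := hW.exists_ne hw hw0
  have hk : b k ∈ Submodule.span F {b k, b l} := Submodule.subset_span (by simp)
  have h1 : Submodule.span F {b k, b l} ≤ core F (h.ME M a haa) := by
    refine hW.le_core_ME' f.le hW2.ge (f.X_pair hkl (p k l hkl)) haa
      (hb.perp_pairs hki hkj hli hlj a ha) (fun v hv hv0 hvv c hc => ?_) hwa hy hyw
    obtain ⟨v', hv', hvv', h2⟩ := hW.exists_partner hv hv0 hvv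
    have h3 := D_mem_GUW hv hv' hvv hvv' h2 hc
    have h4 := det_norm h3.1
    set d := LinearMap.det (h.D v v' c : V →ₗ[F] V)
    have h6 : h.D v v' c * h.R (b k) (star d) ∈ M := f.SUW_pair hkl (p k l hkl)
      ⟨(h.GUW _).mul_mem h3 (R_mem_GUW hk _), mul_R_mem_SU h3.1 (by simp [hb.self])⟩
    have h7 := M.mul_mem h6 (f.rr_mem k m h4)
    rw [rr, ← mul_assoc, mul_assoc _ _ (h.R (b k) d), R_mul _ (norm_one_star h4) h4, mul_comm (star d),
      h4, R_one, mul_one] at h7
    refine ⟨_, h7, ?_, ?_⟩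
    · rw [mul_app, R_apply_of_perp (hb.perp_pair hm.1 hm.2.1 a ha),
        h3.2 a (hb.perp_pairs hki hkj hli hlj a ha)]
    · rw [mul_app, R_apply_of_perp (hb.perp_pair hm.2.2.1 hm.2.2.2 v hv), D_apply hvv hvv' h2 hc]
      simp [hvv, h2]; module
  have h2 : ∀ n, n ≠ i → n ≠ j → b n ∈ core F (h.ME M a haa) := by
    intro n hni hnj
    by_cases hnk : k = n
    · exact hnk ▸ h1 hk
    obtain ⟨g, hg, -, h3, h4⟩ := f.exists_transp hnk
    rw [← h3]
    refine core_ME_map f.le (h1 hk) hg ?_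
    obtain ⟨s, t, rfl⟩ := Submodule.mem_span_pair.1 ha
    rw [map_add, map_smul, map_smul, h4 i hki.symm hni.symm, h4 j hkj.symm hnj.symm]
  obtain ⟨hA, -⟩ := hb.ndOn_pair hij
  obtain ⟨a', ha', haa', h3⟩ := hA.exists_partner ha ha0 haa
  refine SU_le_of_Q_X f.le haa (qIn_of_ME haa (f.X_pair hij (p i j hij) a ha haa) fun x _ hxa => ?_)
    haa' (by simp [h3]) (f.X_pair hij (p i j hij) a' ha' haa')
  obtain ⟨y, hy, z, hz, rfl⟩ := hA.proj x
  refine AddSubgroup.add_mem _ (mem_ME_of_QIn haa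
    (fun w hw c _ => f.SUW_pair hij (p i j hij) (E_mem_SUW ha hw c)) hy
    (by simpa [hz a ha] using hxa)) (mem_of_mem_core (F := F) ?_)
  rw [hb.span z]
  refine Submodule.sum_mem _ fun n _ => ?_
  by_cases hni : n = i
  · rw [hni, hz _ (Submodule.subset_span (by simp))]; simp
  by_cases hnj : n = j
  · rw [hnj, hz _ (Submodule.subset_span (by simp))]; simp
  exact Submodule.smul_mem _ _ (h2 n hni hnj)

theorem Fr.SU_le_of_pt (f : h.Fr b M) (h5 : 5 ≤ Fintype.card ι)
    (hq : ∃ t : F, star t = t ∧ t ≠ 0 ∧ t ≠ 1) {i j : ι} (hij : i ≠ j) (p : h.Pt b M i j) :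
    h.SU ≤ M := by
  have hb := f.onb
  have p' : ∀ i j, i ≠ j → h.Pt b M i j := fun k l hkl => f.pt_all hij p hkl
  obtain ⟨k, hk⟩ := exists_not_mem_list [i, j] (by simp; omega)
  obtain ⟨l, hl⟩ := exists_not_mem_list [i, j, k] (by simp; omega)
  simp only [List.mem_cons, List.not_mem_nil, or_false, not_or] at hk hl
  obtain ⟨s, hs0, hs⟩ := exists_norm' (t := (-1 : F)) (by simp) (by simp)
  have h1 : (1 : F) * star 1 + s * star s = 0 := by simp [hs]
  have hu := (hb.wt2 hij 1 s).trans h1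
  have hv := (hb.wt2 (Ne.symm hk.2) 1 s).trans h1
  have h2 := (p 1 s h1).map f.le hu (p' j k (Ne.symm hk.2) 1 s h1 _ del_tr)
  obtain ⟨a, ha, ha0, haa, w, hw, hw0, hwa⟩ := exists_ME_of_two f.le (hb.ndOn_pair hij).1
    (hb.ndOn_pair (Ne.symm hl.2.2)).1 (hb.ndOn_pair hij).2.ge (hb.ndOn_pair (Ne.symm hl.2.2)).2.ge
    (hb.perp_pairs hk.1 hk.2 hl.1 hl.2.1) (f.X_pair hij p) (f.X_pair (Ne.symm hl.2.2) (p' _ _ (Ne.symm hl.2.2)))
    (Or.inl hq) (by rw [T_mem_GU, hu]) h2 (x := b i) (y := b k) (Submodule.subset_span (by simp))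
    (by rw [T_apply hv del_tr]; simp [hb.self, hb.ne hij, hb.ne (Ne.symm hk.1)])
    (Submodule.subset_span (by simp))
    (by
      rw [T_apply hv del_tr]
      simp [hb.self, hb.ne hij, hb.ne hk.1, hb.ne hk.2, hb.ne (Ne.symm hk.1), hb.ne (Ne.symm hk.2),
        hs0, del_ne])
  exact f.SU_le_of_ME h5 p' hij (Ne.symm hl.2.2) hk.1 hk.2 hl.1 hl.2.1 ha ha0 haa hw hw0 hwa

theorem ONB.exists_two_coord (hb : h.ONB b) {u : V} (huu : h u u = 0) {i : ι}
    (hi : h u (b i) ≠ 0) : ∃ j, j ≠ i ∧ h u (b j) ≠ 0 := by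
  by_contra! h'
  rw [hb.form, Finset.sum_eq_single i (fun j _ hj => by simp [h' j hj]) (by simp)] at huu
  exact mul_ne_zero hi (symm_ne hi) huu

theorem ONB.exists_coord (hb : h.ONB b) {u : V} (hu : u ≠ 0) : ∃ i, h u (b i) ≠ 0 := by
  by_contra! h'
  exact hu (hb.ext fun i => by simp [h' i])

theorem Fr.pt_of_X (f : h.Fr b M) {u : V} (hu0 : u ≠ 0) (huu : h u u = 0) (hX : h.XIn M u) {k : ι}
    (hk : h u (b k) = 0) : ∃ i j, i ≠ j ∧ h.Pt b M i j := by
  have hb := f.onb
  obtain ⟨i, hi⟩ := hb.exists_coord hu0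
  obtain ⟨j, hji, hj⟩ := hb.exists_two_coord huu hi
  have hik : k ≠ i := by rintro rfl; exact hi hk
  have hjk : k ≠ j := by rintro rfl; exact hj hk
  obtain ⟨l, m, h1, h2, h3, h4, h5, h6⟩ := exists_wt2 (A := h u (b i) * h (b i) u)
    (B := h u (b j) * h (b j) u) (by simp [mul_comm]) (mul_ne_zero hi (symm_ne hi))
    (by simp [mul_comm]) (mul_ne_zero hj (symm_ne hj))
  have ht := M.mul_mem (f.rr_mem i k h1) (f.rr_mem j k h3)
  have h7 : (h.rr (b i) (b k) l * h.rr (b j) (b k) m) u =
      u + ((l - 1) * h u (b i)) • b i + ((m - 1) * h u (b j)) • b j := by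
    rw [mul_app, rr_apply (hb.self i) (hb.self k) (hb.ne hik) h1,
      rr_apply (hb.self j) (hb.self k) (hb.ne hjk) h3]
    simp [hk, hb.ne hji, hb.ne hjk.symm]; module
  have h8 := XIn.line f.le huu (by rw [(f.le ht).1, huu]) (by
    rw [h7]; simp only [add_left, smul_left, huu]; convert h6 using 1; ring) hX
    (hX.map f.le huu ht) (-1) 1
  have h9 : (-1 : F) • u + (1 : F) • (h.rr (b i) (b k) l * h.rr (b j) (b k) m) u =
      ((l - 1) * h u (b i)) • b i + ((m - 1) * h u (b j)) • b j := by rw [h7]; module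
  have h10 : (l - 1) * h u (b i) * star ((l - 1) * h u (b i)) +
      (m - 1) * h u (b j) * star ((m - 1) * h u (b j)) = 0 := by
    simp only [star_mul', conj]; linear_combination h5
  rw [h9] at h8
  have h3' : 3 ≤ Fintype.card ι := by
    have := Finset.card_le_univ ({i, j, k} : Finset ι)
    rw [Finset.card_eq_three.2 ⟨i, j, k, hji.symm, hik.symm, hjk.symm, rfl⟩] at this
    exact this
  exact ⟨i, j, hji.symm, f.pt_of_one h3' hji.symm (mul_ne_zero (sub_ne_zero.2 h2) hi) h10
    (h8 ((hb.wt2 hji.symm _ _).trans h10))⟩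

/-- the multiplier argument -/
theorem Fr.X_of_T (f : h.Fr b M) {u : V} (huu : h u u = 0) {d : F} (hd0 : d ≠ 0)
    (hd : d + star d = 0) (hT : h.T u d ∈ M) {i k : ι} (hk : h u (b k) = 0) (hi : h u (b i) ≠ 0)
    (h2 : (2 : F) ≠ 0 ∨ ((2 : F) = 0 ∧ d * (h u (b i) * h (b i) u) ≠ 1)) : h.XIn M u := by
  have hb := f.onb
  have hik : k ≠ i := by rintro rfl; exact hi hk
  have hi' := symm_ne hi
  let C : AddSubgroup F :=
    { carrier := {c | c + star c = 0 ∧ h.T u c ∈ M}
      add_mem' := fun {x y} hx hy => ⟨by rw [star_add]; linear_combination hx.1 + hy.1, by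
        rw [← T_mul huu hx.1 hy.1]; exact M.mul_mem hx.2 hy.2⟩
      zero_mem' := ⟨by simp, by rw [T_zero]; exact M.one_mem⟩
      neg_mem' := fun {x} hx => ⟨by rw [star_neg]; linear_combination -hx.1, by
        rw [← T_inv huu hx.1]; exact M.inv_mem hx.2⟩ }
  have hrr : ∀ l : F, l * star l = 1 → h.rr (b i) (b k) l u = u + ((l - 1) * h u (b i)) • b i := by
    intro l hl
    rw [rr_apply (hb.self i) (hb.self k) (hb.ne hik) hl, hk]; simp
  have hd' : star d = -d := by linear_combination hd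
  set N := h u (b i) * h (b i) u with hN
  have hN0 : N ≠ 0 := mul_ne_zero hi hi'
  have hN1 : star N = N := by simp [hN, mul_comm]
  have key : ∀ l : F, l * star l = 1 →
      (d * N * (star l - l) - (d * N) ^ 2 * ((l - 1) * star (l - 1))) * d ∈ C := by
    intro l hl
    have h3 := f.rr_mem i k hl
    have h4 : h.T (h.rr (b i) (b k) l u) d ∈ M := by
      rw [← conj_T (f.le h3).1 huu hd]; exact M.mul_mem (M.mul_mem h3 hT) (M.inv_mem h3)
    have h5 : h (h.rr (b i) (b k) l u) (h.rr (b i) (b k) l u) = 0 := by rw [(f.le h3).1, huu]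
    have h6 : h.T (h.T (h.rr (b i) (b k) l u) d u) d ∈ M := by
      rw [← conj_T (T_mem_GU _ _) huu hd]; exact M.mul_mem (M.mul_mem h4 hT) (M.inv_mem h4)
    have h7 : h (h.T (h.rr (b i) (b k) l u) d u) (h.T (h.rr (b i) (b k) l u) d u) = 0 := by
      rw [T_mem_GU, huu]
    set a := 1 + d * N * (star l - 1) with ha
    set s := d * N * ((l - 1) * star (l - 1)) with hs
    have h8 : h.T (h.rr (b i) (b k) l u) d u = a • u + (s * h u (b i)) • b i := by
      rw [T_apply h5 hd, hrr l hl]
      simp only [add_right, smul_right, huu, star_mul', conj, ha, hs, hN, star_sub, star_one]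
      module
    rw [h8] at h6 h7
    have ha0 : a ≠ 0 := by
      intro h0
      rw [h0] at h7
      simp only [zero_smul, zero_add, smul_left, smul_right, hb.self, mul_one] at h7
      have : s * h u (b i) = 0 := by
        by_contra h9; exact norm_ne_zero h9 (by rwa [mul_comm] at h7)
      have : l - 1 = 0 := by
        by_contra h9
        exact mul_ne_zero (mul_ne_zero (mul_ne_zero hd0 hN0) (norm_ne_zero h9)) hi this
      have h9 : star l - 1 = 0 := by simpa using congrArg star this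
      rw [ha, h9] at h0; simp at h0
    have ha0' := star_ne_zero' ha0
    have hr : (1 + s / a) * star (1 + s / a) = 1 := by
      simp only [add_left, add_right, smul_left, smul_right, huu, hb.self, star_mul', conj] at h7
      simp only [star_add, star_one, star_div₀]
      field_simp
      apply mul_right_cancel₀ hN0
      rw [hN]
      linear_combination h7
    have h9 : a • u + (s * h u (b i)) • b i = a • h.rr (b i) (b k) (1 + s / a) u := by
      rw [hrr _ hr]; match_scalars <;> field_simp <;> ring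
    have h10 := f.rr_mem i k hr
    rw [h9, T_smul (by rw [(f.le h10).1, huu]) hd] at h6
    have h11 : a * star a * d + star (a * star a * d) = 0 := by
      rw [star_mul', star_norm, hd']; ring
    rw [← conj_T (f.le h10).1 huu h11] at h6
    have h12 : a * star a * d ∈ C := ⟨h11, by
      have := M.mul_mem (M.mul_mem (M.inv_mem h10) h6) h10
      simpa [mul_assoc] using this⟩
    have := C.sub_mem h12 (show d ∈ C from ⟨hd, hT⟩)
    convert this using 1
    simp only [ha, star_add, star_one, star_mul', hd', hN1, star_sub, star_star]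
    ring
  obtain ⟨A, hA0, hA1, hA⟩ : ∃ A : F, A ≠ 0 ∧ star A = -A ∧
      ∀ l : F, l * star l = 1 → (l - 1) * star (l - 1) * A ∈ C := by
    rcases h2 with h2 | ⟨h2, h3⟩
    · refine ⟨-2 * (d * N) ^ 2 * d, by simp [h2, hd0, hN0], by simp [hd', hN1], fun l hl => ?_⟩
      have := C.add_mem (key l hl) (key _ (norm_one_star hl))
      convert this using 1
      simp only [star_sub, star_one, star_star]; ring
    · refine ⟨(d * N - (d * N) ^ 2) * d, mul_ne_zero ?_ hd0, ?_, fun l hl => ?_⟩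
      · rw [sq, ← mul_one_sub]
        exact mul_ne_zero (mul_ne_zero hd0 hN0) (sub_ne_zero.2 h3.symm)
      · simp only [star_mul', star_sub, star_pow, hd', hN1]
        linear_combination (d * d * N) * h2
      · convert key l hl using 1
        simp only [star_sub, star_one]
        linear_combination (d * N * d) * hl + (d * N * d * (1 - star l)) * h2
  intro c hc
  have hc' : star c = -c := by linear_combination hc
  have := mem_of_normSet C hA0 hA (t := c / A) (by rw [star_div₀, hc', hA1]; simp)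
  rw [div_mul_cancel₀ _ hA0] at this
  exact this.2

theorem Fr.SU_le_of_T (f : h.Fr b M) (h5 : 5 ≤ Fintype.card ι)
    (hq : ∃ t : F, star t = t ∧ t ≠ 0 ∧ t ≠ 1) {u : V} (huu : h u u = 0) {d : F} (hd0 : d ≠ 0)
    (hd : d + star d = 0) (hT : h.T u d ∈ M) {i k : ι} (hk : h u (b k) = 0) (hi : h u (b i) ≠ 0)
    (h2 : (2 : F) ≠ 0 ∨ ((2 : F) = 0 ∧ d * (h u (b i) * h (b i) u) ≠ 1)) : h.SU ≤ M := by
  obtain ⟨i', j, hij, p⟩ := f.pt_of_X (ne_zero_left hi) huu (f.X_of_T huu hd0 hd hT hk hi h2) hk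
  exact f.SU_le_of_pt h5 hq hij p

end HF

end Cfsg.Agent.H5.U
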