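import Cfsg.Agent.H5.U.Frame2

/-! Stabilisers of orthonormal frames: odd characteristic. -/

set_option autoImplicit false
set_option linter.unusedSimpArgs false
set_option linter.unusedSectionVars false
set_option linter.unusedVariables false

namespace Cfsg.Agent.H5.U

open Module H6

variable {F : Type*} {V : Type*} [Field F] [StarRing F] [AddCommGroup V] [Module F V]
  [NStar F] [Finite F] [FiniteDimensional F V]

theorem exists_norm_sub_ne (h2 : (2 : F) ≠ 0) :
    ∃ l : F, l * star l = 1 ∧ l ≠ 1 ∧ (l - 1) * star (l - 1) ≠ 1 := by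
  by_cases h3 : (3 : F) = 0
  · obtain ⟨n, h1, h4⟩ := exists_norm_one_star_ne F
    refine ⟨n, h1, fun h0 => h4 (by simp [h0]), fun h0 => h4 ?_⟩
    simp only [star_sub, star_one] at h0
    have : (n + 1) ^ 2 = 0 := by linear_combination -n * h0 + (n - 1) * h1 + n * h3
    have h5 : n = -1 := by linear_combination pow_eq_zero_iff (two_ne_zero) |>.1 this
    simp [h5]
  · refine ⟨-1, by simp, fun h0 => h2 (by linear_combination -h0), fun h0 => h3 ?_⟩
    simp only [star_sub, star_one, star_neg] at h0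
    linear_combination h0

theorem exists_cubic (h2 : (2 : F) ≠ 0) :
    ∃ l : F, l * star l = 1 ∧ star l ≠ l ∧ 1 + l + star l ≠ 0 := by
  obtain ⟨n, h1, h4⟩ := exists_norm_one_star_ne F
  by_cases h3 : 1 + n + star n = 0
  · refine ⟨-n, by simpa using h1, by simpa using h4, fun h0 => h2 ?_⟩
    rw [star_neg] at h0; linear_combination h0 + h3
  · exact ⟨n, h1, h4, h3⟩

theorem exists_parabolic (h2 : (2 : F) ≠ 0) {κ : F} (hκ : star κ = κ) (h0 : κ ≠ 0) (h1 : κ ≠ 1) :
    ∃ l m n : F, l * star l = 1 ∧ m * star m = 1 ∧ n * star n = 1 ∧ l ≠ 1 ∧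
      2 * n = l + m + (l - 1) * (m - 1) * κ ∧ n ^ 2 = l * m := by
  have hd := del_ne (F := F)
  have h3 : star (1 - (2 * κ - 1) ^ 2) = 1 - (2 * κ - 1) ^ 2 := by simp [hκ]
  have h4 : 1 - (2 * κ - 1) ^ 2 ≠ 0 := by
    have : 1 - (2 * κ - 1) ^ 2 = 2 * 2 * κ * (1 - κ) := by ring
    rw [this]; simp [h2, h0, sub_ne_zero.2 h1.symm]
  obtain ⟨x, r, hxr⟩ := exists_sq_add_sq (F0 F) 1 ⟨_, h3⟩
    ⟨-(del F * del F) * (1 - (2 * κ - 1) ^ 2), by rw [mem_F0]; simp [hκ]⟩ one_ne_zero
    (fun h' => h4 (congrArg Subtype.val h'))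
  have h5 := congrArg (fun z : F0 F => (z : F)) hxr
  simp at h5
  have hne : ∀ s : F, star s = s → s - del F ≠ 0 ∧ s + del F ≠ 0 := by
    intro s hs
    have : s - del F ≠ 0 := by
      intro h'
      have h6 := congrArg star h'
      simp only [star_sub, hs, star_del, star_zero] at h6
      exact mul_ne_zero h2 hd (by linear_combination h6 - h')
    exact ⟨this, by simpa [hs] using star_ne_zero' this⟩
  set s : F := x - (2 * κ - 1) * r with hs
  have hs1 : star s = s := by simp [hs, hκ]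
  obtain ⟨h6, h7⟩ := hne s hs1
  obtain ⟨h8, h9⟩ := hne r r.2
  have key : (s * r + del F * del F * (2 * κ - 1)) ^ 2 =
      (s - del F) * (s + del F) * ((r - del F) * (r + del F)) := by
    rw [hs]; linear_combination (del F * del F) * h5
  refine ⟨(s + del F) / (s - del F), (r + del F) / (r - del F),
    (s * r + del F * del F * (2 * κ - 1)) / ((s - del F) * (r - del F)), ?_, ?_, ?_, ?_, ?_, ?_⟩
  · simp only [star_div₀, star_add, star_sub, hs1, star_del, sub_neg_eq_add, ← sub_eq_add_neg]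
    field_simp
  · simp only [star_div₀, star_add, star_sub, star_F0, star_del, sub_neg_eq_add, ← sub_eq_add_neg]
    field_simp
  · simp only [star_div₀, star_add, star_sub, star_mul', star_F0, hs1, star_del, sub_neg_eq_add,
      ← sub_eq_add_neg, hκ, star_one, star_ofNat]
    field_simp
    linear_combination key
  · intro h'
    field_simp at h'
    exact mul_ne_zero h2 hd (by linear_combination h')
  · field_simp; ring
  · field_simp; linear_combination key

namespace HF

variable {h : HF F V} {M : Subgroup (V ≃ₗ[F] V)} {ι : Type*} [Fintype ι] [DecidableEq ι]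
  {b : ι → V}

theorem eq_T_of {g : V ≃ₗ[F] V} (hg : g ∈ h.GU) {e u : V} {γ : F} (hu : h u u = 0)
    (heu : h e u ≠ 0) (h1 : g e = e + γ • u) (h2 : g u = u)
    (h3 : ∀ x, h x e = 0 → h x u = 0 → g x = x) :
    γ / h e u + star (γ / h e u) = 0 ∧ g = h.T u (γ / h e u) := by
  have hue := symm_ne heu
  have h4 : γ / h e u + star (γ / h e u) = 0 := by
    have := hg e e
    rw [h1] at this
    simp [hu] at this
    simp only [star_div₀, conj]
    field_simp
    linear_combination this
  refine ⟨h4, LinearEquiv.ext fun x => ?_⟩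
  have h5 := h3 (x - (h x u / h e u) • e - ((h x e - h x u / h e u * h e e) / h u e) • u)
    (by simp [hue]) (by simp [heu, hu])
  rw [map_sub, map_sub, map_smul, map_smul, h1, h2] at h5
  rw [T_apply hu h4]
  have : γ / h e u * h x u = h x u / h e u * γ := by ring
  rw [this]
  linear_combination (norm := module) h5

theorem Fr.SU_le_of_plane (f : h.Fr b M) (h2 : (2 : F) ≠ 0) (h5 : 5 ≤ Fintype.card ι) {j k : ι}
    (hjk : j ≠ k) {v : V} (hv : h v v = 1) (hvk : h v (b k) = 0)
    (hR : ∀ l : F, l * star l = 1 → h.rr v (b k) l ∈ M) (h0 : h v (b j) ≠ 0)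
    (h1 : h (b j) v * h v (b j) ≠ 1) : h.SU ≤ M := by
  have hb := f.onb
  have h0' := symm_ne h0
  obtain ⟨l, m, n, hl, hm, hn, hl1, htr, hdet⟩ := exists_parabolic h2
    (κ := h (b j) v * h v (b j)) (by simp [mul_comm]) (mul_ne_zero h0' h0) h1
  set ρ := h.rr v (b k) l * h.rr (b j) (b k) m with hρ
  have hρM : ρ ∈ M := M.mul_mem (hR l hl) (f.rr_mem j k hm)
  have hρG := (f.le hρM).1
  have hap : ∀ x, ρ x = x + ((m - 1) * h x (b j)) • b j +
      ((l - 1) * (h x v + (m - 1) * h x (b j) * h (b j) v)) • v +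
      ((star l * star m - 1) * h x (b k)) • b k := by
    intro x
    rw [hρ, mul_app, rr_apply hv (hb.self k) (symm0 hvk) hl,
      rr_apply (hb.self j) (hb.self k) (hb.ne hjk.symm) hm]
    simp [symm0 hvk, hb.self, hb.ne hjk]
    module
  have hm0 := ne_zero_of_norm_one hm
  have hn0 := ne_zero_of_norm_one hn
  set u := (m - n) • b j + (m * (l - 1) * h (b j) v) • v with hu
  have he : ρ (b j) = n • b j + u := by
    rw [hap]; simp [hb.self, hb.ne hjk, hu]; module
  have hρu : ρ u = n • u := by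
    rw [hap]
    simp only [hu, add_left, smul_left, hb.self, hb.ne hjk, hv, hvk]
    match_scalars
    · linear_combination hdet - m * htr
    · linear_combination (-m * (l - 1) * h (b j) v) * htr
    · ring
  have huu : h u u = 0 := by
    have h3 := hρG (b j) u
    rw [he, hρu] at h3
    simp only [add_left, smul_left, smul_right] at h3
    apply mul_left_cancel₀ (star_ne_zero' hn0)
    linear_combination h3 - h (b j) u * hn
  have hc : m * (l - 1) * h (b j) v ≠ 0 := mul_ne_zero (mul_ne_zero hm0 (sub_ne_zero.2 hl1)) h0'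
  have hperp : ∀ x, h x (b j) = 0 → h x u = 0 → h x v = 0 := by
    intro x h3 h4
    rw [hu, add_right, smul_right, smul_right, h3, mul_zero, zero_add] at h4
    exact (mul_eq_zero.1 h4).resolve_left (star_ne_zero' hc)
  have heu : h (b j) u ≠ 0 := by
    intro h3
    have h4 := hperp u (symm0 h3) huu
    have h6 := symm0 h3
    simp only [hu, add_left, smul_left, hb.self, hv] at h4 h6
    apply hc
    apply mul_right_cancel₀ (sub_ne_zero.2 h1)
    linear_combination h (b j) v * h6 - h4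
  obtain ⟨N, hN1, hN2⟩ := exists_pow_eq_one F
  have hp1 : ∀ t : ℕ, (ρ ^ t) u = n ^ t • u := fun t => by
    induction t with
    | zero => simp
    | succ t ih => rw [pow_succ', mul_app, ih, map_smul, hρu, smul_smul, pow_succ]
  have hp2 : ∀ t : ℕ, (ρ ^ t) (b j) = n ^ t • b j + (t * n ^ t * n⁻¹) • u := fun t => by
    induction t with
    | zero => simp
    | succ t ih =>
      rw [pow_succ', mul_app, ih, map_add, map_smul, map_smul, hρu, he]
      clear_value u
      match_scalars
      · ring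
      · field_simp; ring
  have hp3 : ∀ t : ℕ, ∀ x, h x (b j) = 0 → h x v = 0 →
      (ρ ^ t) x = x + (((star l * star m) ^ t - 1) * h x (b k)) • b k := fun t x h3 h4 => by
    induction t with
    | zero => simp
    | succ t ih =>
      rw [pow_succ', mul_app, ih, hap]
      simp [h3, h4, hb.self, hb.ne hjk.symm, symm0 hvk]
      module
  obtain ⟨h3, h4⟩ := eq_T_of (h.GU.pow_mem hρG N) huu heu (γ := -n⁻¹)
    (by rw [hp2, hN1, hN2 n hn0]; simp) (by rw [hp1, hN2 n hn0, one_smul]) (fun x h3 h4 => by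
      rw [hp3 N x h3 (hperp x h3 h4), hN2 _ (mul_ne_zero (star_ne_zero' (ne_zero_of_norm_one hl))
        (star_ne_zero' hm0))]; simp)
  have hq : ∃ t : F, star t = t ∧ t ≠ 0 ∧ t ≠ 1 :=
    ⟨-1, by simp, by simp, fun h' => h2 (by linear_combination -h')⟩
  exact f.SU_le_of_T h5 hq huu (div_ne_zero (by simp [hn0]) heu) h3 (h4 ▸ M.pow_mem hρM N)
    (k := k) (by simp [hu, hvk, hb.ne hjk]) (symm_ne heu) (Or.inl h2)

theorem rr_smul_right (u v : V) (l : F) {a : F} (ha : a ≠ 0) : h.rr u (a • v) l = h.rr u v l := by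
  rw [rr, rr, R_smul _ _ ha]

theorem Fr.SU_le_of_good (f : h.Fr b M) (h2 : (2 : F) ≠ 0) (h5 : 5 ≤ Fintype.card ι)
    {y : V ≃ₗ[F] V} (hy : y ∈ M) {k : ι} {a : F} (hk : y (b k) = a • b k) (hm : ¬ Mono b y) :
    h.SU ≤ M := by
  have hb := f.onb
  have hy1 := (f.le hy).1
  obtain ⟨i, p, r, hpr, hp, hr⟩ := hb.exists_two_of_not_mono hm
  have ha : a ≠ 0 := by
    rintro rfl
    have := hy1 (b k) (b k)
    simp [hk, hb.self] at this
  have hik : i ≠ k := by
    rintro rfl
    rw [hk, smul_left] at hp hr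
    by_cases h3 : i = p
    · exact hr (by rw [hb.ne (h3 ▸ hpr), mul_zero])
    · exact hp (by rw [hb.ne h3, mul_zero])
  have h3 : h (y (b i)) (b k) = 0 := by
    have := hy1 (b i) (b k)
    rw [hk, smul_right, hb.ne hik] at this
    exact (mul_eq_zero.1 this).resolve_left (star_ne_zero' ha)
  have hpk : p ≠ k := by rintro rfl; exact hp h3
  have hrk : r ≠ k := by rintro rfl; exact hr h3
  have hv : h (y (b i)) (y (b i)) = 1 := by rw [hy1, hb.self]
  have hR : ∀ l : F, l * star l = 1 → h.rr (y (b i)) (b k) l ∈ M := fun l hl => by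
    have := conj_rr hy1 (b i) (b k) l
    rw [hk, rr_smul_right _ _ _ ha] at this
    rw [← this]
    exact M.mul_mem (M.mul_mem hy (f.rr_mem i k hl)) (M.inv_mem hy)
  by_cases h4 : h (b p) (y (b i)) * h (y (b i)) (b p) = 1
  swap; · exact f.SU_le_of_plane h2 h5 hpk hv h3 hR hp h4
  by_cases h6 : h (b r) (y (b i)) * h (y (b i)) (b r) = 1
  swap; · exact f.SU_le_of_plane h2 h5 hrk hv h3 hR hr h6
  obtain ⟨l, hl, hl1, hl2⟩ := exists_norm_sub_ne h2
  have h7 := hR l hl
  have h8 : h.rr (y (b i)) (b k) l (b k) = star l • b k := by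
    rw [rr_apply hv (hb.self k) (symm0 h3) hl]; simp [symm0 h3, hb.self]; module
  have h9 : h (h.rr (y (b i)) (b k) l (b p)) (b r) = (l - 1) * h (b p) (y (b i)) * h (y (b i)) (b r) := by
    rw [rr_apply hv (hb.self k) (symm0 h3) hl]; simp [hb.ne hpr, hb.ne hpk]
  refine f.SU_le_of_plane h2 h5 hrk (v := h.rr (y (b i)) (b k) l (b p)) (by rw [(f.le h7).1, hb.self])
    ?_ (fun m hm => ?_) (by rw [h9]; exact mul_ne_zero (mul_ne_zero (sub_ne_zero.2 hl1) (symm_ne hp)) hr)
    ?_
  · rw [rr_apply hv (hb.self k) (symm0 h3) hl]; simp [hb.ne hpk, h3]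
  · have := conj_rr (f.le h7).1 (b p) (b k) m
    rw [h8, rr_smul_right _ _ _ (star_ne_zero' (ne_zero_of_norm_one hl))] at this
    rw [← this]
    exact M.mul_mem (M.mul_mem h7 (f.rr_mem p k hm)) (M.inv_mem h7)
  · rw [← h.conj _ (b r), h9]
    simp only [star_mul', conj]
    intro h10
    apply hl2
    linear_combination h10 - (l - 1) * star (l - 1) * (h (b r) (y (b i)) * h (y (b i)) (b r)) * h4 -
      (l - 1) * star (l - 1) * h6

theorem ONB.mono_inj (hb : h.ONB b) {y : V ≃ₗ[F] V} {p q r : ι} {c d : F} (h1 : y (b p) = c • b r)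
    (h2 : y (b q) = d • b r) : p = q := by
  by_contra hpq
  have h3 : d • b p = c • b q := y.injective (by rw [map_smul, map_smul, h1, h2, smul_comm])
  have h4 := congrArg (fun x => h x (b p)) h3
  simp [hb.self, hb.ne (Ne.symm hpq)] at h4
  rw [h4, zero_smul, LinearEquiv.map_eq_zero_iff] at h2
  have := hb.self q
  simp [h2] at this

theorem ONB.mono_ne (hb : h.ONB b) {y : V ≃ₗ[F] V} {p r : ι} {c : F} (h1 : y (b p) = c • b r) :
    c ≠ 0 := by
  rintro rfl
  rw [zero_smul, LinearEquiv.map_eq_zero_iff] at h1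
  have := hb.self p
  simp [h1] at this

theorem ONB.mono_inv (hb : h.ONB b) {y : V ≃ₗ[F] V} (hy : Mono b y) : Mono b y⁻¹ := by
  choose σ c hσ using hy
  have h1 : Function.Injective σ := fun p q hpq => hb.mono_inj (hσ p) (hpq ▸ hσ q)
  intro i
  obtain ⟨j, rfl⟩ := Finite.injective_iff_surjective.1 h1 i
  refine ⟨j, (c j)⁻¹, ?_⟩
  rw [← inv_smul_smul₀ (hb.mono_ne (hσ j)) (b (σ j)), ← hσ, map_smul, inv_apply_apply]

/-- the hypothesis of the bad case -/
def Bad (b : ι → V) (M : Subgroup (V ≃ₗ[F] V)) : Prop :=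
  ∀ y ∈ M, ∀ k, ∀ a : F, y (b k) = a • b k → Mono b y

theorem Fr.mono_of_point (f : h.Fr b M) (hB : Bad b M) {g : V ≃ₗ[F] V} (hg : g ∈ M) {i j : ι}
    {c : F} (hij : g (b i) = c • b j) : Mono b g := by
  by_cases h1 : j = i
  · exact hB g hg i c (h1 ▸ hij)
  obtain ⟨s, hs, hs1, hs2, -⟩ := f.exists_transp h1
  have := (f.onb.mono_inv hs1).mul (hB (s * g) (M.mul_mem hs hg) i c (by
    rw [mul_app, hij, map_smul, hs2]))
  rwa [inv_mul_cancel_left] at this

theorem Fr.mem_span_of_perp (f : h.Fr b M) (h2 : (2 : F) ≠ 0) (hB : Bad b M) {g : V ≃ₗ[F] V}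
    (hg : g ∈ M) {i j k : ι} (hij : i ≠ j) (hi : h (g (b i)) (b k) = 0) (hj : h (g (b j)) (b k) = 0)
    {a : ι} (ha : h (g (b i)) (b a) ≠ 0) : ∃ s t : F, b a = s • g (b i) + t • g (b j) := by
  have hb := f.onb
  have hg1 := (f.le hg).1
  obtain ⟨l, hl, hl1, hl2⟩ := exists_cubic h2
  have hl3 : l - 1 ≠ 0 := fun h0 => hl1 (by rw [sub_eq_zero.1 h0, star_one])
  set u := g (b i) with hu
  set v := g (b j) with hv
  have huu : h u u = 1 := by rw [hu, hg1, hb.self]
  have hvv : h v v = 1 := by rw [hv, hg1, hb.self]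
  have huv : h u v = 0 := by rw [hu, hv, hg1, hb.ne hij]
  have hap := rr_apply huu hvv (symm0 huv) hl
  have hy : h.rr u v l ∈ M := by
    rw [← conj_rr hg1]; exact M.mul_mem (M.mul_mem hg (f.rr_mem i j hl)) (M.inv_mem hg)
  set y := h.rr u v l with hydef
  have hm : Mono b y := hB y hy k 1 (by rw [hap]; simp [symm0 hi, symm0 hj])
  have ha' := symm_ne ha
  obtain ⟨a', c, hc⟩ := hm a
  by_cases h1 : a' = a
  · subst h1
    have h3 := congrArg (fun x => h x u) hc
    simp only [hap, add_left, smul_left, huu, symm0 huv] at h3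
    have h4 : c = l := mul_right_cancel₀ ha' (by linear_combination -h3)
    rw [hap, h4] at hc
    refine ⟨h (b a') u, (l - 1)⁻¹ * ((star l - 1) * h (b a') v), ?_⟩
    have : (l - 1) • b a' = ((l - 1) * h (b a') u) • u + ((star l - 1) * h (b a') v) • v := by
      linear_combination (norm := module) -hc
    refine (inv_smul_smul₀ hl3 (b a')).symm.trans ?_
    rw [this]; match_scalars <;> field_simp
  obtain ⟨a'', c', hc'⟩ := hm a'
  obtain ⟨a''', c'', hc''⟩ := hm a''
  have hcub : ∀ x, y (y (y x)) - (1 + l + star l) • y (y x) + (1 + l + star l) • y x - x = 0 := by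
    intro x
    simp only [hap, add_left, smul_left, huu, hvv, huv, symm0 huv]
    match_scalars
    · ring
    · linear_combination (-(l - 1) * h x u) * hl
    · linear_combination (-(star l - 1) * h x v) * hl
  have h3 := hcub (b a)
  simp only [hc, map_smul, hc', hc''] at h3
  have h4 : a'' ≠ a' := fun h0 => h1 (hb.mono_inj (h0 ▸ hc') hc)
  have hc0 := hb.mono_ne hc
  have h5 := congrArg (fun x => h x (b a')) h3
  simp only [sub_left, add_left, smul_left, hb.ne h4, hb.self, hb.ne (Ne.symm h1), zero_left] at h5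
  have h6 : a''' = a' := by
    by_contra h0
    rw [hb.ne h0] at h5
    exact mul_ne_zero hl2 hc0 (by linear_combination h5)
  subst h6
  obtain rfl := hb.mono_inj hc'' hc
  have h7 : c'' = c := smul_left_injective F (ne_zero_left (h := h) (y := b a''') (by simp [hb.self]))
    (hc''.symm.trans hc)
  rw [hb.self, h7] at h5
  have h8 : c * c' - 1 ≠ 0 := by
    intro h0
    have h9 : 1 + l + star l = -1 := mul_left_cancel₀ hc0 (by linear_combination h5 - c * h0)
    have h10 : (l + 1) ^ 2 = 0 := by linear_combination l * h9 - hl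
    have h11 : l = -1 := by linear_combination pow_eq_zero_iff (two_ne_zero) |>.1 h10
    exact hl1 (by simp [h11])
  rw [hap] at hc hc'
  refine ⟨(c * c' - 1)⁻¹ * (c * ((l - 1) * h (b a''') u) + (l - 1) * h (b a'') u),
    (c * c' - 1)⁻¹ * (c * ((star l - 1) * h (b a''') v) + (star l - 1) * h (b a'') v), ?_⟩
  rw [← inv_smul_smul₀ h8 (b a''), mul_smul, mul_smul, ← smul_add]
  congr 1
  simp only [inv_smul_smul₀ h8]
  linear_combination (norm := module) -(c • hc') - hc

theorem Fr.mono_of_perp (f : h.Fr b M) (h2 : (2 : F) ≠ 0) (h5 : 5 ≤ Fintype.card ι) (hB : Bad b M)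
    {g : V ≃ₗ[F] V} (hg : g ∈ M) {i j k : ι} (hij : i ≠ j) (hi : h (g (b i)) (b k) = 0)
    (hj : h (g (b j)) (b k) = 0) : Mono b g := by
  have hb := f.onb
  have hg1 := (f.le hg).1
  have hne : ∀ m, g (b m) ≠ 0 := fun m => ne_zero_left (h := h) (y := g (b m)) (by
    rw [hg1, hb.self]; exact one_ne_zero)
  obtain ⟨a, ha⟩ := hb.exists_coord (hne i)
  obtain ⟨s, t, hst⟩ := f.mem_span_of_perp h2 hB hg hij hi hj ha
  obtain ⟨m₁, h1⟩ := exists_not_mem_list [i, j] (by simp; omega)
  obtain ⟨m₂, h3⟩ := exists_not_mem_list [i, j, m₁] (by simp; omega)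
  obtain ⟨m₃, h4⟩ := exists_not_mem_list [i, j, m₁, m₂] (by simp; omega)
  simp only [List.mem_cons, List.not_mem_nil, or_false, not_or] at h1 h3 h4
  have hp : ∀ m, m ≠ i → m ≠ j → h (g (b m)) (b a) = 0 := fun m hi hj => by
    rw [hst]; simp [hg1 _ _, hb.ne hi, hb.ne hj]
  obtain ⟨p, hp'⟩ := hb.exists_coord (hne m₁)
  obtain ⟨s₁, t₁, h6⟩ := f.mem_span_of_perp h2 hB hg (Ne.symm h3.2.2) (hp _ h1.1 h1.2)
    (hp _ h3.1 h3.2.1) hp'
  obtain ⟨s₂, t₂, h7⟩ := f.mem_span_of_perp h2 hB hg (Ne.symm h4.2.2.1) (hp _ h1.1 h1.2)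
    (hp _ h4.1 h4.2.1) hp'
  have h8 := congrArg (fun x => h x (g (b m₂))) (h6.symm.trans h7)
  simp [hg1 _ _, hb.self, hb.ne (Ne.symm h3.2.2), hb.ne h4.2.2.2] at h8
  rw [h8, zero_smul, add_zero] at h6
  have h9 : s₁ ≠ 0 := by
    rintro rfl
    have := hb.self p
    simp [h6] at this
  exact f.mono_of_point hB hg (i := m₁) (j := p) (c := s₁⁻¹) (by rw [h6, inv_smul_smul₀ h9])

end HF

end Cfsg.Agent.H5.U
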