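import Cfsg.Agent.H5.U.Frame4

/-! Non-maximal members for `q = 2`. -/

set_option autoImplicit false
set_option linter.unusedSimpArgs false
set_option linter.unusedSectionVars false
set_option linter.unusedVariables false

namespace Cfsg.Agent.H5.U

open Module H6

theorem F0_of_four {F : Type*} [Field F] [Fintype F] (hF : Fintype.card F = 2 ^ 2) :
    letI := powStar hF; ∀ t : F, star t = t → t = 0 ∨ t = 1 := by
  intro t ht
  have h1 : t ^ 2 = t := ht
  have : t * (t - 1) = 0 := by linear_combination h1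
  exact (mul_eq_zero.1 this).imp id sub_eq_zero.1

variable {F : Type*} {V : Type*} [Field F] [StarRing F] [AddCommGroup V] [Module F V]
  [NStar F] [Finite F] [FiniteDimensional F V]

namespace HF

variable {h : HF F V} {ι : Type*} [Fintype ι] [DecidableEq ι] {b : ι → V}

/-- the monomial group of an orthonormal basis -/
def ONB.monoGrp (hb : h.ONB b) : Subgroup (V ≃ₗ[F] V) where
  carrier := {g | Mono b g}
  mul_mem' := Mono.mul
  one_mem' i := ⟨i, 1, by simp⟩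
  inv_mem' := hb.mono_inv

theorem Dec.exists_ONB' {D : ι → Submodule F V} {k : ℕ} (d : h.Dec D k) :
    ∃ b : ι × Fin k → V, h.ONB b ∧ (∀ i m, b (i, m) ∈ D i) ∧
      ∀ i, ∀ x ∈ D i, x = ∑ m, h x (b (i, m)) • b (i, m) := by
  choose a ha1 ha2 ha3 using fun i => (d.nd i).exists_ON k (d.rk i)
  have h2 : h.ON fun p : ι × Fin k => a p.1 p.2 := fun ⟨i, m⟩ ⟨j, n⟩ => by
    by_cases hij : i = j
    · subst hij; simpa using ha2 i m n
    · simp [hij, d.orth i j hij _ (ha1 i m) _ (ha1 j n)]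
  refine ⟨fun p => a p.1 p.2, ⟨h2, fun x => ?_⟩, ha1, ha3⟩
  obtain ⟨c, hc, rfl⟩ := d.dec x
  rw [Fintype.sum_prod_type]
  refine Finset.sum_congr rfl fun i _ => (ha3 i _ (hc i)).trans (Finset.sum_congr rfl fun m _ => ?_)
  rw [← h.conj _ (∑ i, c i), d.comp hc (ha1 i m), conj]

theorem Dec.between_F4 (hq : ∀ t : F, star t = t → t = 0 ∨ t = 1) {D : ι → Submodule F V}
    (d : h.Dec D 2) (ht : 2 ≤ Fintype.card ι) : ∃ K : Subgroup (V ≃ₗ[F] V),
      (∀ g ∈ h.SU, DecStab D g → g ∈ K) ∧ (∃ g ∈ h.SU, g ∈ K ∧ ¬ DecStab D g) ∧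
      ∃ g ∈ h.SU, g ∉ K := by
  obtain ⟨b, hb, hb1, hb2⟩ := d.exists_ONB'
  refine ⟨hb.monoGrp, fun g hg hg' ⟨i, m⟩ => ?_, ?_, hb.exists_not_mono (by simp; omega)⟩
  · obtain ⟨j, hj⟩ := hg' i
    have h1 := hb2 j _ (hj _ (hb1 i m))
    have h2 : h (g (b (i, m))) (g (b (i, m))) = 1 := by rw [hg.1, hb.self]
    rw [Fin.sum_univ_two] at h1
    rw [h1, hb.wt2 (by simp)] at h2
    by_cases h3 : h (g (b (i, m))) (b (j, 0)) = 0
    · exact ⟨_, _, by rwa [h3, zero_smul, zero_add] at h1⟩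
    by_cases h4 : h (g (b (i, m))) (b (j, 1)) = 0
    · exact ⟨_, _, by rwa [h4, zero_smul, add_zero] at h1⟩
    rw [norm_eq_one_of_F4 hq h3, norm_eq_one_of_F4 hq h4] at h2
    simp at h2
  · obtain ⟨i, j, hij⟩ := Fintype.exists_pair_of_one_lt_card (α := ι) (by omega)
    obtain ⟨s, hs, h1, h2, h3⟩ := Fr.exists_transp (M := h.SU) ⟨hb, le_rfl, fun _ hg _ => hg⟩
      (i := (i, 0)) (j := (j, 0)) (by simp [hij])
    refine ⟨s, hs, h1, fun hs' => ?_⟩
    obtain ⟨l, hl⟩ := hs' i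
    have h4 := hl _ (hb1 i 0)
    have h5 := hl _ (hb1 i 1)
    rw [h2] at h4
    rw [h3 _ (by simp) (by simp)] at h5
    have hne : ∀ p, b p ≠ 0 := fun p => ne_zero_left (h := h) (y := b p) (by simp [hb.self])
    exact hij ((d.eq_of_mem (hne _) (hb1 i 1) h5).trans (d.eq_of_mem (hne _) h4 (hb1 j 0)))

end HF

end Cfsg.Agent.H5.U
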