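import Cfsg.Agent.H5.U.C1

/-! Stabilisers of a pair of complementary totally singular subspaces. -/

set_option autoImplicit false
set_option linter.unusedSimpArgs false
set_option linter.unusedSectionVars false
set_option linter.unusedVariables false

namespace Cfsg.Agent.H5.U

open Module H6

theorem mem_decompositionStabilizer' {ι : Type} [Fintype ι] [DecidableEq ι] {F : Type*} [Field F]
    {t k : ℕ} {D : Fin t → Submodule F (ι → F)} (hD : Geo.IsMDecomposition k D) {g : GL ι F} :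
    g ∈ Geo.decompositionStabilizer D ↔ ∀ i, ∃ j, ∀ x ∈ D i, gl0 g x ∈ D j := by
  rw [mem_decompositionStabilizer]
  constructor
  · rintro ⟨σ, hσ⟩ i
    exact ⟨σ i, fun x hx => hσ i ▸ ⟨x, hx, rfl⟩⟩
  · intro h
    choose σ hσ using h
    have h1 : ∀ i, (D i).map (gl0 g : (ι → F) →ₗ[F] (ι → F)) = D (σ i) := fun i => by
      apply Submodule.eq_of_le_of_finrank_eq
      · rintro _ ⟨x, hx, rfl⟩; exact hσ i x hx
      · rw [LinearEquiv.finrank_map_eq, hD.finrank_eq, hD.finrank_eq]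
    have h2 : Function.Injective σ := by
      intro i j hij
      have h3 : D i = D j := Submodule.map_injective_of_injective (gl0 g).injective (by
        rw [h1, h1, hij])
      by_contra hne
      have h4 := hD.indep.pairwiseDisjoint hne
      simp only [Function.onFun, h3, disjoint_self] at h4
      have h5 := hD.finrank_eq j
      rw [h4] at h5
      have := hD.pos
      simp at h5; omega
    exact ⟨Equiv.ofBijective σ (Finite.injective_iff_bijective.1 h2), h1⟩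

variable {F : Type*} {V : Type*} [Field F] [StarRing F] [AddCommGroup V] [Module F V]
  [NStar F] [Finite F] [FiniteDimensional F V]

theorem exists_div_star {l : F} (hl : l * star l = 1) : ∃ m : F, m ≠ 0 ∧ m * (star m)⁻¹ = l := by
  by_cases h1 : 1 + l = 0
  · refine ⟨del F, del_ne, ?_⟩
    have := del_ne (F := F)
    rw [star_del]; field_simp; linear_combination -h1
  · refine ⟨1 + l, h1, ?_⟩
    have := star_ne_zero' h1
    rw [star_add, star_one] at this ⊢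
    field_simp; linear_combination -hl

namespace HF

variable {h : HF F V} {M : Subgroup (V ≃ₗ[F] V)}

/-- a pair of complementary totally singular subspaces -/
structure TsPair (h : HF F V) (A B : Submodule F V) : Prop where
  tsA : ∀ x ∈ A, ∀ y ∈ A, h x y = 0
  tsB : ∀ x ∈ B, ∀ y ∈ B, h x y = 0
  dec : ∀ x, ∃ a ∈ A, ∃ b ∈ B, x = a + b
  rkA : 3 ≤ finrank F A
  rkB : 3 ≤ finrank F B

/-- stabilising the pair -/
def PairStab (A B : Submodule F V) (g : V ≃ₗ[F] V) : Prop :=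
  ((∀ x ∈ A, g x ∈ A) ∨ (∀ x ∈ A, g x ∈ B)) ∧ ((∀ x ∈ B, g x ∈ A) ∨ (∀ x ∈ B, g x ∈ B))

variable {A B : Submodule F V}

theorem TsPair.symm (p : h.TsPair A B) : h.TsPair B A :=
  ⟨p.tsB, p.tsA, fun x => by
    obtain ⟨a, ha, b, hb, rfl⟩ := p.dec x
    exact ⟨b, hb, a, ha, add_comm _ _⟩, p.rkB, p.rkA⟩

theorem PairStab.symm {g : V ≃ₗ[F] V} (p : PairStab A B g) : PairStab B A g :=
  ⟨p.2.symm, p.1.symm⟩

theorem TsPair.eq_zero (p : h.TsPair A B) {a : V} (ha : a ∈ A) (h0 : ∀ b ∈ B, h b a = 0) : a = 0 :=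
  h.nd fun x => by
    obtain ⟨a', ha', b, hb, rfl⟩ := p.dec x
    simp [p.tsA a' ha' a ha, h0 b hb]

theorem TsPair.mem_of_perp (p : h.TsPair A B) {x : V} (hx : ∀ a ∈ A, h a x = 0) : x ∈ A := by
  obtain ⟨a, ha, b, hb, rfl⟩ := p.dec x
  have : b = 0 := p.symm.eq_zero hb fun a' ha' => by simpa [p.tsA a' ha' a ha] using hx a' ha'
  simpa [this] using ha

theorem TsPair.disj (p : h.TsPair A B) {x : V} (ha : x ∈ A) (hb : x ∈ B) : x = 0 :=
  p.eq_zero ha fun b hb' => p.tsB b hb' x hb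

/-- separating two vectors of `A` by a vector of `B` -/
theorem TsPair.exists_sep (p : h.TsPair A B) {e z : V} (he : e ∈ A) (hz : z ∈ A)
    (hez : ∀ c : F, z ≠ c • e) : ∃ w ∈ B, h e w = 0 ∧ h z w = 1 := by
  obtain ⟨φ, h1, h2⟩ := exists_dual_pair hez
  obtain ⟨v, hv⟩ := h.riesz φ
  obtain ⟨a, ha, b, hb, rfl⟩ := p.dec v
  refine ⟨b, hb, ?_, ?_⟩
  · simpa [p.tsA e he a ha, h1] using (hv e).symm
  · simpa [p.tsA z hz a ha, h2] using (hv z).symm

theorem TsPair.E_stab (p : h.TsPair A B) {a b : V} (ha : a ∈ A) (hb : b ∈ B) (hab : h b a = 0) :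
    h.Ok a b 0 ∧ PairStab A B (h.E a b 0) := by
  have o : h.Ok a b 0 := ⟨p.tsA a ha a ha, hab, by simp [p.tsB b hb b hb]⟩
  refine ⟨o, Or.inl fun x hx => ?_, Or.inr fun x hx => ?_⟩
  · rw [E_apply_of_perp_left o (p.tsA x hx a ha)]; exact A.sub_mem hx (A.smul_mem _ ha)
  · rw [E_apply o, p.tsB x hx b hb]; simpa using B.add_mem hx (B.smul_mem _ hb)

theorem TsPair.exists_swap (p : h.TsPair A B) :
    ∃ s ∈ h.SU, (∀ x ∈ A, s x ∈ B) ∧ ∀ x ∈ B, s x ∈ A := by
  have hc : IsCompl A B := ⟨Submodule.disjoint_def.2 fun x h1 h2 => p.disj h1 h2, by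
    rw [codisjoint_iff, Submodule.eq_top_iff']
    intro x
    obtain ⟨a, ha, b, hb, rfl⟩ := p.dec x
    exact Submodule.add_mem_sup ha hb⟩
  let a := Module.finBasis F A
  choose b hb using fun j => h.riesz ((a.coord j) ∘ₗ (A.projectionOnto B hc))
  have hbB : ∀ j, b j ∈ B := fun j => p.symm.mem_of_perp fun y hy => by
    rw [← hb]; simp [Submodule.projectionOnto_apply_of_mem_right hc hy]
  have hab : ∀ i j, h (a i) (b j) = if i = j then 1 else 0 := fun i j => by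
    rw [← hb]; simp [Finsupp.single_apply]
  have hba : ∀ i j, h (b i) (a j) = if i = j then 1 else 0 := fun i j => by
    rw [← h.conj, hab]; split_ifs with h1 h2 h2 <;> simp_all
  have haa : ∀ i j, h (a i) (a j) = 0 := fun i j => p.tsA _ (a i).2 _ (a j).2
  have hbb : ∀ i j, h (b i) (b j) = 0 := fun i j => p.tsB _ (hbB i) _ (hbB j)
  have hA : ∀ x ∈ A, x = ∑ i, h x (b i) • (a i : V) := fun x hx => by
    have := congrArg (fun z : A => (z : V)) (a.sum_repr ⟨x, hx⟩)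
    simp only [AddSubmonoidClass.coe_finset_sum, SetLike.val_smul] at this
    conv_lhs => rw [← this]
    refine Finset.sum_congr rfl fun i _ => ?_
    rw [← hb]
    simp [Submodule.projectionOnto_apply_of_mem_left hc hx]
  have hext : ∀ x, (∀ i, h x (a i) = 0) → (∀ i, h x (b i) = 0) → x = 0 := by
    intro x h1 h2
    have : x ∈ A := p.mem_of_perp fun y hy => by
      rw [hA y hy, sum_left]; simp [symm0 (h1 _)]
    rw [hA x this]; simp [h2]
  let s₀ : V →ₗ[F] V := ∑ i, ((h.lin (b i)).smulRight (b i) + (h.lin (a i)).smulRight (a i : V))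
  have hs₀ : ∀ x, s₀ x = ∑ i, h x (b i) • b i + ∑ i, h x (a i) • (a i : V) := fun x => by
    simp [s₀, Finset.sum_add_distrib]
  have h1 : ∀ x j, h (s₀ x) (a j) = h x (b j) := fun x j => by
    simp [hs₀, sum_left, haa, hba]
  have h2 : ∀ x j, h (s₀ x) (b j) = h x (a j) := fun x j => by
    simp [hs₀, sum_left, hbb, hab]
  have hinv : Function.Involutive s₀ := fun x => by
    apply sub_eq_zero.1
    apply hext <;> intro i <;> simp [h1, h2]
  have hform : ∀ x y, h x y = ∑ i, h x (b i) * h (a i) y + ∑ i, h x (a i) * h (b i) y := by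
    intro x y
    have : x = ∑ i, h x (b i) • (a i : V) + ∑ i, h x (a i) • b i := by
      apply sub_eq_zero.1
      apply hext <;> intro i <;> simp [sum_left, haa, hba, hab, hbb]
    conv_lhs => rw [this]
    simp [sum_left]
  let s := LinearEquiv.ofInvolutive s₀ hinv
  have hs : ∀ x, s x = s₀ x := fun x => rfl
  have hsG : s ∈ h.GU := fun x y => by
    rw [hs, hs, hform, hform x y, add_comm]
    congr 1 <;> refine Finset.sum_congr rfl fun i _ => ?_
    · rw [h1, ← h.conj (s₀ y), h2, conj]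
    · rw [h2, ← h.conj (s₀ y), h1, conj]
  obtain ⟨m, hm, hm'⟩ := exists_div_star (norm_one_star (det_norm hsG))
  let i₀ : Fin (finrank F A) := ⟨0, by have := p.rkA; omega⟩
  have h3 : h (a i₀) (b i₀) = 1 := by simp [hab]
  refine ⟨s * h.D (a i₀) (b i₀) m, mem_SU.2 ⟨h.GU.mul_mem hsG (D_mem_GU (haa _ _) (hbb _ _) h3 hm), ?_⟩,
    fun x hx => ?_, fun x hx => ?_⟩
  · rw [det_mul', det_D (haa _ _) (hbb _ _) h3 hm, hm', det_norm hsG]
  · have h4 : ∀ y ∈ A, s y ∈ B := fun y hy => by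
      rw [hs, hs₀]
      simp only [p.tsA y hy _ (a _).2, zero_smul, Finset.sum_const_zero, add_zero]
      exact B.sum_mem fun i _ => B.smul_mem _ (hbB i)
    rw [mul_app, D_apply (haa _ _) (hbb _ _) h3 hm, p.tsA x hx _ (a i₀).2]
    exact h4 _ (by simpa using A.add_mem hx (A.smul_mem _ (a i₀).2))
  · have h4 : ∀ y ∈ B, s y ∈ A := fun y hy => by
      rw [hs, hs₀]
      simp only [p.tsB y hy _ (hbB _), zero_smul, Finset.sum_const_zero, zero_add]
      exact A.sum_mem fun i _ => A.smul_mem _ (a i).2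
    rw [mul_app, D_apply (haa _ _) (hbb _ _) h3 hm, p.tsB x hx _ (hbB i₀)]
    exact h4 _ (by simpa using B.add_mem hx (B.smul_mem _ (hbB i₀)))

theorem TsPair.SU_le_of_X (p : h.TsPair A B) (hM : M ≤ h.SU)
    (hH : ∀ g ∈ h.SU, PairStab A B g → g ∈ M) {e : V} (he : e ∈ A) (he0 : e ≠ 0)
    (hX : h.XIn M e) : h.SU ≤ M := by
  have hee := p.tsA e he e he
  have hXA : ∀ a ∈ A, h.XIn M a := by
    intro a ha
    by_cases h1 : ∃ c : F, a = c • e
    · obtain ⟨c, rfl⟩ := h1; exact hX.smul hee c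
    push Not at h1
    obtain ⟨w, hw, h2, h3⟩ := p.exists_sep (A.sub_mem he ha) he (fun c hc => by
      by_cases hc0 : c = 0
      · exact he0 (by simpa [hc0] using hc)
      · apply h1 (c⁻¹ * (c - 1))
        rw [← inv_smul_smul₀ hc0 a, mul_smul]
        congr 1
        linear_combination (norm := module) hc)
    obtain ⟨o, ho⟩ := p.E_stab (A.sub_mem he ha) hw (symm0 h2)
    have := hX.map hM hee (hH _ (E_mem_SU _ _ _) ho)
    rwa [E_apply_of_perp_left o (p.tsA e he _ (A.sub_mem he ha)), h3, one_smul,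
      sub_sub_cancel] at this
  have hQ : ∀ a ∈ A, h.QIn M ⊤ a := by
    intro a ha
    have haa := p.tsA a ha a ha
    refine qIn_of_ME haa (hXA a ha) fun w _ hwa => ?_
    obtain ⟨x, hx, y, hy, rfl⟩ := p.dec w
    have hxa := p.tsA x hx a ha
    have hya : h y a = 0 := by simpa [hxa] using hwa
    refine AddSubgroup.add_mem _ ?_ ⟨0, (p.E_stab ha hy hya).1,
      hH _ (E_mem_SU _ _ _) (p.E_stab ha hy hya).2⟩
    have hx' := A.smul_mem (del F)⁻¹ hx
    have := smul_mem_ME_of_X haa (p.tsA _ hx' _ hx') (p.tsA _ hx' _ ha) del_tr (hXA a ha)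
      (hXA _ hx') (hXA _ (A.add_mem ha hx'))
    rwa [smul_smul, mul_inv_cancel₀ del_ne, one_smul] at this
  obtain ⟨s, hs, hs1, hs2⟩ := p.exists_swap
  have hsM := hH s hs ⟨Or.inr hs1, Or.inl hs2⟩
  have hse : s e ≠ 0 := by simpa using he0
  obtain ⟨a, ha, hae⟩ : ∃ a ∈ A, h a (s e) ≠ 0 := by
    by_contra! h'; exact hse (p.symm.eq_zero (hs1 e he) h')
  exact SU_le_of_two hM (p.tsA a ha a ha) (p.tsB _ (hs1 e he) _ (hs1 e he)) hae (hQ a ha)
    ((hQ e he).map_top hM hsM)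

theorem TsPair.X_of_E (p : h.TsPair A B) (hM : M ≤ h.SU)
    (hH : ∀ g ∈ h.SU, PairStab A B g → g ∈ M) {a₀ a₁ b₀ b₁ e : V} (ha₀ : a₀ ∈ A) (ha₁ : a₁ ∈ B)
    (hb₀ : b₀ ∈ A) (hb₁ : b₁ ∈ B) (ha0 : a₀ ≠ 0) (hb0 : b₀ ≠ 0)
    (hE : ∀ m : F, h.Ok (a₀ + a₁) (m • (b₀ + b₁)) 0 ∧ h.E (a₀ + a₁) (m • (b₀ + b₁)) 0 ∈ M)
    (he : e ∈ A) (hea : h e a₁ = 0) (heb : h e b₁ = 0)
    (hne : (∀ c : F, a₀ ≠ c • e) ∨ (∀ c : F, b₀ ≠ c • e)) : h.XIn M e := by
  have hee := p.tsA e he e he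
  obtain ⟨w, hw, hwe, m, hz⟩ : ∃ w ∈ B, h w e = 0 ∧ ∃ m : F,
      (m * h w a₀) • b₀ - (star m * h w b₀) • a₀ ≠ 0 := by
    by_contra! h'
    obtain ⟨θ, hθ⟩ := NStar.exists_ne (F := F)
    have h1 : ∀ w ∈ B, h w e = 0 → h w a₀ = 0 ∧ h w b₀ = 0 := by
      intro w hw hwe
      have h2 := h' w hw hwe 1
      have h3 := h' w hw hwe θ
      have h4 : ((star θ - θ) * h w b₀) • a₀ = 0 := by
        simp only [star_one, one_mul] at h2
        linear_combination (norm := module) θ • h2 - h3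
      have h5 : h w b₀ = 0 := by simpa [ha0, sub_ne_zero.2 hθ] using h4
      refine ⟨?_, h5⟩
      simpa [h5, hb0] using h2
    rcases hne with hne | hne
    · obtain ⟨w, hw, h2, h3⟩ := p.exists_sep he ha₀ hne
      simp [symm0 (h1 w hw (symm0 h2)).1] at h3
    · obtain ⟨w, hw, h2, h3⟩ := p.exists_sep he hb₀ hne
      simp [symm0 (h1 w hw (symm0 h2)).2] at h3
  set z := (m * h w a₀) • b₀ - (star m * h w b₀) • a₀ with hzdef
  set z' := (m * h w a₀) • b₁ - (star m * h w b₀) • a₁ with hz'def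
  have hzA : z ∈ A := A.sub_mem (A.smul_mem _ hb₀) (A.smul_mem _ ha₀)
  have hz'B : z' ∈ B := B.sub_mem (B.smul_mem _ hb₁) (B.smul_mem _ ha₁)
  have hz'e : h z' e = 0 := by simp [hz'def, symm0 hea, symm0 heb]
  obtain ⟨o, hy⟩ := hE m
  have hye : h.E (a₀ + a₁) (m • (b₀ + b₁)) 0 e = e :=
    E_apply_of_perp (by simp [hea, p.tsA e he a₀ ha₀]) (by simp [heb, p.tsA e he b₀ hb₀])
  have key : ∀ l : F, h.E e (l • z) (-h (l • z) (l • (w + z'))) ∈ M ∧
      h.Ok e (l • z) (-h (l • z) (l • (w + z'))) := by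
    intro l
    obtain ⟨o₁, h₁⟩ := p.E_stab he (B.smul_mem l hw) (by simp [hwe])
    obtain ⟨o₂, h₂⟩ := p.E_stab he (B.neg_mem (B.smul_mem l (B.add_mem hw hz'B))) (by simp [hwe, hz'e])
    have h3 := conj_E (hM hy).1 o₁
    have o₃ := o₁.map (hM hy).1
    have h4 : h.E (a₀ + a₁) (m • (b₀ + b₁)) 0 (l • w) = l • (w + z') + l • z := by
      rw [map_smul, E_apply o]
      simp only [add_right, smul_right, p.tsB w hw a₁ ha₁, p.tsB w hw b₁ hb₁, hzdef, hz'def]
      module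
    rw [hye, h4] at h3 o₃
    have h5 := M.mul_mem (hH _ (E_mem_SU _ _ _) h₂)
      (h3 ▸ M.mul_mem (M.mul_mem hy (hH _ (E_mem_SU _ _ _) h₁)) (M.inv_mem hy))
    have o₄ := o₂.add o₃
    rw [E_mul o₂ o₃] at h5
    have h6 : -(l • (w + z')) + (l • (w + z') + l • z) = l • z := by abel
    have h7 : 0 + 0 + h (l • (w + z') + l • z) (-(l • (w + z'))) = -h (l • z) (l • (w + z')) := by
      have := p.tsB _ (B.smul_mem l (B.add_mem hw hz'B)) _ (B.smul_mem l (B.add_mem hw hz'B))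
      rw [neg_right, add_left, this]; ring
    rw [h6, h7] at h5 o₄
    exact ⟨h5, o₄⟩
  intro c hc
  obtain ⟨θ, hθ⟩ := exists_tr_one F
  have hc' : star c = -c := by linear_combination hc
  by_cases h1 : ∃ d : F, z = d • e
  · obtain ⟨d, hd⟩ := h1
    have hd0 : d ≠ 0 := by rintro rfl; exact hz (by simpa using hd)
    have h2 := (key (c * θ / d)).1
    have h3 : h ((c * θ / d) • z) ((c * θ / d) • (w + z')) = 0 := by
      simp [hd, symm0 hwe, symm0 hz'e]
    rw [h3, hd, smul_smul, div_mul_cancel₀ _ hd0, E_smul_self hee _ (by simp)] at h2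
    convert h2 using 2
    rw [star_mul', hc']; linear_combination -c * hθ
  · push Not at h1
    obtain ⟨w', hw', h2, h3⟩ := p.exists_sep he hzA h1
    have h4 := T_mem_of_ME (he := hee) (w := (c * θ) • z) (w' := w') ⟨_, (key _).2, (key _).1⟩
      ⟨0, (p.E_stab he hw' (symm0 h2)).1, hH _ (E_mem_SU _ _ _) (p.E_stab he hw' (symm0 h2)).2⟩
    convert h4 using 2
    simp [h3, symm1 h3, hc']; linear_combination -c * hθ

theorem TsPair.SU_le_of_E (p : h.TsPair A B) (hM : M ≤ h.SU)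
    (hH : ∀ g ∈ h.SU, PairStab A B g → g ∈ M) {a₀ a₁ b₀ b₁ : V} (ha₀ : a₀ ∈ A) (ha₁ : a₁ ∈ B)
    (hb₀ : b₀ ∈ A) (hb₁ : b₁ ∈ B) (ha0 : a₀ ≠ 0) (hb0 : b₀ ≠ 0)
    (hE : ∀ m : F, h.Ok (a₀ + a₁) (m • (b₀ + b₁)) 0 ∧ h.E (a₀ + a₁) (m • (b₀ + b₁)) 0 ∈ M) :
    h.SU ≤ M := by
  by_cases h1 : ∃ v : V, ∃ c d : F, a₁ = c • v ∧ b₁ = d • v
  · obtain ⟨v, c, d, rfl, rfl⟩ := h1
    obtain ⟨e, he, he'⟩ := exists_not_mem_one (K := A ⊓ h.pv v) (by
      have := finrank_inf_pv (h := h) A v; have := p.rkA; omega) a₀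
    have hev : h e v = 0 := he.2
    refine p.SU_le_of_X hM hH he.1 (by simpa using he' 0) (p.X_of_E hM hH ha₀ ha₁ hb₀ hb₁ ha0 hb0 hE
      he.1 (by simp [hev]) (by simp [hev]) (Or.inl fun c hc => ?_))
    have hc0 : c ≠ 0 := by rintro rfl; exact ha0 (by simpa using hc)
    exact he' c⁻¹ (by rw [hc, inv_smul_smul₀ hc0])
  · push Not at h1
    obtain ⟨e, he, he0, he'⟩ := exists_ne_perp (h := h) B [a₀, b₀] (by simpa using p.rkB)
    refine p.symm.SU_le_of_X hM (fun g hg hg' => hH g hg hg'.symm) he he0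
      (p.symm.X_of_E hM (fun g hg hg' => hH g hg hg'.symm) ha₁ ha₀ hb₁ hb₀ ?_ ?_
        (by simpa [add_comm] using hE) he (he' _ (by simp)) (he' _ (by simp)) ?_)
    · rintro rfl; exact h1 b₁ 0 1 (by simp) (by simp)
    · rintro rfl; exact h1 a₁ 1 0 (by simp) (by simp)
    · by_contra! h2
      obtain ⟨⟨c, hc⟩, d, hd⟩ := h2
      exact h1 e c d hc hd

omit [StarRing F] [NStar F] [Finite F] [FiniteDimensional F V] in
theorem le_or_le_of_union {C : Submodule F V} {g : V ≃ₗ[F] V} (hC : ∀ x ∈ C, g x ∈ A ∨ g x ∈ B) :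
    (∀ x ∈ C, g x ∈ A) ∨ (∀ x ∈ C, g x ∈ B) := by
  by_contra! h'
  obtain ⟨⟨x, hx, hxA⟩, y, hy, hyB⟩ := h'
  have h1 := (hC x hx).resolve_left hxA
  have h2 := (hC y hy).resolve_right hyB
  rcases hC _ (C.add_mem hx hy) with h3 | h3
  · exact hxA (by simpa using A.sub_mem h3 h2)
  · exact hyB (by simpa using B.sub_mem h3 h1)

theorem TsPair.core (p : h.TsPair A B) (hM : M ≤ h.SU)
    (hH : ∀ g ∈ h.SU, PairStab A B g → g ∈ M) (hg : ∃ g ∈ M, ¬ PairStab A B g) : h.SU ≤ M := by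
  obtain ⟨g, hgM, hg⟩ := hg
  have hg1 := (hM hgM).1
  by_contra hne
  have key : ∀ a ∈ A, ∀ b ∈ B, a ≠ 0 → b ≠ 0 → h b a = 0 →
      (g a ∈ A ∨ g a ∈ B) ∧ (g b ∈ A ∨ g b ∈ B) := by
    intro a ha b hb ha0 hb0 hba
    obtain ⟨a₀, ha₀, a₁, ha₁, hga⟩ := p.dec (g a)
    obtain ⟨b₀, hb₀, b₁, hb₁, hgb⟩ := p.dec (g b)
    have hE : ∀ m : F, h.Ok (a₀ + a₁) (m • (b₀ + b₁)) 0 ∧ h.E (a₀ + a₁) (m • (b₀ + b₁)) 0 ∈ M := by
      intro m
      obtain ⟨o, ho⟩ := p.E_stab ha (B.smul_mem m hb) (by simp [hba])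
      have h1 := o.map hg1
      have h2 := conj_E hg1 o
      rw [map_smul, hga, hgb] at h1 h2
      exact ⟨h1, h2 ▸ M.mul_mem (M.mul_mem hgM (hH _ (E_mem_SU _ _ _) ho)) (M.inv_mem hgM)⟩
    have h1 : a₀ = 0 ∨ b₀ = 0 := by
      by_contra! h'
      exact hne (p.SU_le_of_E hM hH ha₀ ha₁ hb₀ hb₁ h'.1 h'.2 hE)
    have h2 : a₁ = 0 ∨ b₁ = 0 := by
      by_contra! h'
      exact hne (p.symm.SU_le_of_E hM (fun g hg hg' => hH g hg hg'.symm) ha₁ ha₀ hb₁ hb₀ h'.1 h'.2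
        (by simpa [add_comm] using hE))
    have h3 : g a ≠ 0 := by simpa using ha0
    have h4 : g b ≠ 0 := by simpa using hb0
    rw [hga] at h3 ⊢
    rw [hgb] at h4 ⊢
    rcases h1 with rfl | rfl <;> rcases h2 with rfl | rfl <;> simp_all
  apply hg
  constructor
  · refine le_or_le_of_union fun a ha => ?_
    by_cases ha0 : a = 0
    · simp [ha0]
    obtain ⟨b, hb, hb0, hba⟩ := exists_ne_perp (h := h) B [a] (by have := p.rkB; simp; omega)
    exact (key a ha b hb ha0 hb0 (hba a (by simp))).1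
  · refine le_or_le_of_union fun b hb => ?_
    by_cases hb0 : b = 0
    · simp [hb0]
    obtain ⟨a, ha, ha0, hab⟩ := exists_ne_perp (h := h) A [b] (by have := p.rkA; simp; omega)
    exact (key a ha b hb ha0 hb0 (symm0 (hab b (by simp)))).2

theorem TsPair.ne (p : h.TsPair A B) : ∃ g ∈ h.SU, ¬ PairStab A B g := by
  obtain ⟨a, ha, ha0⟩ := exists_ne_zero_of_finrank (K := A) (by have := p.rkA; omega)
  obtain ⟨b, hb, -, hab⟩ := p.exists_sep A.zero_mem ha (by simpa using ha0)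
  have hbb := p.tsB b hb b hb
  refine ⟨h.T b (del F), T_mem_SU _ _, fun hg => ?_⟩
  rcases hg.1 with h1 | h1
  · have := p.tsA a ha _ (h1 a ha)
    rw [T_apply hbb del_tr] at this
    simp [p.tsA a ha a ha, hab, del_ne] at this
  · have := p.tsB _ (h1 a ha) b hb
    rw [T_apply hbb del_tr] at this
    simp [hbb, hab] at this

end HF

theorem pair_maximal {F : Type*} [Field F] [Fintype F] (n q : ℕ) (hF : Fintype.card F = q ^ 2)
    (k : ℕ) (hk : 3 ≤ k) (D : Fin 2 → Submodule F (Fin n → F)) (hD : Geo.IsMDecomposition k D)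
    (hts : ∀ i, Geo.IsTotallySingularFor (hermForm n F q) (D i)) :
    Geo.IsMaximalIn (GU n F q ⊓ Geo.specialLinear (Fin n) F)
      (Geo.decompositionStabilizer D ⊓ (GU n F q ⊓ Geo.specialLinear (Fin n) F)) := by
  letI := powStar hF
  haveI := powStar_nstar hF
  have p : (stdHF (Fin n) F).TsPair (D 0) (D 1) := by
    refine ⟨hts 0, hts 1, fun x => ?_, by rw [hD.finrank_eq]; exact hk, by rw [hD.finrank_eq]; exact hk⟩
    have : x ∈ D 0 ⊔ D 1 := by
      have h1 := hD.iSup_eq_top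
      have h2 : iSup D ≤ D 0 ⊔ D 1 := iSup_le fun i => by fin_cases i <;> simp
      exact h2 (h1 ▸ trivial)
    obtain ⟨a, ha, b, hb, rfl⟩ := Submodule.mem_sup.1 this
    exact ⟨a, ha, b, hb, rfl⟩
  exact isMaximalIn_of_core (LinearEquiv.refl F _) (stdHF (Fin n) F) _ _ (mem_GU_iff hF n)
    (HF.PairStab (D 0) (D 1)) (fun g _ => by
      rw [mem_decompositionStabilizer' hD]; simp [HF.PairStab, Fin.forall_fin_two, Fin.exists_fin_two])
    p.ne fun M hM hH hg => p.core hM hH hg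

end Cfsg.Agent.H5.U
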