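import Cfsg.Agent.H5.U.Sub2

/-! Subfield subgroups of six-dimensional unitary groups. -/

set_option autoImplicit false
set_option linter.unusedSimpArgs false
set_option linter.unusedSectionVars false
set_option linter.unusedVariables false

namespace Cfsg.Agent.H5.U

open Module H6

section Orth

variable {F : Type*} {V : Type*} [Field F] [StarRing F] [AddCommGroup V] [Module F V]
  [NStar F] [Finite F] [FiniteDimensional F V]

namespace HF

variable {h : HF F V} {M : Subgroup (V ≃ₗ[F] V)} {cj : V →+ V}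

theorem Conj.T_eq_zero (c : h.Conj 1 cj) (h2 : (2 : F) ≠ 0) (h5 : 5 ≤ finrank F V)
    (hM : M ≤ h.SU) (hH : ∀ g ∈ h.SU, ConjStab cj g → g ∈ M) (hne : ¬ h.SU ≤ M) {e f : V}
    (he : cj e = e) (hf : cj f = f) (hee : h e e = 0) (hff : h f f = 0) (hef : h e f = 1) {d : F}
    (hd : d + star d = 0) (hT : h.T e d ∈ M) : d = 0 := by
  by_contra h0
  have hsq : ∀ x : F0 F, h.T e ((x : F) ^ 2 * d) ∈ M := fun x => by
    by_cases hx : (x : F) = 0
    · simpa [hx, T_zero] using M.one_mem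
    have hD : h.D e f x ∈ M := hH _ (mem_SU.2 ⟨D_mem_GU hee hff hef hx, by
      rw [det_D hee hff hef hx, star_F0, mul_inv_cancel₀ hx]⟩) ⟨1, fun y hy => by
        rw [D_apply hee hff hef hx]
        simp [c.smul, he, hf, hy, c.star_rat hy he, c.star_rat hy hf]⟩
    have := M.mul_mem (M.mul_mem hD hT) (M.inv_mem hD)
    rw [conj_T (hM hD).1 hee hd, D_apply hee hff hef hx] at this
    simp only [hee, hef, mul_zero, zero_smul, add_zero, mul_one, sub_smul, one_smul,
      add_sub_cancel] at this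
    rwa [T_smul hee hd, star_F0, ← sq] at this
  refine hne (c.SU_le_of_X h2 h5 hM hH he (ne_zero_left (h := h) (hef ▸ one_ne_zero)) hee
    fun d' hd' => ?_)
  obtain ⟨x, y, hxy⟩ := exists_sq_add_sq (F0 F) 1 1 (-⟨d' / d, by
    rw [mem_F0, star_div₀, eq_neg_of_add_eq_zero_right hd, eq_neg_of_add_eq_zero_right hd']
    simp [neg_div_neg_eq]⟩) one_ne_zero one_ne_zero
  have h1 := congrArg (fun z : F0 F => (z : F)) hxy
  simp at h1
  have htr : ∀ x : F0 F, (x : F) ^ 2 * d + star ((x : F) ^ 2 * d) = 0 := fun x => by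
    rw [star_mul', star_pow, star_F0]; linear_combination (x : F) ^ 2 * hd
  have := M.mul_mem (hsq x) (hsq y)
  rw [T_mul hee (htr x) (htr y)] at this
  convert this using 2
  field_simp at h1
  linear_combination -h1

theorem E_eq_mul_T' {e t v : V} {d c a : F} (o : h.Ok e t d) (o' : h.Ok e v c)
    (ht : t = v + a • e) : ∃ d', d' + star d' = 0 ∧ h.E e t d = h.E e v c * h.T e d' := by
  have h1 : c + a - star a - d + star (c + a - star a - d) = 0 := by
    have h2 := o.tr
    simp only [ht, add_left, add_right, smul_left, smul_right, o'.we, o'.ew, o.ee] at h2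
    simp only [star_sub, star_add, star_star]
    linear_combination o'.tr - h2
  refine ⟨_, h1, LinearEquiv.ext fun x => ?_⟩
  rw [mul_app, T_apply o.ee h1, E_apply o, E_apply o', ht]
  simp only [add_left, add_right, smul_left, smul_right, o'.we, o'.ew, o.ee]
  module

theorem Conj.rat_of_fix (c : h.Conj 1 cj) (h2 : (2 : F) ≠ 0) (h5 : 5 ≤ finrank F V)
    (hM : M ≤ h.SU) (hH : ∀ g ∈ h.SU, ConjStab cj g → g ∈ M) (hne : ¬ h.SU ≤ M) {e : V}
    (he : cj e = e) (he0 : e ≠ 0) (hee : h e e = 0) {y : V ≃ₗ[F] V} (hy : y ∈ M) (hye : y e = e) :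
    ∀ x, cj x = x → cj (y x) = y x := by
  obtain ⟨y₁, hy₁⟩ := h.exists_ne he0
  obtain ⟨y₁, -, hy₁, hy₁e⟩ := c.exists_rat_ne (U := ⊤) (fun _ _ => trivial) (φ := h.lin e)
    (y := y₁) trivial hy₁
  obtain ⟨f, -, hf, hff, hef, -⟩ := c.exists_rat_partner h2 (U := ⊤) trivial trivial
      he hy₁ hee hy₁e
  have hfe := symm1 hef
  have hME : ∀ v, cj v = v → h v e = 0 → v ∈ h.ME M e hee := fun v hv hve =>
    ⟨_, (c.E_stab h2 he hv hee hve).1, hH _ (E_mem_SU _ _ _) (c.E_stab h2 he hv hee hve).2⟩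
  have key : ∀ t ∈ h.ME M e hee, cj (t - h t f • e) = t - h t f • e := by
    intro t ht
    have hte := ME_perp ht
    by_contra h0
    obtain ⟨z, hz⟩ := h.exists_ne (sub_ne_zero.2 h0)
    obtain ⟨z, -, hz, hz'⟩ := c.exists_rat_ne (U := ⊤) (fun _ _ => trivial) (φ := h.lin _)
      (y := z) trivial hz
    have h1 := c.T_eq_zero h2 h5 hM hH hne he hf hee hff hef (by simp)
      (T_mem_of_ME ht (hME (z - h z e • f) (by simp [c.smul, hz, hf, c.star_rat hz he])
        (by simp [hfe])))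
    apply hz'
    rw [lin_apply, sub_right, ← h.conj (cj _), c.left, hz, one_mul, h.conj]
    simp only [sub_left, sub_right, smul_left, smul_right, conj, c.star_rat hz he, star_mul',
      star_one, star_sub, hte, symm0 hte, hef, hfe, hff] at h1 ⊢
    linear_combination h1
  have hy1 := (hM hy).1
  have h1 : h f e = h (y f) e := by conv_rhs => rw [← hye, hy1]
  obtain ⟨o, ho⟩ := E_trans hee (x := f) (y := y f) (by rw [hy1]) h1 (by simp [hfe])
  generalize (h f e)⁻¹ • (y f - f) = t at o ho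
  generalize -(h f e)⁻¹ * star (h f e)⁻¹ * (h f (y f) - h f f) = d at o ho
  have hk : (h.E e t d)⁻¹ * y ∈ h.SU := h.SU.mul_mem (h.SU.inv_mem (E_mem_SU _ _ _)) (hM hy)
  have k1 : ((h.E e t d)⁻¹ * y) e = e := by
    rw [mul_app, hye]; apply (h.E e t d).injective; rw [apply_inv_apply, E_self o]
  have k2 : ((h.E e t d)⁻¹ * y) f = f := by rw [mul_app, ← ho, inv_apply_apply]
  have k3 : ∀ x, cj x = x → cj (((h.E e t d)⁻¹ * y) x) = ((h.E e t d)⁻¹ * y) x := by
    intro x hx
    set z := x - h x f • e - h x e • f with hz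
    have z1 : cj z = z := by simp [hz, c.smul, hx, he, hf, c.star_rat hx he, c.star_rat hx hf]
    have z2 : h z e = 0 := by simp [hz, hee, hfe]
    have z3 : h z f = 0 := by simp [hz, hff, hef]
    have z4 := ME_map hM (hME z z1 z2) hy hye
    have z5 : ((h.E e t d)⁻¹ * y) z = y z - h (y z) f • e := by
      have e1 := hk.1 z f
      rw [k2, z3] at e1
      rw [mul_app, E_inv o, E_apply_of_perp_left o.neg (ME_perp z4)] at e1 ⊢
      simp only [sub_left, smul_left, hef, mul_one] at e1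
      rw [sub_eq_zero.1 e1]
    have z6 : x = z + h x f • e + h x e • f := by rw [hz]; abel
    have z7 : ((h.E e t d)⁻¹ * y) x = y z - h (y z) f • e + h x f • e + h x e • f := by
      conv_lhs => rw [z6]
      rw [map_add, map_add, map_smul, map_smul, k1, k2, z5]
    rw [z7, map_add, map_add, key _ z4]
    simp [c.smul, he, hf, c.star_rat hx he, c.star_rat hx hf]
  have hE : h.E e t d ∈ M := by
    simpa using M.mul_mem hy (M.inv_mem (hH _ hk ⟨1, by simpa only [one_smul] using k3⟩))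
  have h3 := key t ⟨d, o, hE⟩
  have h4 : h (t - h t f • e) e = 0 := by simp [o.we, hee]
  obtain ⟨o', ho'⟩ := c.E_stab h2 he h3 hee h4
  obtain ⟨d', hd', h6⟩ := E_eq_mul_T' o o' (a := h t f) (by abel)
  generalize t - h t f • e = v at h3 h4 o' ho' h6
  have h7 := c.T_eq_zero h2 h5 hM hH hne he hf hee hff hef hd'
    ((M.mul_mem_cancel_left (hH _ (E_mem_SU _ _ _) ho')).1 (h6 ▸ hE))
  intro x hx
  rw [show y = h.E e t d * ((h.E e t d)⁻¹ * y) by simp, mul_app, h6, h7, T_zero, mul_one,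
    E_apply o']
  have k4 := k3 x hx
  rw [h6, h7, T_zero, mul_one] at k4
  generalize ((h.E e v (h v v / 2))⁻¹ * y) x = x' at k4
  simp [c.smul, he, h3, k4, c.star_rat k4 he, c.star_rat k4 h3]

theorem Conj.o_core₆ (c : h.Conj 1 cj) (h2 : (2 : F) ≠ 0) (h6 : 6 ≤ finrank F V) (hM : M ≤ h.SU)
    (hH : ∀ g ∈ h.SU, ConjStab cj g → g ∈ M) (hg : ∃ g ∈ M, ¬ ConjStab cj g) : h.SU ≤ M := by
  by_contra hne
  obtain ⟨g, hgM, hg⟩ := hg
  have hg1 := (hM hgM).1
  obtain ⟨a, ha, haa, hga⟩ := c.exists_irrat h2 (by omega) hg1 hg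
  set u := g a with hu
  obtain ⟨e, he1, he, he0, hee⟩ := c.exists_rat_iso (c.inv_pv₂ (U := ⊤) (fun _ _ => trivial) u) (by
    have := finrank_inf_pv₂ (h := h) ⊤ u (cj u)
    simp only [finrank_top] at *; omega)
  have heu : h e u = 0 := he1.1.2
  obtain ⟨w, hw1, hw, hwS⟩ := c.exists_rat_not_mem (c.inv_pv₂ (c.pv_inv ha) (g⁻¹ e))
    (S := (Submodule.span F {u, cj u}).map ((g⁻¹ : V ≃ₗ[F] V) : V →ₗ[F] V)) (fun h' => by
      have := Submodule.finrank_mono h'
      rw [LinearEquiv.finrank_map_eq] at this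
      have := finrank_inf_pv₂ (h := h) (h.pv a) (g⁻¹ e) (cj (g⁻¹ e))
      have := finrank_pv (h := h) a
      have := finrank_span_pair_le (F := F) u (cj u)
      omega)
  have hwa : h w a = 0 := hw1.1.1
  have hwe : h (g w) e = 0 := by rw [GU_left hg1]; exact hw1.1.2
  have hwS' : g w ∉ Submodule.span F {u, cj u} := fun h' => hwS ⟨g w, h', by simp⟩
  obtain ⟨o, ho⟩ := c.E_stab h2 ha hw haa hwa
  have h3 := M.mul_mem (M.mul_mem hgM (hH _ (E_mem_SU _ _ _) ho)) (M.inv_mem hgM)
  rw [conj_E hg1 o] at h3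
  have o' := o.map hg1
  have h4 := c.rat_of_fix h2 (by omega) hM hH hne he he0 hee h3 (E_apply_of_perp heu (symm0 hwe))
  obtain ⟨x, hx1, hx2⟩ := exists_dual_pair' (h := h) (x := u) (w := g w) (fun s hs =>
    hwS' (Submodule.mem_span_pair.2 ⟨s, 0, by simp [hs]⟩)) (-1)
  let A : Submodule F V :=
    { carrier := {x | cj (h.E u (g w) (h w w / 2) x - x) ∈ Submodule.span F {u, g w}}
      add_mem' := fun {x y} hx hy => by
        simp only [Set.mem_setOf_eq, map_add, map_sub] at *
        convert Submodule.add_mem _ hx hy using 1; abel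
      zero_mem' := by simp
      smul_mem' := fun s x hx => by
        simp only [Set.mem_setOf_eq] at *
        rw [map_smul, ← smul_sub, c.smul]; exact Submodule.smul_mem _ _ hx }
  have hA : ∀ x, x ∈ A ↔ cj (h.E u (g w) (h w w / 2) x - x) ∈ Submodule.span F {u, g w} :=
    fun _ => Iff.rfl
  have h7 : x ∈ A := by
    by_contra h7
    obtain ⟨z, -, hz, hz'⟩ := c.exists_rat_not_mem (U := ⊤) (S := A) (fun _ _ => trivial)
      fun h' => h7 (h' trivial)
    refine hz' ((hA _).2 ?_)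
    rw [map_sub, h4 z hz, hz, E_apply o']
    exact Submodule.mem_span_pair.2 ⟨-(h z (g w) + h w w / 2 * h z u), h z u, by module⟩
  obtain ⟨s, t, hst⟩ := Submodule.mem_span_pair.1 ((hA _).1 h7)
  have h8 : h x (g w) = -1 := by rw [← h.conj, hx2]; simp
  rw [E_apply_of_perp_left o' (symm0 hx1), h8] at hst
  simp only [neg_smul, one_smul, sub_neg_eq_add, add_sub_cancel_left, ← hu] at hst
  have ht : t ≠ 0 := by rintro rfl; exact hga s (by simpa using hst.symm)
  refine hwS' (Submodule.mem_span_pair.2 ⟨-(t⁻¹ * s), t⁻¹, ?_⟩)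
  rw [← hst]; match_scalars <;> field_simp <;> ring

end HF

end Orth

end Cfsg.Agent.H5.U
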