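import Cfsg.Agent.H5.U.Sub2

/-! Subfield subgroups of odd prime index in six-dimensional unitary groups. -/

set_option autoImplicit false
set_option linter.unusedSimpArgs false
set_option linter.unusedSectionVars false
set_option linter.unusedVariables false

namespace Cfsg.Agent.H5.U

open Module H6

theorem mem_bot_of_cube {k : Type*} [Field k] {K : Type*} [Field K] [Algebra k K]
    (hr : (finrank k K).Prime) (h4 : 4 ≤ finrank k K) {l : K} {a : k}
    (h : l * l * l = algebraMap k K a) : ∃ b : k, algebraMap k K b = l := by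
  haveI : FiniteDimensional k K := Module.finite_of_finrank_pos (by omega)
  have hi : IsIntegral k l := Algebra.IsIntegral.isIntegral l
  have h1 : (minpoly k l).natDegree ≤ 3 := by
    have h2 : (Polynomial.X ^ 3 - Polynomial.C a : Polynomial k).Monic :=
      Polynomial.monic_X_pow_sub_C a (by simp)
    have := minpoly.min k l h2 (by simp [← h]; ring)
    rw [Polynomial.degree_X_pow_sub_C (by simp)] at this
    exact Polynomial.natDegree_le_of_degree_le this
  rcases (Nat.dvd_prime hr).1 (minpoly.degree_dvd hi) with h2 | h2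
  · exact minpoly.natDegree_eq_one_iff.1 h2
  · omega

theorem dihedral_alt' {G : Type*} [Group G] [Finite G] {M : Subgroup G} {s t : G} (hs : s * s = 1)
    (ht : t * t = 1) (hsM : s ∈ M) (htM : t ∈ M) : (∃ x ∈ M, x * x = 1 ∧
      t = x * s * x⁻¹ ∧ ∃ y, x = y * s * y⁻¹ ∨ x = y * t * y⁻¹) ∨
      ∃ z ∈ Subgroup.closure {s, t}, z ∈ M ∧ z ≠ 1 ∧ z * z = 1 ∧ s * z = z * s ∧ t * z = z * t := by
  have h1 : s ∈ Subgroup.closure {s, t} := Subgroup.subset_closure (by simp)
  have h2 : t ∈ Subgroup.closure {s, t} := Subgroup.subset_closure (by simp)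
  rcases dihedral_cases s t with ⟨k, hk⟩ | ⟨l, hl1, hl2⟩
  · refine Or.inl ⟨s * (s * t) ^ k, M.mul_mem hsM (M.pow_mem (M.mul_mem hsM htM) k), ?_, ?_, ?_⟩
    · nth_rewrite 1 [dihedral_left hs ht]
      rw [mul_assoc, ← mul_assoc s s, hs, one_mul, inv_mul_cancel]
    · rw [dihedral_left hs ht]
      conv_lhs => rw [dihedral_odd hs ht hk]
      group
    · obtain ⟨l, hl⟩ := dihedral_conj hs ht k
      exact ⟨((s * t) ^ l)⁻¹, by simpa using hl⟩
  · have hi := inv_eq_of_mul_eq_one_right hl2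
    exact Or.inr ⟨_, Subgroup.pow_mem _ (Subgroup.mul_mem _ h1 h2) l, M.pow_mem (M.mul_mem hsM htM) l,
      hl1, hl2, by rw [dihedral_left hs ht, hi], by rw [dihedral_right hs ht, hi]⟩

variable {K : Type*} [Field K] [StarRing K] [NStar K] [Finite K]
  {F : Type*} [Field F] [StarRing F] [NStar F] [Finite F] [Algebra K F]
  {V₀ : Type*} [AddCommGroup V₀] [Module K V₀] [FiniteDimensional K V₀]
  {V : Type*} [AddCommGroup V] [Module F V] [Module K V] [IsScalarTower K F V]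
  [FiniteDimensional F V]

namespace HF

variable {h₀ : HF K V₀} {h : HF F V} {j : V₀ →ₗ[K] V} {M : Subgroup (V ≃ₗ[F] V)}

theorem PH.mul {x y : V ≃ₗ[F] V} (hx : PH F j x) (hy : PH F j y) : PH F j (x * y) := by
  obtain ⟨l, hl, hx⟩ := hx
  obtain ⟨m, hm, hy⟩ := hy
  refine ⟨l * m, mul_ne_zero hl hm, fun v => ?_⟩
  obtain ⟨w, hw⟩ := hy v
  obtain ⟨u, hu⟩ := hx w
  exact ⟨u, by rw [← hu, ← hw, map_smul, smul_smul, mul_app]⟩

theorem PH.inv {x : V ≃ₗ[F] V} (hx : PH F j x) : PH F j x⁻¹ := by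
  haveI := finite_equiv F V
  have h1 : ∀ n : ℕ, PH F j (x ^ n) := fun n => by
    induction n with
    | zero => exact ⟨1, one_ne_zero, fun v => ⟨v, by simp⟩⟩
    | succ n ih => rw [pow_succ]; exact ih.mul hx
  have := orderOf_pos x
  convert h1 (orderOf x - 1)
  rw [inv_eq_iff_mul_eq_one, ← pow_succ', Nat.sub_add_cancel this, pow_orderOf_eq_one]

theorem RS.rp_of_det (r : RS h₀ h j) (hr : (finrank K F).Prime) (hro : Odd (finrank K F))
    (h4 : 4 ≤ finrank K F) (h6 : finrank K V₀ = 6) {z : V ≃ₗ[F] V} (hz : z ∈ h.SU) (hp : PH F j z) :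
    RP j 1 z := by
  obtain ⟨l, hl, hp⟩ := hp
  obtain ⟨b, hb⟩ := h₀.exists_ONB
  have hb' := r.onb hb
  choose y hy using hp
  have h1 : LinearMap.toMatrix hb'.basis hb'.basis (l • (z : V →ₗ[F] V)) =
      (algebraMap K F).mapMatrix (Matrix.of fun i k => h₀ (y (b k)) (b i)) := by
    ext i k
    simp [LinearMap.toMatrix_apply, ONB.basis_repr, ← r.form, ← hy]
  have h2 := congrArg Matrix.det h1
  rw [LinearMap.det_toMatrix, LinearMap.det_smul, (mem_SU.1 hz).2, ← RingHom.map_det,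
    hb'.card.trans ((Fintype.card_fin _).trans h6)] at h2
  obtain ⟨c, hc⟩ := mem_bot_of_sq hr hro (l := l * l * l) (Eq.trans (by ring) h2)
  obtain ⟨a, rfl⟩ := mem_bot_of_cube hr h4 hc.symm
  intro x
  exact ⟨a⁻¹ • y x, by rw [j_smul (F := F), ← hy, smul_smul, map_inv₀, inv_mul_cancel₀ hl]⟩

theorem RS.finrank_comap (r : RS h₀ h j) (B : Submodule F V) :
    finrank K ((B.restrictScalars K).comap j) ≤ finrank F B := by
  obtain ⟨b₀, hb₀⟩ := h₀.exists_ONB
  have hn := (r.onb hb₀).card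
  obtain ⟨C, hC⟩ := ((B.restrictScalars K).comap j).exists_isCompl
  have h1 := Submodule.finrank_add_eq_of_isCompl hC
  let c := Module.finBasis K C
  have h2 : B ⊔ Submodule.span F (Set.range fun i => j (c i)) = ⊤ := eq_top_iff.2 fun v _ =>
    r.ext_fun (fun x => by
      obtain ⟨y, hy, z, hz, rfl⟩ := Submodule.mem_sup.1 (hC.sup_eq_top ▸ (trivial : x ∈ ⊤))
      rw [map_add]
      refine Submodule.add_mem_sup hy ?_
      have := congrArg (fun v : C => j v) (c.sum_repr ⟨z, hz⟩)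
      simp only [Submodule.coe_sum, map_sum, SetLike.val_smul, j_smul (F := F)] at this
      rw [← this]
      exact Submodule.sum_mem _ fun i _ => Submodule.smul_mem _ _
        (Submodule.subset_span ⟨i, rfl⟩)) v
  have h3 := Submodule.finrank_add_le_finrank_add_finrank B
    (Submodule.span F (Set.range fun i => j (c i)))
  have h4 := finrank_range_le_card (R := F) fun i => j (c i)
  rw [h2, finrank_top] at h3
  simp only [Set.finrank, Fintype.card_fin] at h4 hn
  omega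

section

variable (r : RS h₀ h j) (hM : M ≤ h.SU) (hH : ∀ g ∈ h.SU, PH F j g → g ∈ M)
  (hr : (finrank K F).Prime) (h6 : finrank K V₀ = 6) (hne : ¬ h.SU ≤ M)
include r hM hH hr h6 hne

theorem RS.core_three (h3 : finrank K F = 3) {g : V ≃ₗ[F] V} (hg : g ∈ M) : PH F j g := by
  haveI : FiniteDimensional K F := Module.finite_of_finrank_pos (by omega)
  obtain ⟨u, -, hu0, hu⟩ := exists_iso (h := h₀) (K := ⊤) (by simp; omega)
  let φ : V₀ →ₗ[K] F := ((h.lin (g (j u))).restrictScalars K).comp j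
  have h1 := φ.finrank_range_add_finrank_ker
  have h2 := (LinearMap.range φ).finrank_le
  obtain ⟨e, he, he0, hee⟩ := exists_iso (h := h₀) (K := LinearMap.ker φ) (by omega)
  exact r.block hM hH hr (by omega) hne hg hee he0 hu hu0 he

theorem RS.fin₆ (hro : Odd (finrank K F)) (h4 : 4 ≤ finrank K F) {g d : V ≃ₗ[F] V} (hg : g ∈ M)
    (hd : d ∈ M) (hd1 : d ≠ 1) (h1 : PH F j d) (h2 : PH F j (g⁻¹ * d * g)) {B : Submodule F V}
    (hB : finrank F B ≤ 4) (hdB : ∀ v, d v - v ∈ B) : PH F j g := by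
  have h3 := r.rp_of_det hr hro h4 h6 (hM hd) h1
  let φ : V₀ →ₗ[K] V := (((d : V →ₗ[F] V) - LinearMap.id).restrictScalars K).comp j
  have h5 := φ.finrank_range_add_finrank_ker
  have h7 : LinearMap.range φ ≤ ((B.restrictScalars K).comap j).map j := by
    rintro _ ⟨x, rfl⟩
    obtain ⟨y, hy⟩ := h3 x
    have : j (y - x) = d (j x) - j x := by rw [map_sub, ← hy, one_smul]
    exact ⟨y - x, show j (y - x) ∈ B from this ▸ hdB _, this⟩
  have h8 := Submodule.finrank_mono h7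
  have h9 := Submodule.finrank_map_le j ((B.restrictScalars K).comap j)
  have := r.finrank_comap B
  obtain ⟨e, he, he0, hee⟩ := exists_iso (h := h₀) (K := LinearMap.ker φ) (by omega)
  exact r.fin hM hH hr (by omega) hne hg hd hd1 (r.rp_of_det hr hro h4 h6
    (hM (M.mul_mem (M.mul_mem (M.inv_mem hg) hd) hg)) h2) he0 hee (sub_eq_zero.1 he)

theorem RS.core_six (hro : Odd (finrank K F)) (h2 : (2 : F) ≠ 0) (h4 : 4 ≤ finrank K F)
    {g : V ≃ₗ[F] V} (hg : g ∈ M) : PH F j g := by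
  haveI := finite_equiv F V
  have hg1 := (hM hg).1
  obtain ⟨b₀, hb₀⟩ := h₀.exists_ONB
  obtain ⟨i⟩ : Nonempty (Fin 6 ↪ Fin (finrank K V₀)) :=
    Function.Embedding.nonempty_of_card_le (by simp; omega)
  have hb := hb₀.on_comp i.injective
  generalize (fun a => b₀ (i a)) = b at hb
  have hb' : h.ON fun i => j (b i) := fun i k => by rw [r.form, hb]; split_ifs <;> simp
  obtain ⟨s, hs0, hs⟩ := exists_norm' (t := (-1 : K)) (by simp) (by simp)
  have hiso : ∀ i k, i ≠ k → b i + s • b k ≠ 0 ∧ h₀ (b i + s • b k) (b i + s • b k) = 0 :=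
    fun i k hik => ⟨ne_zero_left (h := h₀) (y := b i) (by simp [hb _ _, hik.symm]), by
      simp [hb _ _, hik, hik.symm]; linear_combination hs⟩
  have hex : ∀ k : Fin 6, k = 1 ∨ k = 2 → ∃ a ∈ M, a * a = 1 ∧ Rk2 a ∧
      (∃ v, v ≠ 0 ∧ h₀ v v = 0 ∧ a (j v) = -j v) ∧ a (j (b 4 + s • b 5)) = j (b 4 + s • b 5) ∧
      a (j (b 1)) = if k = 1 then -j (b 1) else j (b 1) := fun k hk => by
    have hk0 : 0 ≠ k := by rcases hk with rfl | rfl <;> simp
    obtain ⟨haa, har⟩ := rr_neg_one (h := h) (u := j (b 0)) (v := j (b k)) (by simp [hb' _ _])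
      (by simp [hb' _ _]) (by simp [hb' _ _, hk0.symm])
    have hap : ∀ x, h.rr (j (b 0)) (j (b k)) (-1) x =
        x - (2 * h x (j (b 0))) • j (b 0) - (2 * h x (j (b k))) • j (b k) := fun x => by
      rw [rr_apply (by simp [hb' _ _]) (by simp [hb' _ _]) (by simp [hb' _ _, hk0.symm]) (by simp)]
      simp; module
    refine ⟨_, hH _ (rr_mem_SU (by simp [hb' _ _]) (by simp [hb' _ _]) (by simp)) ⟨1, one_ne_zero,
      fun x => ⟨_, by rw [one_smul, r.rr_app (by simp [hb _ _]) (by simp [hb _ _])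
        (by simp [hb _ _, hk0.symm])]⟩⟩, haa, har, ⟨_, (hiso 0 k hk0).1, (hiso 0 k hk0).2, ?_⟩, ?_, ?_⟩
    · rw [hap, map_add, j_smul (F := F)]
      simp only [add_left, smul_left, hb' _ _]
      simp [-algebraMap_smul, hk0, hk0.symm]; module
    · rw [hap]; rcases hk with rfl | rfl <;> simp [hb' _ _, smulK_left]
    · rw [hap]; rcases hk with rfl | rfl <;> simp [hb' _ _]; module
  have key : ∀ y ∈ M, ∀ t ∈ M, ∀ t', (∃ v, v ≠ 0 ∧ h₀ v v = 0 ∧ t (j v) = -j v) →
      t' (j (b 4 + s • b 5)) = j (b 4 + s • b 5) → t * y = y * t' → PH F j y :=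
    fun y hy t ht t' ⟨v, hv0, hv, h1⟩ h3 h4 => r.block hM hH hr (by omega) hne hy
      hv hv0 (hiso 4 5 (by simp)).2 (hiso 4 5 (by simp)).1
      (symm0 (perp_of_opp h2 (hM ht).1 (by rw [← mul_app, h4, mul_app, h3]) h1))
  obtain ⟨a₁, a1M, a11, a1r, a1v, a1u, a1b⟩ := hex 1 (by simp)
  obtain ⟨a₂, a2M, a22, a2r, a2v, a2u, a2b⟩ := hex 2 (by simp)
  have hRk : ∀ x y : V ≃ₗ[F] V, Rk2 x → Rk2 y → ∃ B : Submodule F V, finrank F B ≤ 4 ∧
      (∀ v, x v - v ∈ B) ∧ ∀ v, y v - v ∈ B := fun x y ⟨u, v, hx⟩ ⟨u', v', hy⟩ =>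
    ⟨Submodule.span F {u, v} ⊔ Submodule.span F {u', v'}, by
      have := Submodule.finrank_add_le_finrank_add_finrank (Submodule.span F {u, v})
        (Submodule.span F {u', v'})
      have := finrank_span_pair_le (F := F) u v
      have := finrank_span_pair_le (F := F) u' v'
      omega, fun w => Submodule.mem_sup_left (by simpa using neg_mem (hx w)),
      fun w => Submodule.mem_sup_right (by simpa using neg_mem (hy w))⟩
  have hg' := M.mul_mem (M.mul_mem hg a1M) (M.inv_mem hg)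
  have alt : ∀ a ∈ M, a * a = 1 → Rk2 a → (∃ v, v ≠ 0 ∧ h₀ v v = 0 ∧ a (j v) = -j v) →
      a (j (b 4 + s • b 5)) = j (b 4 + s • b 5) → PH F j g ∨ ∃ x ∈ M, x * x = 1 ∧ Rk2 x ∧
        g * a₁ * g⁻¹ = x * a * x⁻¹ ∧ PH F j (g⁻¹ * x) := fun a haM haa har hav hau => by
    rcases dihedral_alt' haa (t := g * a₁ * g⁻¹) (by rw [conj_mul, a11]; simp) haM hg' with
      ⟨x, hx, hxx, h3, y, hy⟩ | ⟨z, hzc, hz, hz1, hzz, h3, h5⟩
    · refine Or.inr ⟨x, hx, hxx, ?_, h3, key _ (M.mul_mem (M.inv_mem hg) hx) a₁ a1M a a1v hau ?_⟩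
      · rcases hy with rfl | rfl
        exacts [har.conj _, (a1r.conj g).conj _]
      · calc _ = g⁻¹ * (g * a₁ * g⁻¹) * x := by group
          _ = _ := by rw [h3]; group
    · obtain ⟨B, hB, hB1, hB2⟩ := hRk _ _ har (a1r.conj g)
      refine Or.inl (r.fin₆ hM hH hr h6 hne hro h4 hg hz hz1 (key z hz a haM a hav hau h3)
        (key _ (M.mul_mem (M.mul_mem (M.inv_mem hg) hz) hg) a₁ a1M a₁ a1v a1u ?_) hB ?_)
      · calc _ = g⁻¹ * (g * a₁ * g⁻¹ * z) * g := by group
          _ = _ := by rw [h5]; group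
      · refine Subgroup.closure_induction (p := fun z _ => ∀ v, z v - v ∈ B) ?_ (by simp) ?_ ?_ hzc
        · rintro _ (rfl | rfl) <;> assumption
        · intro x y _ _ hx hy v
          simpa using B.add_mem (hx (y v)) (hy v)
        · intro x _ hx v
          simpa using B.neg_mem (hx (x⁻¹ v))
  rcases alt a₁ a1M a11 a1r a1v a1u with h1 | ⟨x₁, x1M, x11, x1r, e1, p1⟩
  · exact h1
  rcases alt a₂ a2M a22 a2r a2v a2u with h1 | ⟨x₂, x2M, x22, x2r, e2, p2⟩
  · exact h1
  obtain ⟨B, hB, hB1, hB2⟩ := hRk _ _ x1r x2r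
  have i1 := inv_eq_of_mul_eq_one_right x11
  have i2 := inv_eq_of_mul_eq_one_right x22
  refine r.fin₆ hM hH hr h6 hne hro h4 hg (M.mul_mem x1M x2M) (fun h0 => ?_) ?_ ?_ hB fun v => ?_
  · have h1 : x₁ = x₂ := by rw [← i1]; exact inv_eq_of_mul_eq_one_right h0
    rw [e1, h1, mul_left_inj, mul_right_inj] at e2
    rw [e2, a2b] at a1b
    have := congrArg (fun v => h v (j (b 1))) a1b
    simp [hb' _ _] at this
    exact h2 (by linear_combination this)
  · convert p1.inv.mul p2 using 1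
    rw [mul_inv_rev, i1]; group
  · convert p1.mul p2.inv using 1
    rw [mul_inv_rev, i2]; group
  · simpa using B.add_mem (hB1 (x₂ v)) (hB2 v)

end

theorem RS.core₆ (r : RS h₀ h j) (hr : (finrank K F).Prime) (hro : Odd (finrank K F))
    (h6 : finrank K V₀ = 6) (hM : M ≤ h.SU) (hH : ∀ g ∈ h.SU, PH F j g → g ∈ M)
    (hg : ∃ g ∈ M, ¬ PH F j g) : h.SU ≤ M := by
  by_contra hne
  obtain ⟨g, hg, hg'⟩ := hg
  by_cases h2 : (2 : F) = 0
  · exact hg' (r.core_even hM hH hr (by omega) hne hro h2 hg)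
  by_cases h3 : finrank K F = 3
  · exact hg' (r.core_three hM hH hr h6 hne h3 hg)
  · have := hr.two_le
    exact hg' (r.core_six hM hH hr h6 hne hro h2 (by rw [Nat.odd_iff] at hro; omega) hg)

end HF

end Cfsg.Agent.H5.U
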