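import Cfsg.Agent.H5.U.Conj

/-! Bridge for subfield subgroups. -/

set_option autoImplicit false
set_option linter.unusedSimpArgs false
set_option linter.unusedSectionVars false
set_option linter.unusedVariables false

namespace Cfsg.Agent.H5.U

open Module H6 Matrix

/-- transport of a form along a linear equivalence -/
def HF.comap {F : Type*} {V V' : Type*} [Field F] [StarRing F] [AddCommGroup V] [Module F V]
    [AddCommGroup V'] [Module F V'] (h : HF F V) (e : V' ≃ₗ[F] V) : HF F V' where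
  toFun x y := h (e x) (e y)
  add_left' x y z := by simp
  smul_left' c x y := by simp
  conj' x y := by simp
  nd' v hv := by
    have : e v = 0 := h.nd fun x => by simpa using hv (e.symm x)
    simpa using this

theorem HF.comap_apply {F : Type*} {V V' : Type*} [Field F] [StarRing F] [AddCommGroup V]
    [Module F V] [AddCommGroup V'] [Module F V'] (h : HF F V) (e : V' ≃ₗ[F] V) (x y : V') :
    h.comap e x y = h (e x) (e y) := rfl

variable {ι : Type} [Fintype ι] [DecidableEq ι] {F : Type*} [Field F]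

theorem mem_GU_comap [StarRing F] {V : Type*} [AddCommGroup V] [Module F V] (h : HF F (ι → F))
    (e : (ι → F) ≃ₗ[F] V) (g : GL ι F) :
    gl0 g ∈ h.GU ↔ glEquiv e g ∈ (h.comap e.symm).GU := by
  constructor
  · intro hg x y
    simp only [HF.comap_apply, glEquiv_apply, LinearEquiv.symm_apply_apply]
    exact hg _ _
  · intro hg x y
    have := hg (e x) (e y)
    simp only [HF.comap_apply, glEquiv_apply, LinearEquiv.symm_apply_apply] at this
    exact this

theorem glEquiv_frame (P g : GL ι F) (x : ι → F) :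
    glEquiv (gl0 P).symm g x = ((P⁻¹ * g * P : GL ι F) : Matrix ι ι F) *ᵥ x := by
  rw [glEquiv_apply, LinearEquiv.symm_symm, LinearEquiv.symm_apply_eq, gl0_apply, gl0_apply,
    mulVec_mulVec, mulVec_mulVec, ← Units.val_mul, ← Units.val_mul]
  congr 2; group

theorem mem_subfieldSubgroup [Nonempty ι] {K : Subfield F} {P g : GL ι F} :
    g ∈ Geo.subfieldSubgroup K P ↔ ∃ c : F, c ≠ 0 ∧ ∀ x : ι → F, (∀ i, x i ∈ K) →
      ∀ i, (c • glEquiv (gl0 P).symm g x) i ∈ K := by
  simp only [glEquiv_frame]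
  unfold Geo.subfieldSubgroup
  constructor
  · rintro ⟨x, hx, rfl⟩
    have hx' : x ∈ ((Matrix.GeneralLinearGroup.map (K.subtype : K →+* F)).range ⊔
      Geo.scalars ι F : Subgroup (GL ι F)) := hx
    rw [← SetLike.mem_coe, Subgroup.mul_normal] at hx'
    obtain ⟨_, ⟨y, rfl⟩, z, hz, rfl⟩ := hx'
    obtain ⟨c, hc⟩ := (Geo.mem_scalars_iff z).1 hz
    refine ⟨c⁻¹, inv_ne_zero c.ne_zero, fun v hv i => ?_⟩
    simp only [MulEquiv.coe_toMonoidHom, MulAut.conj_apply]
    have : P⁻¹ * (P * ((Matrix.GeneralLinearGroup.map (K.subtype : K →+* F)) y * z) * P⁻¹) * P =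
        (Matrix.GeneralLinearGroup.map (K.subtype : K →+* F)) y * z := by group
    rw [this, Units.val_mul, hc, Matrix.mul_smul, mul_one, smul_mulVec, smul_smul,
      inv_mul_cancel₀ c.ne_zero, one_smul]
    exact K.sum_mem fun j _ => K.mul_mem (y i j).2 (hv j)
  · rintro ⟨c, hc, h⟩
    set X : Matrix ι ι F := ((P⁻¹ * g * P : GL ι F) : Matrix ι ι F) with hX
    have h' : ∀ i j, c * X i j ∈ K := fun i j => by
      have := h (Pi.single j 1) (fun k => by
        rw [Pi.single_apply]; split_ifs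
        · exact K.one_mem
        · exact K.zero_mem) i
      simpa using this
    let Y : Matrix ι ι K := fun i j => ⟨c * X i j, h' i j⟩
    have hY : Y.map K.subtype = c • X := by
      ext i j
      rfl
    have hdet : Y.det ≠ 0 := by
      intro h0
      have h1 : (Y.map K.subtype).det = K.subtype Y.det := (RingHom.map_det _ Y).symm
      rw [h0, map_zero, hY, det_smul] at h1
      exact mul_ne_zero (pow_ne_zero _ hc) (Matrix.GeneralLinearGroup.det_ne_zero _) h1
    refine ⟨P⁻¹ * g * P, ?_, by simp [mul_assoc]⟩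
    let z : GL ι F := Units.map (Matrix.scalar ι : F →+* Matrix ι ι F).toMonoidHom (Units.mk0 c hc)⁻¹
    have h2 : P⁻¹ * g * P = Matrix.GeneralLinearGroup.map (K.subtype : K →+* F)
        (Matrix.GeneralLinearGroup.mkOfDetNeZero Y hdet) * z := by
      apply Units.ext
      have h3 : (z : Matrix ι ι F) = c⁻¹ • 1 := by simp [z, Matrix.smul_one_eq_diagonal]
      rw [Units.val_mul (Matrix.GeneralLinearGroup.map _ _), h3, Matrix.mul_smul, mul_one]
      have : ((Matrix.GeneralLinearGroup.map (K.subtype : K →+* F)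
        (Matrix.GeneralLinearGroup.mkOfDetNeZero Y hdet) : GL ι F) : Matrix ι ι F) =
          Y.map K.subtype := rfl
      rw [this, hY, smul_smul, inv_mul_cancel₀ hc, one_smul]
    rw [SetLike.mem_coe, h2]
    exact Subgroup.mul_mem_sup ⟨_, rfl⟩ ⟨_, rfl⟩

section
variable [StarRing F]

/-- coordinatewise conjugation -/
def cj0 (ι : Type) (F : Type*) [Field F] [StarRing F] : (ι → F) →+ (ι → F) where
  toFun x i := star (x i)
  map_zero' := by ext; simp
  map_add' x y := by ext; simp

theorem cj0_apply (x : ι → F) (i : ι) : cj0 ι F x i = star (x i) := rfl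

theorem cj0_eq_iff {x : ι → F} : cj0 ι F x = x ↔ ∀ i, x i ∈ F0 F := funext_iff

theorem form_expand (h : HF F (ι → F)) (x y : ι → F) :
    h x y = ∑ i, ∑ j, x i * star (y j) * h (Pi.single i 1) (Pi.single j 1) := by
  conv_lhs => rw [pi_eq_sum_univ' x, pi_eq_sum_univ' y]
  rw [HF.sum_left]
  simp only [HF.sum_right, HF.smul_left, HF.smul_right, Finset.mul_sum, mul_assoc, mul_left_comm]

theorem conj_cj0 (h : HF F (ι → F)) {ε : F} (hε : ε = 1 ∨ ε = -1)
    (hG : ∀ i j, h (Pi.single i 1) (Pi.single j 1) = ε * h (Pi.single j 1) (Pi.single i 1)) :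
    h.Conj ε (cj0 ι F) := by
  refine ⟨fun c x => by ext; simp [cj0_apply], fun x => by ext; simp [cj0_apply], fun x y => ?_, hε⟩
  rw [form_expand, form_expand h y, Finset.sum_comm, Finset.mul_sum]
  refine Finset.sum_congr rfl fun i _ => ?_
  rw [Finset.mul_sum]
  refine Finset.sum_congr rfl fun j _ => ?_
  rw [hG j i, cj0_apply, cj0_apply, star_star]; ring

theorem mem_subfieldSubgroup_F0 [Nonempty ι] {P g : GL ι F} :
    g ∈ Geo.subfieldSubgroup (F0 F) P ↔ HF.ConjStab (cj0 ι F) (glEquiv (gl0 P).symm g) := by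
  rw [mem_subfieldSubgroup]
  generalize glEquiv (gl0 P).symm g = k
  constructor
  · rintro ⟨c, hc, h⟩
    refine ⟨c / star c, fun x hx => funext fun i => ?_⟩
    have := h x (cj0_eq_iff.1 hx) i
    rw [mem_F0, Pi.smul_apply, smul_eq_mul, star_mul'] at this
    have hc' := star_ne_zero' hc
    rw [cj0_apply, Pi.smul_apply, smul_eq_mul]
    field_simp
    linear_combination this
  · rintro ⟨l, hl⟩
    obtain ⟨i₀⟩ := ‹Nonempty ι›
    have h1 : k (Pi.single i₀ 1) ≠ 0 := by simp
    obtain ⟨j, hj⟩ := Function.ne_iff.1 h1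
    have hj : k (Pi.single i₀ 1) j ≠ 0 := hj
    have h2 := congrFun (hl (Pi.single i₀ 1) (by ext i; simp [cj0_apply, Pi.single_apply, apply_ite])) j
    refine ⟨(k (Pi.single i₀ 1) j)⁻¹, inv_ne_zero hj, fun x hx i => ?_⟩
    have h3 := congrFun (hl x (cj0_eq_iff.2 hx)) i
    rw [cj0_apply, Pi.smul_apply, smul_eq_mul] at h2 h3
    have hl0 : l ≠ 0 := by
      rintro rfl; exact star_ne_zero' hj (by simpa using h2)
    rw [mem_F0, Pi.smul_apply, smul_eq_mul, star_mul', star_inv₀, h2, h3]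
    field_simp

end

theorem subfield_eq_F0 [Fintype F] {q : ℕ} (hF : Fintype.card F = q ^ 2) (K : Subfield F)
    (hK : Fintype.card F = Nat.card K ^ 2) : letI := powStar hF; K = F0 F := by
  letI := powStar hF
  have hq : Nat.card K = q := (Nat.pow_left_injective two_ne_zero (hK.symm.trans hF))
  have h1 : K ≤ F0 F := fun x hx => by
    haveI := Fintype.ofFinite K
    have := FiniteField.pow_card (⟨x, hx⟩ : K)
    rw [← Nat.card_eq_fintype_card, hq] at this
    exact congrArg Subtype.val this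
  apply SetLike.coe_injective
  exact Set.Finite.eq_of_subset_of_card_le (Set.toFinite _) h1 (by
    have := card_F0 hF
    simp only [SetLike.coe_sort_coe]; omega)

theorem two_ne_zero_of_odd [Fintype F] {q : ℕ} (hF : Fintype.card F = q ^ 2) (hq : Odd q) :
    (2 : F) ≠ 0 := by
  intro h
  have : ringChar F = 2 := by
    have := (ringChar.spec F 2).1 (by exact_mod_cast h)
    rcases (Nat.dvd_prime Nat.prime_two).1 this with h1 | h1
    · exact absurd h1 (CharP.ringChar_ne_one)
    · exact h1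
  have := FiniteField.even_card_of_char_two this
  have h2 : Odd (q ^ 2) := hq.pow
  rw [← hF, Nat.odd_iff] at h2; omega

theorem single_mem (K : Subfield F) (j : ι) (i : ι) : (Pi.single j 1 : ι → F) i ∈ K := by
  rw [Pi.single_apply]; split_ifs
  · exact K.one_mem
  · exact K.zero_mem

theorem sp_subfield_maximal {F : Type*} [Field F] [Fintype F] (n q : ℕ)
    (hF : Fintype.card F = q ^ 2) (hn : 5 ≤ n) (F₀ : Subfield F)
    (hcard : Fintype.card F = Nat.card F₀ ^ 2) (ζ : F) (hζ0 : ζ ≠ 0) (hζ : ζ + ζ ^ q = 0)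
    (P : GL (Fin n) F) (hP : Geo.IsFormRationalStructure (hermForm n F q) F₀ ζ P)
    (halt : ∀ u : Fin n → F, (∀ i, u i ∈ F₀) → hermForm n F q ((P : Matrix (Fin n) (Fin n) F) *ᵥ u)
      ((P : Matrix (Fin n) (Fin n) F) *ᵥ u) = 0) :
    Geo.IsMaximalIn (GU n F q ⊓ Geo.specialLinear (Fin n) F)
      (Geo.subfieldSubgroup F₀ P ⊓ (GU n F q ⊓ Geo.specialLinear (Fin n) F)) := by
  letI := powStar hF
  haveI := powStar_nstar hF
  haveI : Nonempty (Fin n) := ⟨⟨0, by omega⟩⟩
  obtain rfl := subfield_eq_F0 hF F₀ hcard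
  let h := (stdHF (Fin n) F).comap (gl0 P).symm.symm
  have c : h.Conj (-1) (cj0 (Fin n) F) := conj_cj0 h (Or.inr rfl) fun i j => by
    have h1 : star (ζ * h (Pi.single i 1) (Pi.single j 1)) =
      ζ * h (Pi.single i 1) (Pi.single j 1) := hP _ _ (single_mem _ i) (single_mem _ j)
    have h2 : star ζ = -ζ := eq_neg_of_add_eq_zero_right hζ
    rw [star_mul', h2, HF.conj] at h1
    apply mul_left_cancel₀ hζ0
    linear_combination -h1
  have halt' : ∀ x, cj0 (Fin n) F x = x → h x x = 0 := fun x hx => halt x (cj0_eq_iff.1 hx)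
  exact isMaximalIn_of_core (gl0 P).symm h _ _
    (fun g => (mem_GU_iff hF n g).trans (mem_GU_comap _ _ g))
    (HF.ConjStab (cj0 (Fin n) F)) (fun g _ => mem_subfieldSubgroup_F0)
    (c.sp_ne halt' (by simp; omega)) fun M hM hH hg => c.sp_core halt' (by simpa using hn) hM hH hg

theorem o_subfield_maximal_of {F : Type*} [Field F] [Fintype F] (n q : ℕ)
    (hF : Fintype.card F = q ^ 2) (hn : 5 ≤ n) (hodd : Odd q) (F₀ : Subfield F)
    (hcard : Fintype.card F = Nat.card F₀ ^ 2)
    (P : GL (Fin n) F) (hP : Geo.IsFormRationalStructure (hermForm n F q) F₀ 1 P)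
    (core : ∀ [StarRing F] [NStar F] (h : HF F (Fin n → F)) (cj : (Fin n → F) →+ (Fin n → F)),
      h.Conj 1 cj → (2 : F) ≠ 0 → ∀ M : Subgroup ((Fin n → F) ≃ₗ[F] (Fin n → F)), M ≤ h.SU →
      (∀ g ∈ h.SU, HF.ConjStab cj g → g ∈ M) → (∃ g ∈ M, ¬ HF.ConjStab cj g) → h.SU ≤ M) :
    Geo.IsMaximalIn (GU n F q ⊓ Geo.specialLinear (Fin n) F)
      (Geo.subfieldSubgroup F₀ P ⊓ (GU n F q ⊓ Geo.specialLinear (Fin n) F)) := by
  letI := powStar hF
  haveI := powStar_nstar hF
  haveI : Nonempty (Fin n) := ⟨⟨0, by omega⟩⟩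
  obtain rfl := subfield_eq_F0 hF F₀ hcard
  let h := (stdHF (Fin n) F).comap (gl0 P).symm.symm
  have c : h.Conj 1 (cj0 (Fin n) F) := conj_cj0 h (Or.inl rfl) fun i j => by
    have h1 : star (1 * h (Pi.single i 1) (Pi.single j 1)) =
      1 * h (Pi.single i 1) (Pi.single j 1) := hP _ _ (single_mem _ i) (single_mem _ j)
    rw [one_mul, HF.conj] at h1
    rw [h1, one_mul]
  have h2 := two_ne_zero_of_odd hF hodd
  exact isMaximalIn_of_core (gl0 P).symm h _ _
    (fun g => (mem_GU_iff hF n g).trans (mem_GU_comap _ _ g))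
    (HF.ConjStab (cj0 (Fin n) F)) (fun g _ => mem_subfieldSubgroup_F0)
    (c.o_ne h2 (by simpa using hn)) fun M hM hH hg => core h _ c h2 M hM hH hg

theorem o_subfield_maximal {F : Type*} [Field F] [Fintype F] (n q : ℕ)
    (hF : Fintype.card F = q ^ 2) (hn : 7 ≤ n) (hodd : Odd q) (F₀ : Subfield F)
    (hcard : Fintype.card F = Nat.card F₀ ^ 2)
    (P : GL (Fin n) F) (hP : Geo.IsFormRationalStructure (hermForm n F q) F₀ 1 P) :
    Geo.IsMaximalIn (GU n F q ⊓ Geo.specialLinear (Fin n) F)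
      (Geo.subfieldSubgroup F₀ P ⊓ (GU n F q ⊓ Geo.specialLinear (Fin n) F)) :=
  o_subfield_maximal_of n q hF (by omega) hodd F₀ hcard P hP
    fun h cj c h2 M hM hH hg => c.o_core h2 (by simpa using hn) hM hH hg

end Cfsg.Agent.H5.U
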