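import Cfsg.Agent.H5.U.Frame4
import Cfsg.Agent.H5.U.SubBridge

/-! Subfield subgroups of odd prime index, part 1: the block lemma. -/

set_option autoImplicit false
set_option linter.unusedSimpArgs false
set_option linter.unusedSectionVars false
set_option linter.unusedVariables false

namespace Cfsg.Agent.H5.U

open Module H6

variable {K : Type*} [Field K] [StarRing K] [NStar K] [Finite K]
  {F : Type*} [Field F] [StarRing F] [NStar F] [Finite F] [Algebra K F]
  {V₀ : Type*} [AddCommGroup V₀] [Module K V₀] [FiniteDimensional K V₀]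
  {V : Type*} [AddCommGroup V] [Module F V] [Module K V] [IsScalarTower K F V]
  [FiniteDimensional F V]

namespace HF

/-- a rational structure on a unitary space -/
structure RS (h₀ : HF K V₀) (h : HF F V) (j : V₀ →ₗ[K] V) : Prop where
  st : ∀ a : K, star (algebraMap K F a) = algebraMap K F (star a)
  form : ∀ x y, h (j x) (j y) = algebraMap K F (h₀ x y)
  span : Submodule.span F (Set.range j) = ⊤

/-- preserving the rational vectors -/
def RP (j : V₀ →ₗ[K] V) (l : F) (g : V ≃ₗ[F] V) : Prop := ∀ x, ∃ y, l • g (j x) = j y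

variable (F) in
/-- preserving the rational structure up to a scalar -/
def PH (j : V₀ →ₗ[K] V) (g : V ≃ₗ[F] V) : Prop := ∃ l : F, l ≠ 0 ∧ RP j l g

variable {h₀ : HF K V₀} {h : HF F V} {j : V₀ →ₗ[K] V} {M : Subgroup (V ≃ₗ[F] V)}

theorem j_smul (a : K) (x : V₀) : j (a • x) = algebraMap K F a • j x := by
  rw [map_smul, algebraMap_smul]

theorem smulK_left (a : K) (v w : V) : h (a • v) w = algebraMap K F a * h v w := by
  rw [← algebraMap_smul F a v, smul_left]

theorem RS.smulK_right (r : RS h₀ h j) (a : K) (v w : V) :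
    h v (a • w) = algebraMap K F (star a) * h v w := by
  rw [← algebraMap_smul F a w, smul_right, r.st]

theorem RS.ext_fun (r : RS h₀ h j) {A : Submodule F V} (hA : ∀ x, j x ∈ A) (v : V) : v ∈ A := by
  have : Submodule.span F (Set.range j) ≤ A := Submodule.span_le.2 (by rintro _ ⟨x, rfl⟩; exact hA x)
  exact this (r.span ▸ trivial)

theorem RS.eq_zero (r : RS h₀ h j) {v : V} (hv : ∀ x, h (j x) v = 0) : v = 0 :=
  h.nd (r.ext_fun (A := h.pv v) hv)

theorem RS.ext_equiv (r : RS h₀ h j) {g g' : V ≃ₗ[F] V} (hg : ∀ x, g (j x) = g' (j x)) : g = g' :=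
  LinearEquiv.toLinearMap_injective (LinearMap.ext_on r.span (by rintro _ ⟨x, rfl⟩; exact hg x))

theorem RS.j_ne (r : RS h₀ h j) {x : V₀} (hx : x ≠ 0) : j x ≠ 0 := by
  obtain ⟨y, hy⟩ := h₀.exists_ne hx
  exact ne_zero_right (h := h) (x := j y) (by simpa [r.form] using hy)

theorem RS.iso (r : RS h₀ h j) {e : V₀} (he : h₀ e e = 0) : h (j e) (j e) = 0 := by
  simp [r.form, he]

theorem RS.rat_of_val (r : RS h₀ h j) {v : V} (hv : ∀ x, ∃ a : K, h (j x) v = algebraMap K F a) :
    ∃ y, v = j y := by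
  choose f hf using hv
  have hinj := (algebraMap K F).injective
  let φ : Dual K V₀ :=
    { toFun := f
      map_add' := fun x y => hinj (by rw [← hf, map_add, add_left, map_add, hf, hf])
      map_smul' := fun a x => hinj (by rw [← hf, j_smul (F := F), smul_left, hf]; simp) }
  obtain ⟨s, hs⟩ := h₀.riesz φ
  refine ⟨s, sub_eq_zero.1 (r.eq_zero fun x => ?_)⟩
  rw [sub_right, r.form, hf, ← hs]
  exact sub_self _

theorem RS.ok (r : RS h₀ h j) {e w : V₀} {c : K} (o : h₀.Ok e w c) :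
    h.Ok (j e) (j w) (algebraMap K F c) :=
  ⟨r.iso o.ee, by simp [r.form, o.we], by rw [r.st, r.form, ← map_add, o.tr]⟩

theorem RS.E_app (r : RS h₀ h j) {e w : V₀} {c : K} (o : h₀.Ok e w c) (x : V₀) :
    h.E (j e) (j w) (algebraMap K F c) (j x) = j (h₀.E e w c x) := by
  rw [E_apply (r.ok o), E_apply o]
  simp [r.form, j_smul (F := F)]

theorem RS.decomp (r : RS h₀ h j) {e : V₀} (he : h₀ e e = 0) (he0 : e ≠ 0) {w : V}
    (hw : h w (j e) = 0) (hv : ∀ v, h₀ v e = 0 → ∃ a : K, h w (j v) = algebraMap K F a) :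
    ∃ v, ∃ t : F, h₀ v e = 0 ∧ w = j v + t • j e := by
  obtain ⟨f, hff, hef⟩ := exists_partner_top he0 he
  obtain ⟨v, hv'⟩ := r.rat_of_val (v := w - h w (j f) • j e) fun x => by
    obtain ⟨a, ha⟩ := hv (x - h₀ x e • f) (by simp [symm1 hef])
    refine ⟨star a, ?_⟩
    rw [← r.st, ← ha, ← h.conj _ (j x)]
    congr 1
    simp [r.form, r.smulK_right, mul_comm]
  refine ⟨v, h w (j f), (algebraMap K F).injective ?_, by rw [← hv']; simp⟩
  rw [← r.form, ← hv']; simp [hw, r.iso he]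

section

variable (r : RS h₀ h j) (hM : M ≤ h.SU) (hH : ∀ g ∈ h.SU, PH F j g → g ∈ M)
include r hM hH

theorem RS.E_mem {e w : V₀} {c : K} (o : h₀.Ok e w c) : h.E (j e) (j w) (algebraMap K F c) ∈ M :=
  hH _ (E_mem_SU _ _ _) ⟨1, one_ne_zero, fun x => ⟨_, by rw [one_smul, r.E_app o]⟩⟩

theorem RS.T_mem {e : V₀} (he : h₀ e e = 0) {c : K} (hc : c + star c = 0) :
    h.T (j e) (algebraMap K F c) ∈ M := by
  simpa [T] using r.E_mem hM hH (okT he hc)

theorem RS.mem_ME {e w : V₀} (he : h₀ e e = 0) (hw : h₀ w e = 0) : j w ∈ h.ME M (j e) (r.iso he) := by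
  obtain ⟨c, hc⟩ := exists_tr (t := h₀ w w) (h₀.conj _ _)
  exact ⟨_, r.ok ⟨he, hw, hc⟩, r.E_mem hM hH ⟨he, hw, hc⟩⟩

theorem RS.ext {g₀ : V₀ ≃ₗ[K] V₀} (hg : g₀ ∈ h₀.SU) : ∃ g ∈ M, ∀ x, g (j x) = j (g₀ x) := by
  let N : Subgroup (V₀ ≃ₗ[K] V₀) :=
    { carrier := {g₀ | ∃ g ∈ M, ∀ x, g (j x) = j (g₀ x)}
      mul_mem' := by
        rintro a b ⟨g, hg, h1⟩ ⟨g', hg', h2⟩
        exact ⟨g * g', M.mul_mem hg hg', fun x => by simp [h1, h2]⟩
      one_mem' := ⟨1, M.one_mem, fun x => rfl⟩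
      inv_mem' := by
        rintro a ⟨g, hg, h1⟩
        refine ⟨g⁻¹, M.inv_mem hg, fun x => ?_⟩
        apply g.injective
        rw [h1, apply_inv_apply, apply_inv_apply] }
  rw [← SUW_top] at hg
  exact SUW_le_of_QIn (M := N) ndOn_top
    (fun e _ w _ c o => ⟨_, r.E_mem hM hH o, r.E_app o⟩) hg

theorem RS.T_all (h3 : 3 ≤ finrank K V₀) {e v : V₀} (he : h₀ e e = 0) (he0 : e ≠ 0)
    (hv : h₀ v v = 0) (hv0 : v ≠ 0) {c : F} (hc : c + star c = 0) (hT : h.T (j e) c ∈ M) :
    h.T (j v) c ∈ M := by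
  obtain ⟨k, hk, rfl⟩ := (ndOn_top (h := h₀)).trans_iso (by simpa using h3) trivial he0 he trivial
    hv0 hv
  obtain ⟨g, hg, hx⟩ := r.ext hM hH hk.2
  rw [← hx, ← conj_T (hM hg).1 (r.iso he) hc]
  exact M.mul_mem (M.mul_mem hg hT) (M.inv_mem hg)

theorem RS.step1 (hr : (finrank K F).Prime) (h5 : 5 ≤ finrank K V₀) (hne : ¬ h.SU ≤ M) {e : V₀}
    (he : h₀ e e = 0) (he0 : e ≠ 0) :
    (∀ c : F, c + star c = 0 → h.T (j e) c ∈ M → ∃ a : K, c = algebraMap K F a) ∧
      ∀ w ∈ h.ME M (j e) (r.iso he), ∀ v, h₀ v e = 0 → ∃ a : K, h w (j v) = algebraMap K F a := by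
  obtain ⟨f, hff, hef⟩ := exists_partner_top he0 he
  set W := ⊤ ⊓ h₀.pv e ⊓ h₀.pv f with hWdef
  have hW : h₀.NdOn W := ndOn_top.inf_pv₂ trivial trivial he hff hef
  have hW3 : 3 ≤ finrank K W := by
    have := finrank_inf_hyp (h := h₀) (W := ⊤) trivial trivial he hef
    rw [finrank_top, ← hWdef] at this; omega
  have hWe : ∀ x ∈ W, h₀ x e = 0 := fun x hx => hx.1.2
  let Lam : F → Prop := fun l => ∀ x ∈ W, l • j x ∈ h.ME M (j e) (r.iso he)
  have lam_of : ∀ l : F, ∀ v ∈ W, v ≠ 0 → h₀ v v = 0 → l • j v ∈ h.ME M (j e) (r.iso he) → Lam l := by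
    intro l v hv hv0 hvv hl x hx
    refine hW.mem_addSubgroup (by omega) ((h.ME M (j e) (r.iso he)).comap
      ((DistribMulAction.toAddMonoidHom V l).comp j.toAddMonoidHom)) (fun u hu huu => ?_) hx
    show l • j u ∈ h.ME M (j e) (r.iso he)
    by_cases hu0 : u = 0
    · simp [hu0]
    obtain ⟨k, hk, rfl⟩ := hW.trans_iso hW3 hv hv0 hvv hu hu0 huu
    obtain ⟨g, hg, hx⟩ := r.ext hM hH hk.2
    have := ME_map hM hl hg (by rw [hx, hk.1.2 e (mem_perp'.2 hWe)])
    rwa [map_smul, hx] at this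
  have key : ∀ w ∈ h.ME M (j e) (r.iso he), ∀ d : F, d + star d = 0 → h.T (j e) d ∈ M →
      ∀ v ∈ W, v ≠ 0 → h₀ v v = 0 → Lam (d * h w (j v)) := by
    intro w hw d hd hT v hv hv0 hvv
    have h1 := ME_map hM hw (r.T_all hM hH (by omega) he he0 hvv hv0 hd hT)
      (T_apply_of_perp (by simp [r.form, symm0 (hWe v hv)]))
    rw [T_apply (r.iso hvv) hd] at h1
    exact lam_of _ v hv hv0 hvv (by simpa using AddSubgroup.sub_mem _ h1 hw)
  obtain ⟨a, ha, b, hb, haa, hbb, hab⟩ := hW.exists_hyp (by omega)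
  have hb0 : b ≠ 0 := ne_zero_right (by rw [hab]; exact one_ne_zero)
  have hone : Lam 1 := fun x hx => by simpa using r.mem_ME hM hH he (hWe x hx)
  have hsm : ∀ (s : K) l, Lam l → Lam (algebraMap K F s * l) := fun s l hl x hx => by
    have := hl _ (W.smul_mem s hx)
    rwa [j_smul (F := F), smul_smul, mul_comm] at this
  have hadd : ∀ l m, Lam l → Lam m → Lam (l + m) := fun l m hl hm x hx => by
    rw [add_smul]; exact AddSubgroup.add_mem _ (hl x hx) (hm x hx)
  have hC : ∀ l, Lam l → ∀ s : K, h.T (j e) (algebraMap K F s * l - star (algebraMap K F s * l)) ∈ M :=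
    fun l hl s => by simpa [r.form, hab, symm1 hab] using T_mem_of_ME (hsm s l hl a ha) (hone b hb)
  have hCL : ∀ d : F, d + star d = 0 → h.T (j e) d ∈ M → ∀ l, Lam l → Lam (d * l) :=
    fun d hd hT l hl => by simpa [r.form, hab] using key _ (hl a ha) d hd hT b hb hb0 hbb
  obtain ⟨θ, hθ⟩ := NStar.exists_ne (F := K)
  let S : Subalgebra K F :=
    { carrier := {l | Lam l}
      mul_mem' := fun {l m} hl hm => by
        have h1 := hCL _ (by simp) (hC l hl θ) m hm
        have h2 := hsm (-star θ) _ (hCL _ (by simp) (hC l hl 1) m hm)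
        have h3 := hsm (θ - star θ)⁻¹ _ (hadd _ _ h1 h2)
        have h4 : algebraMap K F θ - algebraMap K F (star θ) ≠ 0 := by
          rw [← map_sub]; simpa [sub_eq_zero] using hθ.symm
        show Lam (l * m)
        convert h3 using 1
        simp only [map_inv₀, map_sub, map_neg, map_one, one_mul, star_mul', r.st]
        field_simp; ring
      add_mem' := fun {l m} hl hm => hadd l m hl hm
      algebraMap_mem' := fun s => by simpa using hsm s 1 hone }
  have hd := del_ne (F := K)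
  have hdT := r.T_mem hM hH he (del_tr (F := K))
  have hd' : algebraMap K F (del K) + star (algebraMap K F (del K)) = 0 := by
    rw [r.st, ← map_add, del_tr, map_zero]
  rcases (Subalgebra.isSimpleOrder_of_finrank_prime K F hr).eq_bot_or_eq_top S with h3 | h3
  · have h4 : ∀ l, Lam l → ∃ s : K, l = algebraMap K F s := fun l hl => by
      obtain ⟨s, hs⟩ := Algebra.mem_bot.1 (h3 ▸ show l ∈ S from hl)
      exact ⟨s, hs.symm⟩
    refine ⟨fun c hc hT => h4 c (by simpa using hCL c hc hT 1 hone), fun w hw v hv => ?_⟩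
    have h6 : ∀ x ∈ W, ∃ a : K, h w (j x) = algebraMap K F a := by
      intro x hx
      let A : AddSubgroup V₀ :=
        { carrier := {x | ∃ a : K, h w (j x) = algebraMap K F a}
          add_mem' := by
            rintro x y ⟨s, hs⟩ ⟨t, ht⟩
            exact ⟨s + t, by simp [hs, ht]⟩
          zero_mem' := ⟨0, by simp⟩
          neg_mem' := by
            rintro x ⟨s, hs⟩
            exact ⟨-s, by simp [hs]⟩ }
      refine hW.mem_addSubgroup (by omega) A (fun u hu huu => ?_) hx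
      by_cases hu0 : u = 0
      · exact hu0 ▸ A.zero_mem
      obtain ⟨s, hs⟩ := h4 _ (key w hw _ hd' hdT u hu hu0 huu)
      exact ⟨(del K)⁻¹ * s, by rw [map_mul, ← hs]; simp [hd]⟩
    obtain ⟨s, hs⟩ := h6 (v - h₀ v f • e) ⟨⟨trivial, by simp [hv, he]⟩, by simp [hef]⟩
    exact ⟨s, by simpa [r.smulK_right, ME_perp hw] using hs⟩
  · exfalso
    have h4 : ∀ l, Lam l := fun l => show l ∈ S from h3 ▸ trivial
    obtain ⟨t, ht⟩ := exists_tr_one F
    have hX : h.XIn M (j e) := fun c hc => by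
      convert hC (c * t) (h4 _) 1 using 2
      simp only [map_one, one_mul, star_mul']
      linear_combination (-c) * ht + star t * hc
    refine hne (SU_le_of_Q_X hM (r.iso he) (qIn_of_ME (r.iso he) hX fun w _ hw => ?_) (r.iso hff)
      (by simp [r.form, hef]) fun c hc => r.T_all hM hH (by omega) he he0 hff
        (ne_zero_right (by rw [hef]; exact one_ne_zero)) hc (hX c hc))
    have h6 := r.ext_fun (A := (core F (h.ME M (j e) (r.iso he))).comap
      (LinearMap.id - (h.lin (j f)).smulRight (j e) - (h.lin (j e)).smulRight (j f))) (fun x c => by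
        have := h4 c (x - h₀ x f • e - h₀ x e • f) ⟨⟨trivial, by simp [he, symm1 hef]⟩,
          by simp [hef, hff]⟩
        simpa [j_smul (F := F), r.form] using this) w
    simpa [hw] using AddSubgroup.add_mem _ (mem_of_mem_core h6)
      (smul_self_mem_ME (r.iso he) hX (h w (j f)))

variable (hr : (finrank K F).Prime) (h5 : 5 ≤ finrank K V₀) (hne : ¬ h.SU ≤ M)
include hr h5 hne

theorem RS.step2a {y : V ≃ₗ[F] V} (hy : y ∈ M) {e e' : V₀} (he : h₀ e e = 0) (he0 : e ≠ 0)
    (he' : h₀ e' e' = 0) (he0' : e' ≠ 0) {a : F} (hye : y (j e) = a • j e') :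
    (∃ s : K, a * star a = algebraMap K F s) ∧
      ∀ x, h₀ x e = 0 → ∃ x', star a • y (j x) = j x' := by
  have hy1 := (hM hy).1
  have ha : a ≠ 0 := by rintro rfl; exact r.j_ne he0 (by simpa using hye)
  have ha' := star_ne_zero' ha
  obtain ⟨hC, hL⟩ := r.step1 hM hH hr h5 hne he' he0'
  have hd := del_ne (F := K)
  have hd' : algebraMap K F (del K) + star (algebraMap K F (del K)) = 0 := by
    rw [r.st, ← map_add, del_tr, map_zero]
  have htr : ∀ t : F, star t = t → t * algebraMap K F (del K) + star (t * algebraMap K F (del K)) = 0 :=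
    fun t ht => by rw [star_mul', ht]; linear_combination t * hd'
  obtain ⟨s, hs⟩ : ∃ s : K, a * star a = algebraMap K F s := by
    have h1 := r.T_mem hM hH he (del_tr (F := K))
    have h2 := M.mul_mem (M.mul_mem hy h1) (M.inv_mem hy)
    rw [conj_T hy1 (r.iso he) hd', hye, T_smul (r.iso he') hd'] at h2
    obtain ⟨s, hs⟩ := hC _ (htr _ (star_norm a)) h2
    exact ⟨s * (del K)⁻¹, by rw [map_mul, ← hs]; simp [hd]⟩
  have hs0 : s ≠ 0 := by rintro rfl; exact norm_ne_zero ha (by simpa using hs)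
  have hs1 : star s = s := (algebraMap K F).injective (by rw [← r.st, ← hs, star_norm])
  refine ⟨⟨s, hs⟩, fun x hx => ?_⟩
  obtain ⟨f, hff, hef⟩ := exists_partner_top he0 he
  set W := ⊤ ⊓ h₀.pv e ⊓ h₀.pv f with hWdef
  have hW : h₀.NdOn W := ndOn_top.inf_pv₂ trivial trivial he hff hef
  have hW3 : 3 ≤ finrank K W := by
    have := finrank_inf_hyp (h := h₀) (W := ⊤) trivial trivial he hef
    rw [finrank_top, ← hWdef] at this; omega
  let A : Submodule K V₀ :=
    { carrier := {x | ∃ x', star a • y (j x) = j x'}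
      add_mem' := by
        rintro x z ⟨s, hs⟩ ⟨t, ht⟩
        exact ⟨s + t, by simp [hs, ht]⟩
      zero_mem' := ⟨0, by simp⟩
      smul_mem' := by
        rintro c x ⟨s, hs⟩
        exact ⟨c • s, by rw [j_smul (F := F), j_smul (F := F), map_smul, smul_comm, hs]⟩ }
  have hA : W ≤ A := hW.le_of_iso (by omega) fun v hv hvv => by
    by_cases hv0 : v = 0
    · exact hv0 ▸ A.zero_mem
    have hve : h₀ v e = 0 := hv.1.2
    have h1 : star a • y (j v) ∈ h.ME M (j e') (r.iso he') := by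
      obtain ⟨c, o, hc⟩ := r.mem_ME hM hH he hve
      have o' : h.Ok (j e') (y (j v)) c := by
        have := (o.map hy1).smul_left a⁻¹
        rwa [hye, inv_smul_smul₀ ha] at this
      have h2 := M.mul_mem (M.mul_mem hy hc) (M.inv_mem hy)
      rw [conj_E hy1 o, hye, E_smul_left a o'] at h2
      refine ⟨_, ?_, h2⟩
      have := o'.smul_right (star a); rwa [star_star, mul_comm (star a)] at this
    obtain ⟨v', t, hv'e, hv'⟩ := r.decomp he' he0' (ME_perp h1) (hL _ h1)
    have hvv' : h₀ v' v' = 0 := by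
      have h2 : h (star a • y (j v)) (star a • y (j v)) = 0 := by simp [hy1 _ _, r.iso hvv]
      rw [hv'] at h2
      simpa [r.form, hv'e, symm0 hv'e, he'] using h2
    obtain ⟨u₀, hu₀, hvu₀⟩ := hW.exists_ne hv hv0
    obtain ⟨u, hu1, hu2⟩ := exists_dual_pair' (h := h₀) (x := e') (w := v') (fun c hc => by
      have h2 : h (y (j u₀)) (star a • y (j v)) ≠ 0 := by simpa [hy1 _ _, r.form, ha] using hvu₀
      have h3 : h (y (j u₀)) (a • j e') = 0 := by
        rw [← hye, hy1, r.form, show h₀ u₀ e = 0 from hu₀.1.2, map_zero]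
      rw [hv', hc, j_smul (F := F)] at h2
      rw [smul_right, mul_eq_zero, or_iff_right ha'] at h3
      exact h2 (by rw [add_right, smul_right, smul_right, h3]; simp)) 1
    have hv'0 : v' ≠ 0 := ne_zero_left (by rw [hu2]; exact one_ne_zero)
    have hd2 : s⁻¹ * del K + star (s⁻¹ * del K) = 0 := by simp [hs1]
    have hd3 : algebraMap K F (s⁻¹ * del K) + star (algebraMap K F (s⁻¹ * del K)) = 0 := by
      rw [r.st, ← map_add, hd2, map_zero]
    have h2 : h.T (star a • y (j v)) (algebraMap K F (s⁻¹ * del K)) ∈ M := by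
      have h3 := M.mul_mem (M.mul_mem hy (r.T_mem hM hH hvv (del_tr (F := K)))) (M.inv_mem hy)
      rw [conj_T hy1 (r.iso hvv) hd'] at h3
      rw [T_smul (by rw [hy1, r.iso hvv]) hd3, star_star, mul_comm (star a), hs, ← map_mul,
        mul_inv_cancel_left₀ hs0]
      exact h3
    set d := algebraMap K F (s⁻¹ * del K) with hddef
    have hd4 : star d = -d := by linear_combination hd3
    have o : h.Ok (j e') ((d * star t) • j v') (-(d * (t * star t))) :=
      ⟨r.iso he', by simp [r.form, hv'e], by simp [r.iso hvv', hd4, mul_comm]⟩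
    have h3 : h.T (j v' + t • j e') d = h.T (j v') d * h.E (j e') ((d * star t) • j v')
        (-(d * (t * star t))) := by
      ext x
      rw [mul_app, T_apply (by simp [r.form, hv'e, symm0 hv'e, he', hvv']) hd3,
        T_apply (r.iso hvv') hd3, E_apply o]
      simp [r.form, hv'e, symm0 hv'e, he', hvv', hd4]
      module
    rw [hv', h3] at h2
    obtain ⟨c, hc⟩ := hL _ ⟨_, o, (M.mul_mem_cancel_left (r.T_mem hM hH hvv' hd2)).1 h2⟩ u (symm0 hu1)
    simp only [smul_left, r.form, hu2, map_one, mul_one] at hc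
    have h4 : t = algebraMap K F (star ((s⁻¹ * del K)⁻¹ * c)) := by
      rw [← r.st, map_mul, ← hc, map_inv₀, ← hddef, inv_mul_cancel_left₀ (by simp [hddef, hs0, hd]),
        star_star]
    exact ⟨v' + star ((s⁻¹ * del K)⁻¹ * c) • e', by rw [hv', map_add, j_smul (F := F), ← h4]⟩
  have h1 : e ∈ A := ⟨s • e', by rw [hye, smul_smul, mul_comm, hs, j_smul (F := F)]⟩
  have := A.add_mem (hA (x := x - h₀ x f • e) ⟨⟨trivial, by simp [hx, he]⟩, by simp [hef]⟩)
    (A.smul_mem (h₀ x f) h1)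
  rwa [sub_add_cancel] at this

theorem RS.step2 {y : V ≃ₗ[F] V} (hy : y ∈ M) {e e' : V₀} (he : h₀ e e = 0) (he0 : e ≠ 0)
    (he' : h₀ e' e' = 0) (he0' : e' ≠ 0) {a : F} (hye : y (j e) = a • j e') : RP j (star a) y := by
  have hy1 := (hM hy).1
  have ha : a ≠ 0 := by rintro rfl; exact r.j_ne he0 (by simpa using hye)
  have ha' := star_ne_zero' ha
  obtain ⟨⟨s, hs⟩, h1⟩ := r.step2a hM hH hr h5 hne hy he he0 he' he0' hye
  obtain ⟨f, hff, hef⟩ := exists_partner_top he0 he
  have hW : h₀.NdOn (⊤ ⊓ h₀.pv e ⊓ h₀.pv f) := ndOn_top.inf_pv₂ trivial trivial he hff hef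
  obtain ⟨u, hu, v, hv, huu, hvv, huv⟩ := hW.exists_hyp (by
    have := finrank_inf_hyp (h := h₀) (W := ⊤) trivial trivial he hef
    rw [finrank_top] at this; omega)
  have hv0 : v ≠ 0 := ne_zero_right (by rw [huv]; exact one_ne_zero)
  obtain ⟨v', hv'⟩ := h1 v hv.1.2
  obtain ⟨-, h2⟩ := r.step2a hM hH hr h5 hne hy hvv hv0 (e' := v') (a := (star a)⁻¹)
    ((algebraMap K F).injective (by rw [← r.form, ← hv']; simp [hy1 _ _, r.iso hvv]))
    (by rintro rfl; exact r.j_ne hv0 (by simpa [ha] using hv')) (by rw [← hv', inv_smul_smul₀ ha'])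
  intro x
  obtain ⟨x₁, hx₁⟩ := h2 (x - h₀ x v • u) (by simp [huv])
  obtain ⟨x₂, hx₂⟩ := h1 (h₀ x v • u) (by simp [show h₀ u e = 0 from hu.1.2])
  refine ⟨s • x₁ + x₂, ?_⟩
  rw [map_add, j_smul (F := F), ← hx₁, ← hx₂, ← hs, smul_smul, star_inv₀, star_star,
    show a * star a * a⁻¹ = star a by field_simp, ← smul_add, ← map_add, ← map_add, sub_add_cancel]

theorem RS.block {g : V ≃ₗ[F] V} (hg : g ∈ M) {e u : V₀} (he : h₀ e e = 0) (he0 : e ≠ 0)
    (hu : h₀ u u = 0) (hu0 : u ≠ 0) (heu : h (j e) (g (j u)) = 0) : PH F j g := by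
  have hg1 := (hM hg).1
  have hd' : algebraMap K F (del K) + star (algebraMap K F (del K)) = 0 := by
    rw [r.st, ← map_add, del_tr, map_zero]
  have h1 := M.mul_mem (M.mul_mem hg (r.T_mem hM hH hu (del_tr (F := K)))) (M.inv_mem hg)
  rw [conj_T hg1 (r.iso hu) hd'] at h1
  have h2 := r.step2 hM hH hr h5 hne h1 he he0 he he0 (a := 1) (by rw [T_apply_of_perp heu, one_smul])
  obtain ⟨x, hx⟩ : ∃ x, h (j x) (g (j u)) ≠ 0 := by
    by_contra! h'
    exact r.j_ne hu0 (by simpa using r.eq_zero h')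
  obtain ⟨x', hx'⟩ := h2 x
  have hp : h (g (j u)) (g (j u)) = 0 := by rw [hg1, r.iso hu]
  rw [star_one, one_smul, T_apply hp hd'] at hx'
  have hm : algebraMap K F (del K) * h (j x) (g (j u)) ≠ 0 := mul_ne_zero (by simp [del_ne]) hx
  have h3 : j (x' - x) = (algebraMap K F (del K) * h (j x) (g (j u))) • g (j u) := by
    rw [map_sub, ← hx']; simp
  exact ⟨_, star_ne_zero' (inv_ne_zero hm), r.step2 hM hH hr h5 hne hg hu hu0 (e' := x' - x)
    ((algebraMap K F).injective (by rw [← r.form, h3]; simp [hp]))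
    (fun h0 => r.j_ne hu0 (by simpa [h0, hx, del_ne] using h3.symm))
    (by rw [h3, inv_smul_smul₀ hm])⟩

end

end HF

end Cfsg.Agent.H5.U
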