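import Cfsg.Agent.H5.U.Sub1

/-! Subfield subgroups of odd prime index, part 2: maximality. -/

set_option autoImplicit false
set_option linter.unusedSimpArgs false
set_option linter.unusedSectionVars false
set_option linter.unusedVariables false

namespace Cfsg.Agent.H5.U

open Module H6

theorem mem_bot_of_sq {k : Type*} [Field k] {K : Type*} [Field K] [Algebra k K]
    (hr : (finrank k K).Prime) (hro : Odd (finrank k K)) {l : K} {a : k}
    (h : l * l = algebraMap k K a) : ∃ b : k, algebraMap k K b = l := by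
  let T : Subalgebra k K := (Submodule.span k {(1 : K), l}).toSubalgebra
    (Submodule.subset_span (by simp)) (by
      intro x y hx hy
      obtain ⟨a1, b1, rfl⟩ := Submodule.mem_span_pair.1 hx
      obtain ⟨a2, b2, rfl⟩ := Submodule.mem_span_pair.1 hy
      refine Submodule.mem_span_pair.2 ⟨a1 * a2 + b1 * b2 * a, a1 * b2 + b1 * a2, ?_⟩
      simp only [mul_add, add_mul, smul_mul_assoc, mul_smul_comm, one_mul, mul_one, h,
        Algebra.algebraMap_eq_smul_one]
      module)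
  rcases (Subalgebra.isSimpleOrder_of_finrank_prime k K hr).eq_bot_or_eq_top T with h5 | h5
  · exact Algebra.mem_bot.1 (h5 ▸ show l ∈ T from Submodule.subset_span (by simp))
  · have : Submodule.span k {(1 : K), l} = ⊤ := by
      rw [eq_top_iff]; intro x _
      have : x ∈ T := h5 ▸ trivial
      exact this
    have h6 := finrank_span_pair_le (F := k) (1 : K) l
    rw [this, finrank_top] at h6
    have := hr.two_le
    rw [Nat.odd_iff] at hro
    omega

theorem dihedral_odd {G : Type*} [Group G] {s t : G} (hs : s * s = 1) (ht : t * t = 1) {k : ℕ}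
    (hk : s * t = ((s * t) ^ 2) ^ k) : t = ((s * t) ^ k)⁻¹ * s * ((s * t) ^ k)⁻¹⁻¹ := by
  rw [← dihedral_left hs ht, inv_inv, mul_assoc, ← pow_add, ← two_mul, pow_mul, ← hk, ← mul_assoc,
    hs, one_mul]

theorem dihedral_alt {G : Type*} [Group G] [Finite G] {M : Subgroup G} {s t : G} (hs : s * s = 1)
    (ht : t * t = 1) (hsM : s ∈ M) (htM : t ∈ M) : (∃ x ∈ Subgroup.closure {s, t}, x ∈ M ∧ x * x = 1 ∧
      t = x * s * x⁻¹) ∨
      ∃ z ∈ Subgroup.closure {s, t}, z ∈ M ∧ z ≠ 1 ∧ z * z = 1 ∧ s * z = z * s ∧ t * z = z * t := by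
  have h1 : s ∈ Subgroup.closure {s, t} := Subgroup.subset_closure (by simp)
  have h2 : t ∈ Subgroup.closure {s, t} := Subgroup.subset_closure (by simp)
  rcases dihedral_cases s t with ⟨k, hk⟩ | ⟨l, hl1, hl2⟩
  · refine Or.inl ⟨s * (s * t) ^ k, Subgroup.mul_mem _ h1 (Subgroup.pow_mem _ (Subgroup.mul_mem _ h1 h2) k),
      M.mul_mem hsM (M.pow_mem (M.mul_mem hsM htM) k), ?_, ?_⟩
    · nth_rewrite 1 [dihedral_left hs ht]
      rw [mul_assoc, ← mul_assoc s s, hs, one_mul, inv_mul_cancel]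
    · rw [dihedral_left hs ht]
      conv_lhs => rw [dihedral_odd hs ht hk]
      group
  · have hi := inv_eq_of_mul_eq_one_right hl2
    exact Or.inr ⟨_, Subgroup.pow_mem _ (Subgroup.mul_mem _ h1 h2) l, M.pow_mem (M.mul_mem hsM htM) l,
      hl1, hl2, by rw [dihedral_left hs ht, hi], by rw [dihedral_right hs ht, hi]⟩

variable {K : Type*} [Field K] [StarRing K] [NStar K] [Finite K]
  {F : Type*} [Field F] [StarRing F] [NStar F] [Finite F] [Algebra K F]
  {V₀ : Type*} [AddCommGroup V₀] [Module K V₀] [FiniteDimensional K V₀]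
  {V : Type*} [AddCommGroup V] [Module F V] [Module K V] [IsScalarTower K F V]
  [FiniteDimensional F V]

namespace HF

variable {h₀ : HF K V₀} {h : HF F V} {j : V₀ →ₗ[K] V} {M : Subgroup (V ≃ₗ[F] V)}

theorem eq_one_of_rank_one {z : V ≃ₗ[F] V} (hz : z ∈ h.SU) {p : V} (hp : h p p ≠ 0)
    (h1 : ∀ w, ∃ s : F, z w - w = s • p) : z = 1 := by
  obtain ⟨s, hs⟩ := h1 p
  have h2 : z p = (1 + s) • p := by rw [add_smul, ← hs]; simp
  have h3 : (1 + s) * star (1 + s) = 1 := by
    have := hz.1 p p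
    rw [h2, smul_left, smul_right] at this
    exact mul_right_cancel₀ hp (by linear_combination this)
  have h4 : z = h.R p (1 + s) := by
    ext w
    obtain ⟨t, ht⟩ := h1 w
    have h5 := hz.1 w p
    rw [sub_eq_iff_eq_add.1 ht, h2] at h5
    simp only [add_left, smul_left, smul_right] at h5
    rw [sub_eq_iff_eq_add.1 ht, R_apply hp h3, add_comm]
    congr 2
    field_simp
    linear_combination (1 + s) * h5 - (t * h p p + h w p) * h3
  have h5 := (mem_SU.1 hz).2
  rw [h4, det_R hp h3] at h5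
  rw [h4, h5, R_one]

theorem RS.exists_iso_range (r : RS h₀ h j) {z : V ≃ₗ[F] V} (hz : z ∈ h.SU) (hz1 : z ≠ 1)
    (hp : RP j 1 z) : ∃ x y, y ≠ 0 ∧ h₀ y y = 0 ∧ z (j x) - j x = j y := by
  let S : Submodule K V₀ :=
    { carrier := {y | ∃ x, z (j x) - j x = j y}
      add_mem' := by
        rintro _ _ ⟨x, hx⟩ ⟨y, hy⟩
        exact ⟨x + y, by simp only [map_add, ← hx, ← hy]; abel⟩
      zero_mem' := ⟨0, by simp⟩
      smul_mem' := by
        rintro c _ ⟨x, hx⟩
        exact ⟨c • x, by simp only [j_smul (F := F), map_smul, ← hx, smul_sub]⟩ }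
  by_cases h2 : 2 ≤ finrank K S
  · obtain ⟨y, ⟨x, hx⟩, h1, h3⟩ := exists_iso (h := h₀) h2
    exact ⟨x, y, h1, h3, hx⟩
  have h3 : ∀ x, ∃ y ∈ S, z (j x) - j x = j y := fun x => by
    obtain ⟨y, hy⟩ := hp x
    rw [one_smul] at hy
    exact ⟨y - x, ⟨x, by rw [hy, map_sub]⟩, by rw [hy, map_sub]⟩
  obtain ⟨x₀, hx₀⟩ : ∃ x, z (j x) ≠ j x := by
    by_contra! h'
    exact hz1 (r.ext_equiv h')
  obtain ⟨y₀, hy₀, hxy⟩ := h3 x₀
  have hy0 : y₀ ≠ 0 := by rintro rfl; exact hx₀ (by simpa [sub_eq_zero] using hxy)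
  by_cases hyy : h₀ y₀ y₀ = 0
  · exact ⟨x₀, y₀, hy0, hyy, hxy⟩
  refine absurd (eq_one_of_rank_one hz (p := j y₀) (by simpa [r.form] using hyy) fun w => ?_) hz1
  have h4 : Submodule.span K {y₀} = S := Submodule.eq_of_le_of_finrank_le
    ((Submodule.span_singleton_le_iff_mem _ _).2 hy₀) (by rw [finrank_span_singleton hy0]; omega)
  have := r.ext_fun (A := (Submodule.span F {j y₀}).comap ((z : V →ₗ[F] V) - LinearMap.id))
    (fun x => by
      obtain ⟨y, hy, hxy⟩ := h3 x
      rw [← h4] at hy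
      obtain ⟨s, rfl⟩ := Submodule.mem_span_singleton.1 hy
      exact Submodule.mem_span_singleton.2 ⟨_, by rw [← j_smul (F := F), ← hxy]; rfl⟩) w
  obtain ⟨s, hs⟩ := Submodule.mem_span_singleton.1 this
  exact ⟨s, hs.symm⟩

theorem RS.exists_iso_fixed (r : RS h₀ h j) (h2 : (2 : F) ≠ 0) {z : V ≃ₗ[F] V} (hzz : z * z = 1)
    (hp : RP j 1 z) {A : Submodule F V} (hA : 2 ≤ finrank F A) (hzA : ∀ v ∈ A, z v = v) :
    ∃ y, y ≠ 0 ∧ h₀ y y = 0 ∧ z (j y) = j y := by
  let S : Submodule K V₀ :=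
    { carrier := {y | z (j y) = j y}
      add_mem' := fun {x y} hx hy => by
        simp only [Set.mem_setOf_eq, map_add] at *; rw [hx, hy]
      zero_mem' := by simp
      smul_mem' := fun c x hx => by
        simp only [Set.mem_setOf_eq, j_smul (F := F), map_smul] at *; rw [hx] }
  by_cases h3 : 2 ≤ finrank K S
  · obtain ⟨y, hy, h1, h3⟩ := exists_iso (h := h₀) h3
    exact ⟨y, h1, h3, hy⟩
  exfalso
  obtain ⟨⟨y₀, hy₀⟩, h4⟩ := finrank_le_one_iff.1 (show finrank K S ≤ 1 by omega)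
  have h5 : A ≤ Submodule.span F {j y₀} := fun v hv => by
    have := r.ext_fun (A := (Submodule.span F {j y₀}).comap ((z : V →ₗ[F] V) + LinearMap.id))
      (fun x => by
        obtain ⟨y, hy⟩ := hp x
        rw [one_smul] at hy
        obtain ⟨s, hs⟩ := h4 ⟨y + x, show z (j (y + x)) = j (y + x) by
          rw [map_add, map_add, ← hy, ← mul_app, hzz, one_app, add_comm]⟩
        refine Submodule.mem_span_singleton.2 ⟨algebraMap K F s, ?_⟩
        rw [← j_smul (F := F), show s • y₀ = y + x from congrArg Subtype.val hs, map_add, ← hy]; rfl) v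
    have h6 := Submodule.smul_mem _ (2 : F)⁻¹ (show z v + v ∈ Submodule.span F {j y₀} from this)
    rwa [hzA v hv, ← two_smul F v, inv_smul_smul₀ h2] at h6
  have := Submodule.finrank_mono h5
  have := finrank_span_one_le (F := F) (j y₀)
  omega

theorem RS.rp_of_sq (r : RS h₀ h j) (hr : (finrank K F).Prime) (hro : Odd (finrank K F))
    (h1 : 1 ≤ finrank K V₀) {z : V ≃ₗ[F] V} (hzz : z * z = 1) (hp : PH F j z) : RP j 1 z := by
  obtain ⟨l, hl, hp⟩ := hp
  obtain ⟨x, -, hx⟩ := exists_ne_zero_of_finrank (K := (⊤ : Submodule K V₀)) (by simpa using h1)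
  obtain ⟨u, hu⟩ := h₀.exists_ne hx
  obtain ⟨y, hy⟩ := hp x
  obtain ⟨y', hy'⟩ := hp y
  rw [← hy, map_smul, ← mul_app, hzz, one_app, smul_smul] at hy'
  have h2 := congrArg (fun v => h v (j u)) hy'
  simp only [smul_left, r.form] at h2
  obtain ⟨b, rfl⟩ := mem_bot_of_sq hr hro (l := l) (a := h₀ y' u / h₀ x u) (by
    rw [map_div₀, ← h2]; field_simp [symm_ne hu])
  intro x
  obtain ⟨y, hy⟩ := hp x
  exact ⟨b⁻¹ • y, by rw [j_smul (F := F), ← hy, smul_smul, map_inv₀, inv_mul_cancel₀ hl]⟩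

theorem RS.onb (r : RS h₀ h j) {ι : Type*} [Fintype ι] [DecidableEq ι] {b : ι → V₀}
    (hb : h₀.ONB b) : h.ONB fun i => j (b i) := by
  refine ⟨fun i k => by rw [r.form, hb.on]; split_ifs <;> simp, fun v => ?_⟩
  have := r.ext_fun (A := LinearMap.eqLocus LinearMap.id
    (∑ i, (h.lin (j (b i))).smulRight (j (b i)))) (fun x => by
      have := congrArg j (hb.span x)
      simpa [r.form] using this) v
  simpa using this

theorem RS.rr_app (r : RS h₀ h j) {u v : V₀} (hu : h₀ u u = 1) (hv : h₀ v v = 1) (huv : h₀ v u = 0)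
    (x : V₀) : h.rr (j u) (j v) (-1) (j x) = j (h₀.rr u v (-1) x) := by
  rw [rr_apply hu hv huv (by simp), rr_apply (by simp [r.form, hu]) (by simp [r.form, hv])
    (by simp [r.form, huv]) (by simp)]
  simp [r.form, j_smul (F := F)]

theorem closure_fix {s t x : V ≃ₗ[F] V} (hx : x ∈ Subgroup.closure {s, t}) {v : V} (hs : s v = v)
    (ht : t v = v) : x v = v :=
  (Subgroup.closure_le (MulAction.stabilizer (V ≃ₗ[F] V) v)).2 (by
    rintro _ (rfl | rfl) <;> assumption) hx

section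

variable (r : RS h₀ h j) (hM : M ≤ h.SU) (hH : ∀ g ∈ h.SU, PH F j g → g ∈ M)
  (hr : (finrank K F).Prime) (h5 : 5 ≤ finrank K V₀) (hne : ¬ h.SU ≤ M)
include r hM hH hr h5 hne

theorem RS.fin {g z : V ≃ₗ[F] V} (hg : g ∈ M) (hz : z ∈ M) (hz1 : z ≠ 1) (hp : RP j 1 (g⁻¹ * z * g))
    {e : V₀} (he0 : e ≠ 0) (he : h₀ e e = 0) (hze : z (j e) = j e) : PH F j g := by
  obtain ⟨x, y, hy0, hy, hxy⟩ := r.exists_iso_range
    (hM (M.mul_mem (M.mul_mem (M.inv_mem hg) hz) hg)) (fun h0 => hz1 (by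
      rw [show z = g * (g⁻¹ * z * g) * g⁻¹ by group, h0]; simp)) hp
  refine r.block hM hH hr h5 hne hg he he0 hy hy0 ?_
  rw [← hxy, map_sub, mul_app, mul_app, apply_inv_apply, sub_right]
  nth_rewrite 1 [← hze]
  rw [(hM hz).1, sub_self]

theorem RS.core_even (hro : Odd (finrank K F)) (h2 : (2 : F) = 0) {g : V ≃ₗ[F] V} (hg : g ∈ M) :
    PH F j g := by
  haveI := finite_equiv F V
  have h2' : (2 : K) = 0 := (algebraMap K F).injective (by rw [map_ofNat, h2, map_zero])
  have hg1 := (hM hg).1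
  obtain ⟨e, -, f, -, hee, hff, hef⟩ := (ndOn_top (h := h₀)).exists_hyp (by simp; omega)
  obtain ⟨a, ha, b, hb, haa, hbb, hab⟩ := (ndOn_top.inf_pv₂ trivial trivial hee hff hef).exists_hyp
    (by
      have := finrank_inf_hyp (h := h₀) (W := ⊤) trivial trivial hee hef
      rw [finrank_top] at this; omega)
  have hae : h₀ a e = 0 := ha.1.2
  have haf : h₀ a f = 0 := ha.2
  have hbe : h₀ b e = 0 := hb.1.2
  have he0 : e ≠ 0 := ne_zero_left (by rw [hef]; exact one_ne_zero)
  have o : h₀.Ok e a 0 := ⟨hee, hae, by simp [haa]⟩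
  have o' : h.Ok (j e) (j a) 0 := by simpa using r.ok o
  have h1 : (1 : F) + star 1 = 0 := by simp; linear_combination h2
  have hT : h.T (j e) 1 ∈ M := by
    simpa using r.T_mem hM hH hee (c := 1) (by simp; linear_combination h2')
  have hE : h.E (j e) (j a) 0 ∈ M := by simpa using r.E_mem hM hH o
  have hEE : h.E (j e) (j a) 0 * h.E (j e) (j a) 0 = 1 := by
    rw [E_mul o' o', ← two_smul F (j a), h2]; simp [r.iso haa, E_zero]
  rcases dihedral_alt (T_sq h2 (r.iso hee) h1) (t := g * h.E (j e) (j a) 0 * g⁻¹)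
    (by rw [conj_mul, hEE]; simp) hT (M.mul_mem (M.mul_mem hg hE) (M.inv_mem hg)) with
    ⟨x, -, hx, -, h3⟩ | ⟨z, -, hz, hz1, hzz, h3, h4⟩
  · exfalso
    rw [conj_T (hM hx).1 (r.iso hee) h1] at h3
    have h4 := congrArg (fun k => k (g (j f))) h3
    simp only [mul_app, inv_apply_apply, E_apply o', T_apply (((hM hx).1 _ _).trans (r.iso hee)) h1,
      r.form, symm1 hef, symm0 haf, map_add, map_sub, map_one, map_zero, one_smul, zero_mul,
      add_zero, zero_smul, sub_zero, add_right_inj, one_mul] at h4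
    have h6 := hg1 (j f) (j a)
    rw [h4, smul_right, r.form, symm0 haf, map_zero, mul_eq_zero, star_eq_zero, or_self] at h6
    have h7 := hg1 (j a) (j b)
    simp [h4, h6, r.form, hab] at h7
  · have h6 := eq_self_of_commute_T h2 (hM hz).1 hzz (r.iso hee) h1 one_ne_zero h3
    have h7 : RP j 1 z := by
      simpa using r.step2 hM hH hr h5 hne hz hee he0 hee he0 (a := 1) (by rw [h6, one_smul])
    have hz' := M.mul_mem (M.mul_mem (M.inv_mem hg) hz) hg
    have h8 : h.E (j e) (j a) 0 * (g⁻¹ * z * g) = (g⁻¹ * z * g) * h.E (j e) (j a) 0 := by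
      calc _ = g⁻¹ * (g * h.E (j e) (j a) 0 * g⁻¹ * z) * g := by group
        _ = _ := by rw [h4]; group
    have h9 := congrArg (fun k => h (k (j e)) (j b)) h8
    simp only [mul_app (h.E _ _ _), mul_app _ (h.E _ _ _), E_self o'] at h9
    rw [E_apply o'] at h9
    simp [r.form, hab, symm0 hbe] at h9
    obtain ⟨x, y, hy0, hy, hxy⟩ := r.exists_iso_range (hM hz) hz1 h7
    exact r.fin hM hH hr h5 hne hg hz hz1 (r.rp_of_sq hr hro (by omega)
      (by rw [show g⁻¹ * z * g * (g⁻¹ * z * g) = g⁻¹ * (z * z) * g by group, hzz]; simp)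
      (r.block hM hH hr h5 hne hz' hee he0 hee he0 (symm0 h9))) hy0 hy (by
        rw [← hxy, map_sub, ← mul_app, hzz, one_app, sub_eq_sub_iff_add_eq_add, ← two_smul F,
          ← two_smul F, h2, zero_smul, zero_smul])

theorem RS.core_odd (hro : Odd (finrank K F)) (h2 : (2 : F) ≠ 0) (h8 : 8 ≤ finrank K V₀)
    {g : V ≃ₗ[F] V} (hg : g ∈ M) : PH F j g := by
  haveI := finite_equiv F V
  have hg1 := (hM hg).1
  obtain ⟨b₀, hb₀⟩ := h₀.exists_ONB
  have hn := (r.onb hb₀).card
  obtain ⟨i⟩ : Nonempty (Fin 6 ↪ Fin (finrank K V₀)) :=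
    Function.Embedding.nonempty_of_card_le (by simp; omega)
  have hb := hb₀.on_comp i.injective
  generalize (fun a => b₀ (i a)) = b at hb
  have hb' : h.ON fun i => j (b i) := fun i k => by rw [r.form, hb]; split_ifs <;> simp
  have hmem : ∀ i k, i ≠ k → h.rr (j (b i)) (j (b k)) (-1) ∈ M := fun i k hik =>
    hH _ (rr_mem_SU (by simp [hb' _ _]) (by simp [hb' _ _]) (by simp)) ⟨1, one_ne_zero, fun x =>
      ⟨_, by rw [one_smul, r.rr_app (by simp [hb _ _]) (by simp [hb _ _]) (by simp [hb _ _, hik.symm])]⟩⟩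
  have hap : ∀ i k, i ≠ k → ∀ x, h.rr (j (b i)) (j (b k)) (-1) x =
      x - (2 * h x (j (b i))) • j (b i) - (2 * h x (j (b k))) • j (b k) := fun i k hik x => by
    rw [rr_apply (by simp [hb' _ _]) (by simp [hb' _ _]) (by simp [hb' _ _, hik.symm]) (by simp)]
    simp; module
  obtain ⟨haa, har⟩ := rr_neg_one (h := h) (u := j (b 0)) (v := j (b 1)) (by simp [hb' _ _])
    (by simp [hb' _ _]) (by simp [hb' _ _])
  have haM := hmem 0 1 (by simp)
  have ha := hap 0 1 (by simp)
  generalize h.rr (j (b 0)) (j (b 1)) (-1) = a at haa har haM ha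
  obtain ⟨c, hcM, hc⟩ : ∃ c ∈ M, ∀ x, c x = x - (2 * h x (j (b 0))) • j (b 0) -
      (2 * h x (j (b 1))) • j (b 1) - (2 * h x (j (b 2))) • j (b 2) - (2 * h x (j (b 3))) • j (b 3) :=
    ⟨_, M.mul_mem haM (hmem 2 3 (by simp)), fun x => by
      rw [mul_app, ha, hap 2 3 (by simp)]; simp [hb' _ _]; module⟩
  have hcc : c * c = 1 := LinearEquiv.ext fun x => by
    rw [mul_app, hc, hc]; simp [hb' _ _]; module
  obtain ⟨s, hs0, hs⟩ := exists_norm' (t := (-1 : K)) (by simp) (by simp)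
  have hiso : ∀ i k, i ≠ k → b i + s • b k ≠ 0 ∧ h₀ (b i + s • b k) (b i + s • b k) = 0 :=
    fun i k hik => ⟨ne_zero_left (h := h₀) (y := b i) (by simp [hb _ _, hik.symm]), by
      simp [hb _ _, hik, hik.symm]; linear_combination hs⟩
  have key : ∀ y ∈ M, ∀ t ∈ M, t (j (b 0 + s • b 1)) = -j (b 0 + s • b 1) →
      t (j (b 4 + s • b 5)) = j (b 4 + s • b 5) → t * y = y * t → y * y = 1 → RP j 1 y :=
    fun y hy t ht h1 h3 h4 h6 => r.rp_of_sq hr hro (by omega) h6 (r.block hM hH hr h5 hne hy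
      (hiso 0 1 (by simp)).2 (hiso 0 1 (by simp)).1 (hiso 4 5 (by simp)).2 (hiso 4 5 (by simp)).1
      (symm0 (perp_of_opp h2 (hM ht).1 (by rw [← mul_app, h4, mul_app, h3]) h1)))
  rcases dihedral_alt haa (t := g * c * g⁻¹) (by rw [conj_mul, hcc]; simp) haM
    (M.mul_mem (M.mul_mem hg hcM) (M.inv_mem hg)) with ⟨x, -, hx, -, h3⟩ | ⟨z, hzc, hz, hz1, hzz, h3, h4⟩
  · exfalso
    obtain ⟨u, v, huv⟩ := (h3 ▸ har.conj x : Rk2 (g * c * g⁻¹)).conj g⁻¹
    rw [show g⁻¹ * (g * c * g⁻¹) * g⁻¹⁻¹ = c by group] at huv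
    have h4 : h.ON ![j (b 0), j (b 1), j (b 2)] := fun i k => by
      fin_cases i <;> fin_cases k <;> simp [hb' _ _]
    have h6 := h4.card_le (W := Submodule.span F {u, v}) fun i => by
      have := Submodule.smul_mem _ (2 : F)⁻¹ (huv (![j (b 0), j (b 1), j (b 2)] i))
      fin_cases i <;> simpa [hc, hb' _ _, smul_smul, h2] using this
    have := finrank_span_pair_le (F := F) u v
    simp at h6; omega
  · have k1 := key z hz a haM (by rw [ha]; rw [map_add, j_smul (F := F)]; simp only [add_left, smul_left, hb' _ _]; simp [-algebraMap_smul]; module)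
      (by rw [ha]; simp [hb' _ _, smulK_left]) h3 hzz
    have k2 := key (g⁻¹ * z * g) (M.mul_mem (M.mul_mem (M.inv_mem hg) hz) hg) c hcM
      (by rw [hc]; rw [map_add, j_smul (F := F)]; simp only [add_left, smul_left, hb' _ _]; simp [-algebraMap_smul]; module)
      (by rw [hc]; simp [hb' _ _, smulK_left]) (by
        calc _ = g⁻¹ * (g * c * g⁻¹ * z) * g := by group
          _ = _ := by rw [h4]; group)
      (by rw [show g⁻¹ * z * g * (g⁻¹ * z * g) = g⁻¹ * (z * z) * g by group, hzz]; simp)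
    obtain ⟨A, hA1, hA2⟩ := exists_perp_list (h := h) ⊤
      [j (b 0), j (b 1), g (j (b 0)), g (j (b 1)), g (j (b 2)), g (j (b 3))]
    obtain ⟨y, hy0, hy, hzy⟩ := r.exists_iso_fixed h2 hzz k1 (A := A)
      (by simp [hn] at hA1; omega) fun v hv => by
        have h6 := ((hA2 v).1 hv).2
        simp only [List.mem_cons, List.not_mem_nil, or_false, forall_eq_or_imp, forall_eq] at h6
        refine closure_fix hzc (by rw [ha]; simp [h6]) ?_
        rw [mul_app, mul_app, hc]
        simp only [← GU_right hg1, h6, mul_zero, zero_smul, sub_zero, apply_inv_apply]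
    exact r.fin hM hH hr h5 hne hg hz hz1 k2 hy0 hy hzy

end

theorem RS.ne (r : RS h₀ h j) (hr : (finrank K F).Prime) (hro : Odd (finrank K F))
    (h2 : 2 ≤ finrank K V₀) : ∃ g ∈ h.SU, ¬ PH F j g := by
  obtain ⟨e, -, f, -, hee, hff, hef⟩ := (ndOn_top (h := h₀)).exists_hyp (by simpa using h2)
  obtain ⟨c, hc, hc'⟩ : ∃ c : F, c + star c = 0 ∧ ∀ a : K, c ≠ algebraMap K F a := by
    by_contra! h'
    obtain ⟨θ, hθ⟩ := NStar.exists_ne (F := K)
    have : (⊥ : Subalgebra K F) = ⊤ := eq_top_iff.2 fun c _ => by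
      obtain ⟨a, ha⟩ := h' (c - star c) (by simp)
      obtain ⟨b, hb⟩ := h' (algebraMap K F θ * c - star (algebraMap K F θ * c)) (by simp)
      have h4 : algebraMap K F θ - algebraMap K F (star θ) ≠ 0 := by
        rw [← map_sub]; simpa [sub_eq_zero] using hθ.symm
      refine Algebra.mem_bot.2 ⟨(b - star θ * a) / (θ - star θ), ?_⟩
      rw [map_div₀, map_sub, map_sub, map_mul, ← ha, ← hb, star_mul', r.st]
      field_simp; ring
    exact hr.one_lt.ne' (Subalgebra.bot_eq_top_iff_finrank_eq_one.1 this)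
  refine ⟨h.T (j e) c, T_mem_SU _ _, fun ⟨l, hl, hp⟩ => ?_⟩
  obtain ⟨y, hy⟩ := hp f
  rw [T_apply (r.iso hee) hc] at hy
  have e1 := congrArg (fun v => h v (j e)) hy
  have e2 := congrArg (fun v => h v (j f)) hy
  simp [r.form, hee, hff, hef, symm1 hef] at e1 e2
  exact hc' (h₀ y f / h₀ y e) (by rw [map_div₀, ← e1, ← e2]; field_simp)

theorem RS.core (r : RS h₀ h j) (hr : (finrank K F).Prime) (hro : Odd (finrank K F))
    (h8 : 8 ≤ finrank K V₀) (hM : M ≤ h.SU) (hH : ∀ g ∈ h.SU, PH F j g → g ∈ M)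
    (hg : ∃ g ∈ M, ¬ PH F j g) : h.SU ≤ M := by
  by_contra hne
  obtain ⟨g, hg, hg'⟩ := hg
  by_cases h2 : (2 : F) = 0
  · exact hg' (r.core_even hM hH hr (by omega) hne hro h2 hg)
  · exact hg' (r.core_odd hM hH hr (by omega) hne hro h2 h8 hg)

end HF

section Bridge

open Matrix

/-- restriction of the involution to an invariant subfield -/
@[reducible] def subStar {F : Type*} [Field F] [StarRing F] (K : Subfield F)
    (hK : ∀ x ∈ K, star x ∈ K) : StarRing K where
  star x := ⟨star x.1, hK _ x.2⟩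
  star_involutive x := Subtype.ext (star_star x.1)
  star_mul x y := Subtype.ext (star_mul x.1 y.1)
  star_add x y := Subtype.ext (star_add x.1 y.1)

theorem odd_subfield_maximal_of {F : Type*} [Field F] [Fintype F] (n q : ℕ)
    (hF : Fintype.card F = q ^ 2) (hn : 2 ≤ n) (F₀ : Subfield F) (r : ℕ) (hr : r.Prime)
    (hro : Odd r) (hcard : Fintype.card F = Nat.card F₀ ^ r) (P : GL (Fin n) F)
    (hP : Geo.IsFormRationalStructure (hermForm n F q) F₀ 1 P)
    (core : ∀ [StarRing F] [NStar F] [StarRing F₀] [NStar F₀] (h₀ : HF F₀ (Fin n → F₀))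
      (h : HF F (Fin n → F)) (j : (Fin n → F₀) →ₗ[F₀] (Fin n → F)), h₀.RS h j →
      (finrank F₀ F).Prime → Odd (finrank F₀ F) →
      ∀ M : Subgroup ((Fin n → F) ≃ₗ[F] (Fin n → F)), M ≤ h.SU →
      (∀ g ∈ h.SU, HF.PH F j g → g ∈ M) → (∃ g ∈ M, ¬ HF.PH F j g) → h.SU ≤ M) :
    Geo.IsMaximalIn (GU n F q ⊓ Geo.specialLinear (Fin n) F)
      (Geo.subfieldSubgroup F₀ P ⊓ (GU n F q ⊓ Geo.specialLinear (Fin n) F)) := by
  letI := powStar hF
  haveI := powStar_nstar hF
  haveI : Nonempty (Fin n) := ⟨⟨0, by omega⟩⟩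
  letI := subStar F₀ fun x hx => F₀.pow_mem hx q
  have hr' : finrank F₀ F = r := by
    have h1 := Module.natCard_eq_pow_finrank (K := F₀) (V := F)
    rw [Nat.card_eq_fintype_card, hcard] at h1
    exact (Nat.pow_right_injective (Finite.one_lt_card (α := F₀)) h1).symm
  haveI : NStar F₀ := ⟨by
    by_contra! h0
    have h1 : F₀ ≤ F0 F := fun x hx => congrArg Subtype.val (h0 ⟨x, hx⟩)
    letI : Algebra F₀ (F0 F) := (Subfield.inclusion h1).toAlgebra
    have h2 := Module.natCard_eq_pow_finrank (K := F₀) (V := F0 F)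
    rw [card_F0 hF] at h2
    rw [hF, h2, ← pow_mul] at hcard
    have := Nat.pow_right_injective (Finite.one_lt_card (α := F₀)) hcard
    rw [Nat.odd_iff] at hro
    omega⟩
  let h := (stdHF (Fin n) F).comap (gl0 P).symm.symm
  let j : (Fin n → F₀) →ₗ[F₀] (Fin n → F) :=
    { toFun := fun x i => x i
      map_add' := fun x y => rfl
      map_smul' := fun a x => rfl }
  have hval : ∀ x y, h (j x) (j y) ∈ F₀ := fun x y => by
    have := hP _ _ (fun i => (x i).2) fun i => (y i).2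
    rwa [one_mul] at this
  have hspan : Submodule.span F (Set.range j) = ⊤ := by
    rw [eq_top_iff]
    intro v _
    rw [pi_eq_sum_univ v]
    refine Submodule.sum_mem _ fun i _ => Submodule.smul_mem _ _
      (Submodule.subset_span ⟨fun l => if i = l then 1 else 0, ?_⟩)
    ext l
    show ((if i = l then (1 : F₀) else 0 : F₀) : F) = _
    split_ifs <;> rfl
  let h₀ : HF F₀ (Fin n → F₀) :=
    { toFun := fun x y => ⟨h (j x) (j y), hval x y⟩
      add_left' := fun x y z => Subtype.ext (by simp)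
      smul_left' := fun c x y => Subtype.ext (h.smul_left (c : F) (j x) (j y))
      conj' := fun x y => Subtype.ext (h.conj _ _)
      nd' := fun v hv => by
        have : j v = 0 := h.nd fun x => by
          have : Submodule.span F (Set.range j) ≤ h.pv (j v) :=
            Submodule.span_le.2 (by rintro _ ⟨y, rfl⟩; exact congrArg Subtype.val (hv y))
          exact this (hspan ▸ trivial)
        ext i; exact congrFun this i }
  have rs : h₀.RS h j := ⟨fun _ => rfl, fun _ _ => rfl, hspan⟩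
  refine isMaximalIn_of_core (gl0 P).symm h _ _
    (fun g => (mem_GU_iff hF n g).trans (mem_GU_comap _ _ g))
    (HF.PH F j) (fun g _ => mem_subfieldSubgroup.trans ?_)
    (rs.ne (hr' ▸ hr) (hr' ▸ hro) (by simpa using hn))
    fun M hM hH hg => core h₀ h j rs (hr' ▸ hr) (hr' ▸ hro) M hM hH hg
  refine exists_congr fun c => and_congr_right fun _ => ⟨fun H x => ?_, fun H x hx i => ?_⟩
  · exact ⟨fun i => ⟨_, H (j x) (fun i => (x i).2) i⟩, rfl⟩
  · obtain ⟨y, hy⟩ := H fun i => ⟨x i, hx i⟩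
    have : (c • glEquiv (gl0 P).symm g x) i = y i := congrFun hy i
    rw [this]; exact (y i).2

theorem odd_subfield_maximal {F : Type*} [Field F] [Fintype F] (n q : ℕ)
    (hF : Fintype.card F = q ^ 2) (hn : 8 ≤ n) (F₀ : Subfield F) (r : ℕ) (hr : r.Prime)
    (hro : Odd r) (hcard : Fintype.card F = Nat.card F₀ ^ r) (P : GL (Fin n) F)
    (hP : Geo.IsFormRationalStructure (hermForm n F q) F₀ 1 P) :
    Geo.IsMaximalIn (GU n F q ⊓ Geo.specialLinear (Fin n) F)
      (Geo.subfieldSubgroup F₀ P ⊓ (GU n F q ⊓ Geo.specialLinear (Fin n) F)) :=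
  odd_subfield_maximal_of n q hF (by omega) F₀ r hr hro hcard P hP
    fun h₀ h j rs h1 h2 M hM hH hg => rs.core h1 h2 (by simpa using hn) hM hH hg

end Bridge

end Cfsg.Agent.H5.U
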