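import Cfsg.Agent.H5.U.C2
import Cfsg.Agent.H5.U.Conj
import Cfsg.Agent.H6.ELine

/-! Tensor products of unitary spaces: basic notions and generation by transvections. -/

set_option autoImplicit false
set_option linter.unusedSimpArgs false
set_option linter.unusedSectionVars false
set_option linter.unusedVariables false

namespace Cfsg.Agent.H5.U

open Module H6 TensorProduct

section General

variable {F : Type*} {V : Type*} [Field F] [StarRing F] [AddCommGroup V] [Module F V]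
  [NStar F] {h : HF F V} {M : Subgroup (V ≃ₗ[F] V)}

namespace HF

theorem self_mem_core {p : V} (hp : h p p = 0) (hX : h.XIn M p) : p ∈ core F (h.ME M p hp) :=
  fun c => smul_self_mem_ME hp hX c

theorem core_perp {p a : V} {hp : h p p = 0} (ha : a ∈ core F (h.ME M p hp)) : h a p = 0 :=
  ME_perp (mem_of_mem_core ha)

theorem mem_core_of_T (hM : M ≤ h.SU) {p a y : V} {hp : h p p = 0} (ha : a ∈ core F (h.ME M p hp))
    (hy : h y y = 0) (hX : h.XIn M y) (hpy : h p y = 0) (hay : h a y ≠ 0) :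
    y ∈ core F (h.ME M p hp) := by
  intro c
  have hd := del_ne (F := F)
  have h1 := ME_map hM (ha (c / (del F * h a y))) (hX _ del_tr) (T_apply_of_perp hpy)
  rw [T_apply hy del_tr] at h1
  have := AddSubgroup.sub_mem _ h1 (ha (c / (del F * h a y)))
  convert this using 1
  simp only [smul_left, add_sub_cancel_left]
  congr 1
  field_simp

theorem sub_mem_core (hM : M ≤ h.SU) {p a v v' : V} {hp : h p p = 0} (hXp : h.XIn M p)
    (ha : a ∈ core F (h.ME M p hp)) (hv : h v v = 0) (hv' : h v' v' = 0) (hX : h.XIn M v)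
    (hX' : h.XIn M v') (h1 : h v p = 1) (h1' : h v' p = 1) (hvv : h v v' = 0)
    (hav : h a (v - v') ≠ 0) : v - v' ∈ core F (h.ME M p hp) := by
  have hd := del_ne (F := F)
  have h2 := hX'.map hM hv' (hXp _ del_tr)
  rw [T_apply hp del_tr, h1', mul_one] at h2
  have h3 : h (v' + del F • p) (v' + del F • p) = 0 := by
    simp [hv', hp, h1', symm1 h1']
  have h4 : h ((1 : F) • v + (-1 : F) • (v' + del F • p)) ((1 : F) • v + (-1 : F) • (v' + del F • p))
      = 0 := by simp [hv, hv', hp, h1, h1', symm1 h1, symm1 h1', hvv, symm0 hvv]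
  have h5 := XIn.line hM hv h3 (by simp [symm0 hvv, symm1 h1, hd]) hX h2 1 (-1) h4
  have h6 := mem_core_of_T hM ha h4 h5 (by simp [symm1 h1, symm1 h1', hp]) (by
    simpa [core_perp ha, sub_eq_add_neg] using hav)
  have := Submodule.add_mem _ h6 (Submodule.smul_mem _ (del F) (self_mem_core hp hXp))
  convert this using 1
  module

theorem exists_iso_add {e f x : V} (he : h e e = 0) (hf : h f f = 0) (hef : h e f = 1)
    (hx : h x e = 0) : ∃ c : F, h (f + x - c • e) (f + x - c • e) = 0 := by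
  obtain ⟨c, hc⟩ := exists_tr (t := h (f + x) (f + x)) (h.conj _ _)
  refine ⟨c, ?_⟩
  simp only [sub_left, sub_right, smul_left, smul_right, ← hc]
  simp [he, hef, symm1 hef, hx, symm0 hx]

theorem eq_top_of_iso {A : Submodule F V} {e f : V} (he : h e e = 0) (hf : h f f = 0)
    (hef : h e f = 1) (heA : e ∈ A) (hA : ∀ u, h u u = 0 → h u e = 1 → u ∈ A) (x : V) : x ∈ A := by
  have hfe := symm1 hef
  obtain ⟨c, hc⟩ := exists_iso_add he hf hef (x := x - h x e • f) (by simp [hfe])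
  have h1 := hA _ hc (by simp [hfe, he])
  have h2 := hA f hf hfe
  have := A.add_mem (A.add_mem (A.sub_mem h1 h2) (A.smul_mem c heA)) (A.smul_mem (h x e) h2)
  convert this using 1
  module

end HF

end General

variable {F : Type*} {U W : Type*} [Field F] [AddCommGroup U] [Module F U]
  [AddCommGroup W] [Module F W]

/-- contraction of the right factor with a functional -/
def cR (U : Type*) [AddCommGroup U] [Module F U] (φ : Dual F W) : U ⊗[F] W →ₗ[F] U :=
  (TensorProduct.rid F U).toLinearMap ∘ₗ LinearMap.lTensor U φ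

@[simp] theorem cR_tmul (φ : Dual F W) (u : U) (x : W) : cR U φ (u ⊗ₜ x) = φ x • u := by
  simp [cR]

/-- contraction of the left factor with a functional -/
def cL (W : Type*) [AddCommGroup W] [Module F W] (φ : Dual F U) : U ⊗[F] W →ₗ[F] W :=
  (TensorProduct.lid F W).toLinearMap ∘ₗ LinearMap.rTensor W φ

@[simp] theorem cL_tmul (φ : Dual F U) (u : U) (x : W) : cL W φ (u ⊗ₜ x) = φ u • x := by
  simp [cL]

/-- Kronecker product of two automorphisms -/
def kr (A : U ≃ₗ[F] U) (B : W ≃ₗ[F] W) : U ⊗[F] W ≃ₗ[F] U ⊗[F] W := TensorProduct.congr A B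

@[simp] theorem kr_tmul (A : U ≃ₗ[F] U) (B : W ≃ₗ[F] W) (u : U) (x : W) :
    kr A B (u ⊗ₜ x) = A u ⊗ₜ B x := rfl

theorem tens_ext {g k : U ⊗[F] W ≃ₗ[F] U ⊗[F] W} (h : ∀ u x, g (u ⊗ₜ x) = k (u ⊗ₜ x)) : g = k :=
  LinearEquiv.toLinearMap_injective (TensorProduct.ext' h)

theorem kr_mul (A A' : U ≃ₗ[F] U) (B B' : W ≃ₗ[F] W) : kr A B * kr A' B' = kr (A * A') (B * B') :=
  tens_ext fun _ _ => rfl

theorem kr_one : kr (1 : U ≃ₗ[F] U) (1 : W ≃ₗ[F] W) = 1 := tens_ext fun _ _ => rfl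

theorem kr_inv (A : U ≃ₗ[F] U) (B : W ≃ₗ[F] W) : (kr A B)⁻¹ = kr A⁻¹ B⁻¹ := by
  apply inv_eq_of_mul_eq_one_right
  rw [kr_mul, mul_inv_cancel, mul_inv_cancel, kr_one]

theorem det_kr [FiniteDimensional F U] [FiniteDimensional F W] (A : U ≃ₗ[F] U) (B : W ≃ₗ[F] W) :
    LinearMap.det (kr A B : U ⊗[F] W →ₗ[F] U ⊗[F] W) =
      LinearMap.det (A : U →ₗ[F] U) ^ finrank F W * LinearMap.det (B : W →ₗ[F] W) ^ finrank F U := by
  classical
  let b := finBasis F U
  let c := finBasis F W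
  rw [← LinearMap.det_toMatrix (b.tensorProduct c), ← LinearMap.det_toMatrix b,
    ← LinearMap.det_toMatrix c]
  have : (kr A B : U ⊗[F] W →ₗ[F] U ⊗[F] W) = TensorProduct.map A B := rfl
  rw [this, TensorProduct.toMatrix_map, Matrix.det_kronecker]
  simp

/-- the Kronecker products -/
def KG (F U W : Type*) [Field F] [AddCommGroup U] [Module F U] [AddCommGroup W] [Module F W] :
    Subgroup (U ⊗[F] W ≃ₗ[F] U ⊗[F] W) where
  carrier := {g | ∃ A B, g = kr A B}
  mul_mem' := by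
    rintro _ _ ⟨A, B, rfl⟩ ⟨A', B', rfl⟩
    exact ⟨_, _, kr_mul _ _ _ _⟩
  one_mem' := ⟨1, 1, kr_one.symm⟩
  inv_mem' := by
    rintro _ ⟨A, B, rfl⟩
    exact ⟨_, _, kr_inv _ _⟩

theorem kr_mem_KG (A : U ≃ₗ[F] U) (B : W ≃ₗ[F] W) : kr A B ∈ KG F U W := ⟨A, B, rfl⟩

/-- the subspace `U ⊗ w` -/
def LW (F U : Type*) {W : Type*} [Field F] [AddCommGroup U] [Module F U] [AddCommGroup W]
    [Module F W] (w : W) : Submodule F (U ⊗[F] W) := LinearMap.range ((TensorProduct.mk F U W).flip w)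

theorem mem_LW {w : W} {v : U ⊗[F] W} : v ∈ LW F U w ↔ ∃ u, u ⊗ₜ w = v := Iff.rfl

theorem tmul_mem_LW (u : U) (w : W) : u ⊗ₜ w ∈ LW F U w := ⟨u, rfl⟩

theorem tmul_smul_mem_LW (u : U) (c : F) (w : W) : u ⊗ₜ (c • w) ∈ LW F U w :=
  ⟨c • u, by simp [smul_tmul]⟩

theorem tmul_left_inj {w : W} (hw : w ≠ 0) {u u' : U} (h : u ⊗ₜ[F] w = u' ⊗ₜ w) : u = u' := by
  obtain ⟨φ, hφ⟩ := exists_dual_one' (F := F) hw
  simpa [hφ] using congrArg (cR U φ) h

theorem tmul_right_inj {u : U} (hu : u ≠ 0) {w w' : W} (h : u ⊗ₜ[F] w = u ⊗ₜ w') : w = w' := by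
  obtain ⟨φ, hφ⟩ := exists_dual_one' (F := F) hu
  simpa [hφ] using congrArg (cL W φ) h

theorem tmul_ne_zero' {u : U} {w : W} (hu : u ≠ 0) (hw : w ≠ 0) : u ⊗ₜ[F] w ≠ 0 := fun h =>
  hu (tmul_left_inj hw (h.trans (zero_tmul U w).symm))

theorem finrank_LW {w : W} (hw : w ≠ 0) : finrank F (LW F U w) = finrank F U :=
  LinearMap.finrank_range_of_inj fun _ _ h => tmul_left_inj hw h

/-- a tensor lying in two lines -/
theorem smul_of_tmul_mem {u : U} {x w : W} (hu : u ≠ 0) (h : u ⊗ₜ[F] x ∈ LW F U w) :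
    ∃ c : F, x = c • w := by
  obtain ⟨u', h⟩ := h
  obtain ⟨φ, hφ⟩ := exists_dual_one' (F := F) hu
  exact ⟨φ u', by simpa [hφ] using (congrArg (cL W φ) h).symm⟩

theorem sub_cR_mem {C : Submodule F (U ⊗[F] W)} {φ : Dual F W} {f : W} (hf : φ f = 1)
    (h : ∀ u y, φ y = 0 → u ⊗ₜ y ∈ C) (v : U ⊗[F] W) : v - cR U φ v ⊗ₜ f ∈ C := by
  induction v with
  | zero => simp
  | tmul u x =>
    have := h u (x - φ x • f) (by simp [hf])
    simpa [tmul_sub, smul_tmul] using this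
  | add x y hx hy =>
    convert C.add_mem hx hy using 1
    simp only [map_add, add_tmul]; abel

variable [StarRing F]

/-- `h` is the tensor product of `h₁` and `h₂` -/
def TP (h₁ : HF F U) (h₂ : HF F W) (h : HF F (U ⊗[F] W)) : Prop :=
  ∀ u x u' x', h (u ⊗ₜ x) (u' ⊗ₜ x') = h₁ u u' * h₂ x x'

variable {h₁ : HF F U} {h₂ : HF F W} {h : HF F (U ⊗[F] W)}
  {M : Subgroup (U ⊗[F] W ≃ₗ[F] U ⊗[F] W)}

open HF

theorem TP.right (t : TP h₁ h₂ h) (v : U ⊗[F] W) (u : U) (w : W) :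
    h v (u ⊗ₜ w) = h₁ (cR U (h₂.lin w) v) u := by
  induction v with
  | zero => simp
  | tmul u x => simp [t _ _ _ _, mul_comm]
  | add x y hx hy => simp [hx, hy]

theorem TP.left (t : TP h₁ h₂ h) (v : U ⊗[F] W) (u : U) (w : W) :
    h (u ⊗ₜ w) v = h₁ u (cR U (h₂.lin w) v) := by
  rw [← h.conj, t.right, conj]

theorem TP.right' (t : TP h₁ h₂ h) (v : U ⊗[F] W) (u : U) (w : W) :
    h v (u ⊗ₜ w) = h₂ (cL W (h₁.lin u) v) w := by
  induction v with
  | zero => simp
  | tmul u x => simp [t _ _ _ _]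
  | add x y hx hy => simp [hx, hy]

theorem form_ext {v v' : U ⊗[F] W} (hv : ∀ u w, h v (u ⊗ₜ w) = h v' (u ⊗ₜ w)) : v = v' := by
  refine h.ext_left fun x => ?_
  induction x with
  | zero => simp
  | tmul u x => exact hv _ _
  | add x y hx hy => simp [hx, hy]

theorem TP.ext (t : TP h₁ h₂ h) {v v' : U ⊗[F] W}
    (hv : ∀ w, cR U (h₂.lin w) v = cR U (h₂.lin w) v') : v = v' :=
  form_ext (h := h) fun u w => by rw [t.right, t.right, hv]

theorem mem_GU_of_tmul {g : U ⊗[F] W ≃ₗ[F] U ⊗[F] W}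
    (hg : ∀ u x u' x', h (g (u ⊗ₜ x)) (g (u' ⊗ₜ x')) = h (u ⊗ₜ x) (u' ⊗ₜ x')) : g ∈ h.GU := by
  intro v v'
  induction v with
  | zero => simp
  | add x y hx hy => simp [hx, hy]
  | tmul u x =>
    induction v' with
    | zero => simp
    | add x y hx hy => simp [hx, hy]
    | tmul u' x' => exact hg _ _ _ _

theorem TP.kr_GU (t : TP h₁ h₂ h) {A : U ≃ₗ[F] U} {B : W ≃ₗ[F] W} (hA : A ∈ h₁.GU)
    (hB : B ∈ h₂.GU) : kr A B ∈ h.GU :=
  mem_GU_of_tmul fun u x u' x' => by rw [kr_tmul, kr_tmul, t, t, hA, hB]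

theorem TP.kr_SU [FiniteDimensional F U] [FiniteDimensional F W] (t : TP h₁ h₂ h)
    {A : U ≃ₗ[F] U} {B : W ≃ₗ[F] W} (hA : A ∈ h₁.SU) (hB : B ∈ h₂.SU) : kr A B ∈ h.SU :=
  mem_SU.2 ⟨t.kr_GU hA.1 hB.1, by rw [det_kr, (mem_SU.1 hA).2, (mem_SU.1 hB).2]; simp⟩

theorem cR_kr {A : U ≃ₗ[F] U} {B : W ≃ₗ[F] W} (hB : B ∈ h₂.GU) (w : W) (v : U ⊗[F] W) :
    cR U (h₂.lin (B w)) (kr A B v) = A (cR U (h₂.lin w) v) := by
  induction v with
  | zero => simp
  | tmul u x => simp [GU_app hB]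
  | add x y hx hy => simp [hx, hy]

theorem cR_add (x y : W) (v : U ⊗[F] W) :
    cR U (h₂.lin (x + y)) v = cR U (h₂.lin x) v + cR U (h₂.lin y) v := by
  induction v with
  | zero => simp
  | tmul u x => simp [add_smul]
  | add x y hx hy => simp [hx, hy]; abel

theorem cR_smul (c : F) (x : W) (v : U ⊗[F] W) :
    cR U (h₂.lin (c • x)) v = star c • cR U (h₂.lin x) v := by
  induction v with
  | zero => simp
  | tmul u x => simp [smul_smul]
  | add x y hx hy => simp [hx, hy]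

theorem kr_E_apply {w x : W} {c : F} (o : h₂.Ok w x c) (v : U ⊗[F] W) :
    kr 1 (h₂.E w x c) v = v + cR U (h₂.lin w) v ⊗ₜ x -
      (cR U (h₂.lin x) v + c • cR U (h₂.lin w) v) ⊗ₜ w := by
  induction v with
  | zero => simp
  | tmul u y =>
    simp only [kr_tmul, one_app, E_apply o, tmul_sub, tmul_add, tmul_smul, cR_tmul, lin_apply,
      add_tmul, smul_tmul', smul_smul, add_smul]
  | add x y hx hy =>
    simp only [map_add, hx, hy, add_tmul, smul_add]; abel

theorem kr_T_apply {w : W} {c : F} (hw : h₂ w w = 0) (hc : c + star c = 0) (v : U ⊗[F] W) :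
    kr 1 (h₂.T w c) v = v + c • cR U (h₂.lin w) v ⊗ₜ w := by
  induction v with
  | zero => simp
  | tmul u y =>
    simp only [kr_tmul, one_app, T_apply hw hc, tmul_add, tmul_smul, cR_tmul, lin_apply,
      smul_tmul', smul_smul]
  | add x y hx hy =>
    simp only [map_add, hx, hy, add_tmul, smul_add]; abel

theorem TP.mem_perp_LW (t : TP h₁ h₂ h) {w : W} {v : U ⊗[F] W} :
    v ∈ h.perp (LW F U w) ↔ cR U (h₂.lin w) v = 0 := by
  constructor
  · intro hv
    exact h₁.nd_left fun u => by rw [← t.right]; exact hv _ (tmul_mem_LW u w)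
  · rintro hv _ ⟨u, rfl⟩
    change h v (u ⊗ₜ w) = 0
    rw [t.right, hv, zero_left]

theorem cR_LW {w x : W} (hw : h₂ w x = 0) {v : U ⊗[F] W} (hv : v ∈ LW F U w) :
    cR U (h₂.lin x) v = 0 := by
  obtain ⟨u, rfl⟩ := mem_LW.1 hv
  simp [hw]

variable [NStar F] [Finite F] [FiniteDimensional F U] [FiniteDimensional F W]

theorem TP.le_of_X (t : TP h₁ h₂ h) (hM : M ≤ h.SU) (ha : 2 ≤ finrank F U) (hb : 3 ≤ finrank F W)
    (hX : ∀ u w, h₁ u u = 0 → h₂ w w = 0 → h.XIn M (u ⊗ₜ w)) : h.SU ≤ M := by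
  have hd := del_ne (F := F)
  obtain ⟨e, -, e', -, hee, hee', he⟩ := (ndOn_top (h := h₁)).exists_hyp (by simpa)
  obtain ⟨w, -, f, -, hww, hff, hwf⟩ := (ndOn_top (h := h₂)).exists_hyp (by simp; omega)
  have he' := symm1 he
  have hfw := symm1 hwf
  have hp : h (e ⊗ₜ w) (e ⊗ₜ w) = 0 := by rw [t, hee, zero_mul]
  have hXp := hX e w hee hww
  set C := core F (h.ME M _ hp) with hC
  have hpC : e ⊗ₜ w ∈ C := self_mem_core hp hXp
  have s0 : ∀ x, h₂ x x = 0 → h₂ x w = 1 → (del F * del F) • e ⊗ₜ[F] x ∈ h.ME M _ hp := by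
    intro x hx hxw
    have := smul_mem_ME_of_X (M := M) (w := e ⊗ₜ[F] (del F • x)) hp (by rw [t, hee, zero_mul])
      (by rw [t, hee, zero_mul]) del_tr hXp (hX _ _ hee (by simp [hx])) (by
        rw [← tmul_add]; exact hX _ _ hee (by simp [hx, hww, hxw, symm1 hxw]))
    rwa [tmul_smul, smul_smul] at this
  have s1 : ∀ y, h₂ y w = 0 → e ⊗ₜ y ∈ C := by
    intro y hy l
    obtain ⟨c, hc⟩ := exists_iso_add hww hff hwf (x := (l / (del F * del F)) • y) (by simp [hy])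
    have := AddSubgroup.add_mem _ (AddSubgroup.sub_mem _ (s0 _ hc (by simp [hfw, hy, hww]))
      (s0 f hff hfw)) (hpC (del F * del F * c))
    convert this using 1
    simp only [tmul_sub, tmul_add, tmul_smul]
    match_scalars <;> field_simp <;> ring
  have s2 : ∀ u, h₁ u u = 0 → h₁ u e = 1 → ∀ y (c : F), h₂ y w = 0 → (∀ a : F, y ≠ a • w) →
      h₂ (f + y - c • w) (f + y - c • w) = 0 → u ⊗ₜ (y - c • w) ∈ C := by
    intro u hu hue y c hy hy' hc
    obtain ⟨z, hz1, hz2⟩ := exists_dual_pair' (h := h₂) hy' 1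
    have := sub_mem_core hM hXp (s1 z (symm0 hz1)) (v := u ⊗ₜ (f + y - c • w)) (v' := u ⊗ₜ f)
      (by rw [t, hu, zero_mul]) (by rw [t, hu, zero_mul]) (hX _ _ hu hc) (hX _ _ hu hff)
      (by simp [t _ _ _ _, hue, hfw, hy, hww]) (by simp [t _ _ _ _, hue, hfw])
      (by rw [t, hu, zero_mul]) (by
        rw [← tmul_sub, t, symm1 hue]; simp [symm0 hz1, symm1 hz2])
    convert this using 1
    rw [← tmul_sub]; congr 1; abel
  have s3 : ∀ u, h₁ u u = 0 → h₁ u e = 1 → u ⊗ₜ w ∈ C := by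
    intro u hu hue
    obtain ⟨y, hy, hy'⟩ := exists_not_mem_one (K := h₂.pv w) (by
      have := finrank_ker_ge (h₂.lin w); unfold pv; omega) w
    obtain ⟨c, hc⟩ := exists_iso_add hww hff hwf hy
    have := C.smul_mem (del F)⁻¹ (C.sub_mem (s2 u hu hue y c hy hy' hc) (s2 u hu hue y (c + del F)
      hy hy' (by
        simp only [sub_left, sub_right, smul_left, smul_right, add_left, add_right, star_add,
          star_del, mem_pv.1 hy, symm0 (mem_pv.1 hy), hww, hwf, hfw] at hc ⊢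
        linear_combination hc)))
    convert this using 1
    simp only [tmul_sub, tmul_smul]
    match_scalars <;> field_simp <;> ring
  have s4 : ∀ u y, h₂ y w = 0 → u ⊗ₜ y ∈ C := by
    intro u y hy
    refine eq_top_of_iso (A := C.comap ((TensorProduct.mk F U W).flip y)) hee hee' he (s1 y hy)
      (fun u hu hue => ?_) u
    change u ⊗ₜ y ∈ C
    by_cases hy' : ∃ a : F, y = a • w
    · obtain ⟨a, rfl⟩ := hy'
      rw [tmul_smul]; exact C.smul_mem _ (s3 u hu hue)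
    · push Not at hy'
      obtain ⟨c, hc⟩ := exists_iso_add hww hff hwf hy
      simpa [tmul_sub] using C.add_mem (s2 u hu hue y c hy hy' hc) (C.smul_mem c (s3 u hu hue))
  have s5 : ∀ x (c : F), h₁ x e = 0 → h₁ (e' + x - c • e) (e' + x - c • e) = 0 →
      (x - c • e) ⊗ₜ f ∈ C := by
    intro x c hx hc
    by_cases h0 : x - c • e = 0
    · rw [h0, zero_tmul]; exact C.zero_mem
    obtain ⟨u, hu⟩ := h₁.exists_ne h0
    have := sub_mem_core hM hXp (s4 u w hww) (v := (e' + x - c • e) ⊗ₜ f) (v' := e' ⊗ₜ f)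
      (by rw [t, hff, mul_zero]) (by rw [t, hff, mul_zero]) (hX _ _ hc hff) (hX _ _ hee' hff)
      (by simp [t _ _ _ _, he', hfw, hx, hee]) (by simp [t _ _ _ _, he', hfw])
      (by rw [t, hff, mul_zero]) (by
        rw [← sub_tmul, t, hwf, mul_one]; convert hu using 2; abel)
    convert this using 1
    rw [← sub_tmul]; congr 1; abel
  have s6 : e ⊗ₜ f ∈ C := by
    have := C.smul_mem (-(del F)⁻¹) (s5 0 (del F) (by simp) (by simp [hee, hee', he, he']))
    convert this using 1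
    simp only [zero_sub, neg_tmul, ← smul_tmul']
    match_scalars; field_simp
  have s7 : ∀ x, h₁ x e = 0 → x ⊗ₜ f ∈ C := by
    intro x hx
    obtain ⟨c, hc⟩ := exists_iso_add hee hee' he hx
    simpa [sub_tmul, ← smul_tmul'] using C.add_mem (s5 x c hx hc) (C.smul_mem c s6)
  refine SU_le_of_Q_X hM hp (qIn_of_ME hp hXp fun v _ hv => mem_of_mem_core (F := F) ?_)
    (f := e' ⊗ₜ f) (by rw [t, hff, mul_zero]) (by simp [t _ _ _ _, he, hwf]) (hX _ _ hee' hff)
  rw [t.right] at hv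
  simpa using C.add_mem (sub_cR_mem (φ := h₂.lin w) hfw s4 v) (s7 _ hv)

end Cfsg.Agent.H5.U
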