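import Cfsg.Agent.H5.U.Ten1

/-! Tensor products of unitary spaces: the unipotent radical of the stabiliser of `U ⊗ w`. -/

set_option autoImplicit false
set_option linter.unusedSimpArgs false
set_option linter.unusedSectionVars false
set_option linter.unusedVariables false

namespace Cfsg.Agent.H5.U

open Module H6 TensorProduct HF

variable {F : Type*} {U W : Type*} [Field F] [AddCommGroup U] [Module F U]
  [AddCommGroup W] [Module F W] [StarRing F] [NStar F] [Finite F] [FiniteDimensional F U]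
  [FiniteDimensional F W]

/-- standing hypotheses -/
structure TC (h₁ : HF F U) (h₂ : HF F W) (h : HF F (U ⊗[F] W))
    (M : Subgroup (U ⊗[F] W ≃ₗ[F] U ⊗[F] W)) : Prop where
  t : TP h₁ h₂ h
  hM : M ≤ h.SU
  hH : ∀ g ∈ h.SU, g ∈ KG F U W → g ∈ M
  ha : 2 ≤ finrank F U
  hab : finrank F U < finrank F W
  hq : (∃ s : F, star s = s ∧ s ≠ 0 ∧ s ≠ 1) ∨ 3 ≤ finrank F U
  hne : ¬ h.SU ≤ M

variable {h₁ : HF F U} {h₂ : HF F W} {h : HF F (U ⊗[F] W)}
  {M : Subgroup (U ⊗[F] W ≃ₗ[F] U ⊗[F] W)}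

theorem TC.hb (c : TC h₁ h₂ h M) : 3 ≤ finrank F W := by have := c.ha; have := c.hab; omega

theorem TC.kr_mem (c : TC h₁ h₂ h M) {A : U ≃ₗ[F] U} {B : W ≃ₗ[F] W} (hA : A ∈ h₁.SU)
    (hB : B ∈ h₂.SU) : kr A B ∈ M := c.hH _ (c.t.kr_SU hA hB) (kr_mem_KG _ _)

theorem TC.kr1_mem (c : TC h₁ h₂ h M) {B : W ≃ₗ[F] W} (hB : B ∈ h₂.SU) : kr 1 B ∈ M :=
  c.kr_mem h₁.SU.one_mem hB

theorem TC.trans (c : TC h₁ h₂ h M) {w w' : W} (hw0 : w ≠ 0) (hw : h₂ w w = 0) (hw0' : w' ≠ 0)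
    (hw' : h₂ w' w' = 0) : ∃ B ∈ h₂.SU, B w = w' := by
  obtain ⟨B, hB, h1⟩ := (ndOn_top (h := h₂)).trans_iso (by simpa using c.hb) trivial hw0 hw trivial
    hw0' hw'
  exact ⟨B, SUW_le_SU _ hB, h1⟩

theorem TC.not_X (c : TC h₁ h₂ h M) {e : U} {w : W} (he0 : e ≠ 0) (he : h₁ e e = 0) (hw0 : w ≠ 0)
    (hw : h₂ w w = 0) : ¬ h.XIn M (e ⊗ₜ w) := by
  intro hX
  refine c.hne (c.t.le_of_X c.hM c.ha c.hb fun u x hu hx => ?_)
  by_cases hu0 : u = 0
  · rw [hu0, zero_tmul]; exact xIn_zero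
  by_cases hx0 : x = 0
  · rw [hx0, tmul_zero]; exact xIn_zero
  obtain ⟨A, hA, a, ha, h1⟩ := move_iso (M := h₁.SUW ⊤) (ndOn_top (h := h₁)) (by simpa using c.ha)
    (fun e he => qIn_SUW he) trivial he0 he trivial hu0 hu
  obtain ⟨B, hB, h2⟩ := c.trans hw0 hw hx0 hx
  have := hX.map c.hM (by rw [c.t, he, zero_mul]) (c.kr_mem (SUW_le_SU _ hA) hB)
  rw [kr_tmul, h1, h2, ← smul_tmul'] at this
  exact XIn.of_smul (by rw [c.t, hu, zero_mul]) ha this

/-- the elements `1 + S ⊗ w w*` of `M` -/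
def ZS (h₂ : HF F W) (M : Subgroup (U ⊗[F] W ≃ₗ[F] U ⊗[F] W)) (w : W) (S : U → U) : Prop :=
  ∃ z ∈ M, ∀ v, z v = v + S (cR U (h₂.lin w) v) ⊗ₜ w

variable {w : W} {S S' : U → U}

theorem ZS.congr (hS : ZS h₂ M w S) (h : ∀ x, S' x = S x) : ZS h₂ M w S' := by
  rwa [funext h]

theorem ZS.sub (hw : h₂ w w = 0) (hS : ZS h₂ M w S) (hS' : ZS h₂ M w S') :
    ZS h₂ M w fun x => S x - S' x := by
  obtain ⟨z, hz, h1⟩ := hS
  obtain ⟨z', hz', h2⟩ := hS'
  refine ⟨z * z'⁻¹, M.mul_mem hz (M.inv_mem hz'), fun v => ?_⟩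
  obtain ⟨v, rfl⟩ := z'.surjective v
  rw [mul_app, inv_apply_apply, h1, h2]
  simp [hw, sub_tmul]

theorem ZS.conj (c : TC h₁ h₂ h M) (hS : ZS h₂ M w S) {A : U ≃ₗ[F] U} (hA : A ∈ h₁.SU) :
    ZS h₂ M w fun x => A (S (A⁻¹ x)) := by
  obtain ⟨z, hz, h1⟩ := hS
  have hk := c.kr_mem hA h₂.SU.one_mem
  refine ⟨_, M.mul_mem (M.mul_mem hk hz) (M.inv_mem hk), fun v => ?_⟩
  have := cR_kr (A := A⁻¹) h₂.GU.one_mem w v
  rw [one_app] at this
  rw [mul_app, mul_app, h1, map_add, apply_inv_apply, kr_inv, inv_one, this]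
  rfl

theorem ZS.scale (c : TC h₁ h₂ h M) (hw0 : w ≠ 0) (hw : h₂ w w = 0) (hS : ZS h₂ M w S) {s : F}
    (hs : star s = s) (hs0 : s ≠ 0) : ∃ m : F, m * star m = s ∧
      ZS h₂ M w fun x => m • S (star m • x) := by
  obtain ⟨m, hm0, hm⟩ := exists_norm' hs hs0
  obtain ⟨z, hz, h1⟩ := hS
  obtain ⟨B, hB, h2⟩ := c.trans hw0 hw (smul_ne_zero hm0 hw0) (by simp [hw])
  have hk := c.kr1_mem hB
  refine ⟨m, hm, _, M.mul_mem (M.mul_mem hk hz) (M.inv_mem hk), fun v => ?_⟩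
  obtain ⟨v, rfl⟩ := (kr 1 B).surjective v
  have := cR_kr (A := 1) hB.1 w v
  rw [h2, cR_smul, one_app] at this
  rw [mul_app, mul_app, inv_apply_apply, h1, map_add]
  simp only [this, kr_tmul, one_app, h2, smul_tmul]

/-- the skew-hermitian maps of rank at most two attached to `e` -/
def Yf (h₁ : HF F U) (e y : U) (d : F) (x : U) : U := h₁ x e • y - (h₁ x y + d * h₁ x e) • e

section Y

variable {e y y' : U} {d d' : F}

theorem ZS.subY (hw : h₂ w w = 0) (hS : ZS h₂ M w (Yf h₁ e y d)) (hS' : ZS h₂ M w (Yf h₁ e y' d')) :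
    ZS h₂ M w (Yf h₁ e (y - y') (d - d')) :=
  (hS.sub hw hS').congr fun x => by simp only [Yf, sub_right]; module

theorem ZS.conjY (c : TC h₁ h₂ h M) (hS : ZS h₂ M w (Yf h₁ e y d)) {A : U ≃ₗ[F] U}
    (hA : A ∈ h₁.SU) (hAe : A e = e) : ZS h₂ M w (Yf h₁ e (A y) d) :=
  (hS.conj c hA).congr fun x => by
    simp only [Yf, map_sub, map_smul, ← GU_right hA.1, hAe]

theorem ZS.scaleY (c : TC h₁ h₂ h M) (hw0 : w ≠ 0) (hw : h₂ w w = 0)
    (hS : ZS h₂ M w (Yf h₁ e y d)) {s : F} (hs : star s = s) (hs0 : s ≠ 0) :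
    ZS h₂ M w (Yf h₁ e (s • y) (s * d)) := by
  obtain ⟨m, hm, h1⟩ := hS.scale c hw0 hw hs hs0
  refine h1.congr fun x => ?_
  simp only [Yf, smul_left, smul_right, hs]
  rw [← hm]; module

theorem ZS.finY (c : TC h₁ h₂ h M) (hw0 : w ≠ 0) (hw : h₂ w w = 0) (he0 : e ≠ 0) (he : h₁ e e = 0)
    {a : F} (hS : ZS h₂ M w (Yf h₁ e (a • e) d)) (hd : d + star d = 0) : a - star a - d = 0 := by
  by_contra h0
  refine c.not_X he0 he hw0 hw fun s hs => ?_
  by_cases hs0 : s = 0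
  · rw [hs0, T_zero]; exact M.one_mem
  have h1 : star (a - star a - d) = -(a - star a - d) := by
    simp only [star_sub, star_star]; linear_combination -hd
  have h2 : star s = -s := by linear_combination hs
  obtain ⟨z, hz, h3⟩ := hS.scaleY c hw0 hw (s := s / (a - star a - d)) (by
    rw [star_div₀, h1, h2, neg_div_neg_eq]) (div_ne_zero hs0 h0)
  convert hz using 1
  ext v
  rw [h3, T_apply (by rw [c.t, he, zero_mul]) hs, c.t.right, smul_tmul']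
  congr 2
  simp only [Yf, smul_right, star_div₀, h1, h2, neg_div_neg_eq]
  match_scalars
  field_simp
  ring

end Y

theorem ZS.skew (c : TC h₁ h₂ h M) (hw0 : w ≠ 0) (hw : h₂ w w = 0) (hS : ZS h₂ M w S) (u u' : U) :
    h₁ (S u) u' = - h₁ u (S u') := by
  obtain ⟨z, hz, h1⟩ := hS
  obtain ⟨f, hf, hwf⟩ := exists_partner_top hw0 hw
  have := (c.hM hz).1 (u ⊗ₜ f) (u' ⊗ₜ f)
  simp only [h1, cR_tmul, lin_apply, symm1 hwf, one_smul, add_left, add_right, c.t _ _ _ _, hf,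
    hw, hwf] at this
  linear_combination this

theorem ZS.eig (c : TC h₁ h₂ h M) (hw0 : w ≠ 0) (hw : h₂ w w = 0) {S : U →ₗ[F] U}
    (hS : ZS h₂ M w S) {e : U} (he0 : e ≠ 0) (he : h₁ e e = 0) : ∃ a : F, S e = a • e := by
  by_contra! hy
  have hd := del_ne (F := F)
  have hsk := hS.skew c hw0 hw
  have hk : star (h₁ (S e) e) = - h₁ (S e) e := by rw [h₁.conj, hsk e e, neg_neg]
  have h1 : ∀ s : F, s + star s = 0 → ZS h₂ M w (Yf h₁ e (-s • S e) (s * s * h₁ (S e) e)) := by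
    intro s hs
    have hs' : star s = -s := by linear_combination hs
    refine ((hS.conj c (T_mem_SU e s)).sub hw hS).congr fun x => ?_
    rw [T_inv he hs, T_apply he (c := -s) (by simp [hs']), T_apply he hs]
    simp only [Yf, map_add, map_smul, add_left, smul_left, smul_right, star_neg, hs', hsk x e]
    module
  have h2 := h1 _ del_tr
  by_cases hκ : h₁ (S e) e = 0
  · obtain ⟨a, ha⟩ := NStar.exists_ne (F := F)
    obtain ⟨x, hx1, hx2⟩ := exists_dual_pair' (h := h₁) hy (a / del F)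
    obtain ⟨d, hd'⟩ := exists_tr (t := h₁ x x) (h₁.conj _ _)
    have o : h₁.Ok e x d := ⟨he, symm0 hx1, hd'⟩
    have h3 := (h2.conjY c (E_mem_SU e x d) (E_self o)).subY hw h2
    rw [E_apply_of_perp_left o (by simp [hκ]), sub_sub_cancel_left, sub_self, ← neg_smul] at h3
    have := h3.finY c hw0 hw he0 he (by simp)
    simp only [smul_left, hx2, neg_mul, neg_neg, mul_div_cancel₀ _ hd, sub_zero] at this
    exact ha (sub_eq_zero.1 this).symm
  by_cases hq : ∃ s : F, star s = s ∧ s ≠ 0 ∧ s ≠ 1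
  · obtain ⟨s, hs, hs0, hs1⟩ := hq
    have h3 := (h2.scaleY c hw0 hw hs hs0).subY hw (h1 (s * del F) (by simp [hs]))
    rw [show s • -del F • S e - -(s * del F) • S e = (0 : F) • e by module] at h3
    have := h3.finY c hw0 hw he0 he (by simp only [star_sub, star_mul', hs, star_del, hk]; ring)
    have h4 : s * (s - 1) * (del F * del F * h₁ (S e) e) = 0 := by
      rw [star_zero] at this; linear_combination this
    simp [hs0, sub_eq_zero, hs1, hd, hκ] at h4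
  have h3 := c.hq.resolve_left hq
  have h2F : (2 : F) = 0 := by
    by_contra h2F
    exact hq ⟨2, by simp, h2F, fun h' => one_ne_zero (α := F) (by linear_combination h')⟩
  obtain ⟨f, -, hff, hef, p, r, hf⟩ := exists_partner (W := ⊤) trivial trivial he (symm_ne hκ)
  obtain ⟨x, ⟨⟨-, hxe⟩, hxf⟩, hxx⟩ := ((ndOn_top (h := h₁)).inf_pv₂ trivial trivial he hff
    hef).exists_unit (by
      intro h0
      have := finrank_inf_hyp (h := h₁) (W := ⊤) trivial trivial he hef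
      rw [h0] at this; simp at this; omega)
  replace hxe : h₁ x e = 0 := hxe
  replace hxf : h₁ x f = 0 := hxf
  have hp : p ≠ 0 := by rintro rfl; simp [hf, he] at hef
  have hxy : h₁ (S e) x = 0 := by
    have := symm0 hxf
    simpa [hf, symm0 hxe, hp] using this
  have h4 : ∀ l : F, ∃ d : F, d + star d = l * star l ∧ ZS h₂ M w (Yf h₁ e
      ((-del F * h₁ (S e) e) • (l • x - d • e)) 0) := by
    intro l
    obtain ⟨d, hd'⟩ := exists_tr (t := l * star l) (star_norm l)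
    have o : h₁.Ok e (l • x) d := ⟨he, by simp [hxe], by simp [hd', hxx, mul_comm]⟩
    have h3 := (h2.conjY c (E_mem_SU e (l • x) d) (E_self o)).subY hw h2
    rw [E_apply o, sub_self] at h3
    refine ⟨d, hd', ?_⟩
    convert h3 using 2
    simp only [smul_left, smul_right, hxy]
    module
  obtain ⟨l, hl⟩ := exists_tr_one F
  obtain ⟨d₁, e1, k1⟩ := h4 1
  obtain ⟨d₂, e2, k2⟩ := h4 l
  obtain ⟨d₃, e3, k3⟩ := h4 (1 + l)
  have h5 := (k3.subY hw k1).subY hw k2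
  rw [show (-del F * h₁ (S e) e) • ((1 + l) • x - d₃ • e) - (-del F * h₁ (S e) e) •
    ((1 : F) • x - d₁ • e) - (-del F * h₁ (S e) e) • (l • x - d₂ • e) =
      ((del F * h₁ (S e) e) * (d₃ - d₁ - d₂)) • e by module] at h5
  have := h5.finY c hw0 hw he0 he (by simp)
  simp only [star_mul', star_del, hk, star_sub, star_add, star_one] at this e1 e2 e3
  have h6 : del F * h₁ (S e) e = 0 := by
    linear_combination -this + (del F * h₁ (S e) e) * (e3 - e1 - e2 + hl) -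
      (del F * h₁ (S e) e) * (star d₃ - star d₁ - star d₂ - 1) * h2F
  simp [hd, hκ] at h6

theorem ZS.scalar (c : TC h₁ h₂ h M) (hw0 : w ≠ 0) (hw : h₂ w w = 0) {S : U →ₗ[F] U}
    (hS : ZS h₂ M w S) : ∃ a : F, a + star a = 0 ∧ ∀ u, S u = a • u := by
  have hd := del_ne (F := F)
  have hsk := hS.skew c hw0 hw
  obtain ⟨e, -, f, -, hee, hff, hef⟩ := (ndOn_top (h := h₁)).exists_hyp (by simpa using c.ha)
  have he0 : e ≠ 0 := ne_zero_left (by rw [hef]; exact one_ne_zero)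
  obtain ⟨a, ha⟩ := hS.eig c hw0 hw he0 hee
  have h1 : ∀ u, h₁ u u = 0 → h₁ u e = 1 → S u = -star a • u := by
    intro u hu hue
    obtain ⟨b, hb⟩ := hS.eig c hw0 hw (ne_zero_left (by rw [hue]; exact one_ne_zero)) hu
    have := hsk u e
    simp only [ha, hb, smul_left, smul_right, hue, mul_one] at this
    rw [hb, this]
  have h2 : a = -star a := by
    have := h1 (f + del F • e) (by simp [hee, hff, hef, symm1 hef]) (by simp [hee, symm1 hef])
    rw [map_add, map_smul, ha, h1 f hff (symm1 hef), smul_add, add_right_inj, smul_smul,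
      smul_smul, mul_comm] at this
    exact mul_right_cancel₀ hd (smul_left_injective F he0 this)
  refine ⟨a, by linear_combination h2, fun u => ?_⟩
  have := eq_top_of_iso (A := LinearMap.ker (S - a • LinearMap.id)) hee hff hef (by simp [ha])
    (fun u hu hue => by simp [h1 u hu hue, ← h2]) u
  simpa [sub_eq_zero] using this

theorem TC.Z (c : TC h₁ h₂ h M) (hw0 : w ≠ 0) (hw : h₂ w w = 0)
    {z : U ⊗[F] W ≃ₗ[F] U ⊗[F] W} (hz : z ∈ M) (h1 : ∀ v, z v - v ∈ LW F U w) :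
    ∃ a : F, a + star a = 0 ∧ z = kr 1 (h₂.T w a) := by
  obtain ⟨f, hf, hwf⟩ := exists_partner_top hw0 hw
  have hfw := symm1 hwf
  have h2 : ∀ v, cR U (h₂.lin w) v = 0 → z v = v := by
    intro v hv
    refine sub_eq_zero.1 (h.nd_left fun y => ?_)
    obtain ⟨y, rfl⟩ := z.surjective y
    have := c.t.mem_perp_LW.2 hv _ (h1 y)
    rw [sub_left, (c.hM hz).1]
    rw [sub_right] at this
    linear_combination -this
  let S : U →ₗ[F] U := cR U (h₂.lin f) ∘ₗ ((z : U ⊗[F] W →ₗ[F] U ⊗[F] W) - LinearMap.id) ∘ₗ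
    (TensorProduct.mk F U W).flip f
  have h3 : ∀ v, z v = v + S (cR U (h₂.lin w) v) ⊗ₜ w := by
    intro v
    have := h2 (v - cR U (h₂.lin w) v ⊗ₜ f) (by simp [hfw])
    obtain ⟨u, hu⟩ := mem_LW.1 (h1 (cR U (h₂.lin w) v ⊗ₜ f))
    have h4 : S (cR U (h₂.lin w) v) = u := by
      change cR U (h₂.lin f) (z (cR U (h₂.lin w) v ⊗ₜ f) - cR U (h₂.lin w) v ⊗ₜ f) = u
      rw [← hu]; simp [hwf]
    rw [map_sub] at this
    rw [h4, hu]
    linear_combination (norm := module) this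
  obtain ⟨a, ha, h4⟩ := ZS.scalar c hw0 hw ⟨z, hz, h3⟩
  exact ⟨a, ha, LinearEquiv.ext fun v => by rw [h3, h4, kr_T_apply hw ha, smul_tmul']⟩

theorem TP.cR_of_fix (t : TP h₁ h₂ h) {n : U ⊗[F] W ≃ₗ[F] U ⊗[F] W} (hn : n ∈ h.GU)
    (h1 : ∀ u, n (u ⊗ₜ w) = u ⊗ₜ w) (v : U ⊗[F] W) :
    cR U (h₂.lin w) (n v) = cR U (h₂.lin w) v :=
  h₁.ext_left fun u => by rw [← t.right, ← t.right, ← hn v, h1]

theorem TP.mem_LW_of (t : TP h₁ h₂ h) (hw0 : w ≠ 0) {v : U ⊗[F] W}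
    (hv : ∀ x, h₂ x w = 0 → cR U (h₂.lin x) v = 0) : v ∈ LW F U w := by
  rw [← perp_perp (h := h) (LW F U w)]
  intro y hy
  obtain ⟨f, hf⟩ := h₂.exists_ne hw0
  have := sub_cR_mem (C := h.pv v) (φ := h₂.lin w) (f := (h₂ f w)⁻¹ • f) (by simp [hf])
    (fun u x hx => by rw [mem_pv, t.left, hv x hx, zero_right]) y
  rw [t.mem_perp_LW.1 hy, zero_tmul, sub_zero] at this
  exact symm0 this

theorem kr_E_fix {x : W} {d : F} (o : h₂.Ok w x d) (u : U) :
    kr 1 (h₂.E w x d) (u ⊗ₜ w) = u ⊗ₜ[F] w := by rw [kr_tmul, E_self o, one_app]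

theorem kr_E_sub {x : W} {d : F} (o : h₂.Ok w x d) {v : U ⊗[F] W} (hv : cR U (h₂.lin w) v = 0) :
    kr 1 (h₂.E w x d) v - v ∈ LW F U w := by
  rw [kr_E_apply o, hv, zero_tmul, add_zero, sub_sub_cancel_left]
  exact Submodule.neg_mem _ (tmul_mem_LW _ _)

theorem TC.Q (c : TC h₁ h₂ h M) (hw0 : w ≠ 0) (hw : h₂ w w = 0)
    {n : U ⊗[F] W ≃ₗ[F] U ⊗[F] W} (hn : n ∈ M) (h1 : ∀ u, n (u ⊗ₜ w) = u ⊗ₜ w)
    (h2 : ∀ v, cR U (h₂.lin w) v = 0 → n v - v ∈ LW F U w) :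
    ∃ x d, h₂.Ok w x d ∧ n = kr 1 (h₂.E w x d) := by
  obtain ⟨f, hf, hwf⟩ := exists_partner_top hw0 hw
  have hfw := symm1 hwf
  have hG := (c.hM hn).1
  have h3 := c.t.cR_of_fix hG h1
  have h1' : ∀ l ∈ LW F U w, n l = l := by rintro _ ⟨u, rfl⟩; exact h1 u
  have h4 : ∀ x, h₂ x w = 0 → ∃ a : F, ∀ u u', h₁ (cR U (h₂.lin x) (n (u ⊗ₜ f) - u ⊗ₜ f)) u' -
      h₁ u (cR U (h₂.lin x) (n (u' ⊗ₜ f) - u' ⊗ₜ f)) = a * h₁ u u' := by
    intro x hx
    obtain ⟨d, hd⟩ := exists_tr (t := h₂ x x) (h₂.conj _ _)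
    have o : h₂.Ok w x d := ⟨hw, hx, hd⟩
    have he := c.kr1_mem (E_mem_SU w x d)
    set E := kr (1 : U ≃ₗ[F] U) (h₂.E w x d) with hE
    have h5 : ∀ v, cR U (h₂.lin w) (E v) = cR U (h₂.lin w) v :=
      c.t.cR_of_fix (c.hM he).1 (kr_E_fix o)
    have h6 : ∀ v, n (E v) - E (n v) = (n (E v - v) - (E v - v)) - (E (n v - v) - (n v - v)) :=
      fun v => by simp only [map_sub]; abel
    obtain ⟨a, ha, h7⟩ := c.Z hw0 hw
      (M.mul_mem (M.mul_mem hn he) (M.inv_mem (M.mul_mem he hn))) (fun v => by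
        obtain ⟨v, rfl⟩ := (E * n).surjective v
        rw [mul_app, inv_apply_apply, mul_app, mul_app, h6]
        exact Submodule.sub_mem _ (h2 _ (by simp [h5])) (kr_E_sub o (by simp [h3])))
    refine ⟨a, fun u u' => ?_⟩
    have h8 := LinearEquiv.congr_fun h7 ((E * n) (u ⊗ₜ f))
    rw [mul_app, inv_apply_apply, mul_app, mul_app, kr_T_apply hw ha, h5, h3, ← sub_eq_iff_eq_add',
      h6] at h8
    have h9 : n (E (u ⊗ₜ f) - u ⊗ₜ f) - (E (u ⊗ₜ f) - u ⊗ₜ f) = n (u ⊗ₜ x) - u ⊗ₜ x := by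
      rw [hE, kr_E_apply o]
      simp only [map_sub, map_add, h1, cR_tmul, lin_apply, hfw, one_smul]
      abel
    have h10 : E (n (u ⊗ₜ f) - u ⊗ₜ f) - (n (u ⊗ₜ f) - u ⊗ₜ f) =
        -(cR U (h₂.lin x) (n (u ⊗ₜ f) - u ⊗ₜ f) ⊗ₜ w) := by
      rw [hE, kr_E_apply o, show cR U (h₂.lin w) (n (u ⊗ₜ f) - u ⊗ₜ f) = 0 by simp [h3]]
      simp
    rw [h9, h10] at h8
    have h11 := congrArg (fun v => h v (u' ⊗ₜ f)) h8
    have h12 : h (n (u' ⊗ₜ f) - u' ⊗ₜ f) (n (u ⊗ₜ x) - u ⊗ₜ x) = 0 :=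
      c.t.mem_perp_LW.2 (by simp [h3]) _ (h2 _ (by simp [hx]))
    have h13 := symm0 h12
    rw [← c.t.left]
    simp only [sub_left, sub_right, neg_left, smul_left, c.t _ _ _ _, hwf, cR_tmul, lin_apply, hfw,
      one_smul, hG _ _] at h11 h13 ⊢
    linear_combination h11 + h13
  have h5 : ∀ x, h₂ x w = 0 → ∃ a : F, ∀ u, cR U (h₂.lin x) (n (u ⊗ₜ f) - u ⊗ₜ f) = a • u := by
    intro x hx
    obtain ⟨l, hl⟩ := NStar.exists_ne (F := F)
    obtain ⟨a, ha⟩ := h4 x hx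
    obtain ⟨b, hb⟩ := h4 (l • x) (by simp [hx])
    refine ⟨(l * a - b) / (l - star l), fun u => h₁.ext_left fun u' => ?_⟩
    have := hb u u'
    simp only [cR_smul, smul_left, smul_right, star_star] at this
    have h6 : l - star l ≠ 0 := sub_ne_zero.2 hl.symm
    rw [smul_left]
    field_simp
    linear_combination l * ha u u' - this
  obtain ⟨u₀, -, hu₀⟩ := (ndOn_top (h := h₁)).exists_unit (by
    intro h0
    have := c.ha
    rw [← finrank_top, h0] at this; simp at this)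
  set x := cL W (h₁.lin u₀) (n (u₀ ⊗ₜ f) - u₀ ⊗ₜ f) with hx
  have hxw : h₂ x w = 0 := by rw [hx, ← c.t.right', c.t.right]; simp [h3]
  have h6 : ∀ u, n (u ⊗ₜ f) - u ⊗ₜ f - u ⊗ₜ x ∈ LW F U w := fun u =>
    c.t.mem_LW_of hw0 fun y hy => by
      obtain ⟨a, ha⟩ := h5 y hy
      have : h₂ x y = a := by rw [hx, ← c.t.right', c.t.right, ha]; simp [hu₀]
      rw [map_sub, ha]; simp [this]
  obtain ⟨d, hd⟩ := exists_tr (t := h₂ x x) (h₂.conj _ _)
  have o : h₂.Ok w x d := ⟨hw, hxw, hd⟩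
  have he := c.kr1_mem (E_mem_SU w x d)
  obtain ⟨a, ha, h7⟩ := c.Z hw0 hw (M.mul_mem hn (M.inv_mem he)) (fun v => by
    obtain ⟨v, rfl⟩ := (kr (1 : U ≃ₗ[F] U) (h₂.E w x d)).surjective v
    rw [mul_app, inv_apply_apply]
    have h8 : cR U (h₂.lin w) (v - cR U (h₂.lin w) v ⊗ₜ f) = 0 := by simp [hfw]
    have := Submodule.add_mem _ (Submodule.add_mem _ (Submodule.sub_mem _ (h2 _ h8) (kr_E_sub o h8))
      (h6 (cR U (h₂.lin w) v))) (tmul_mem_LW (cR U (h₂.lin x) (cR U (h₂.lin w) v ⊗ₜ f) +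
        d • cR U (h₂.lin w) v) w)
    convert this using 1
    simp only [map_sub, kr_E_apply o (cR U (h₂.lin w) v ⊗ₜ f), cR_tmul, lin_apply, hfw, one_smul]
    abel)
  refine ⟨_, _, (okT hw ha).add o, ?_⟩
  rw [← E_mul (okT hw ha) o, mul_inv_eq_iff_eq_mul.1 h7, kr_mul, one_mul, T]

end Cfsg.Agent.H5.U
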