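import Cfsg.Agent.H5.U.Ten2

/-! Tensor products of unitary spaces: the stabiliser of `U ⊗ w`. -/

set_option autoImplicit false
set_option linter.unusedSimpArgs false
set_option linter.unusedSectionVars false
set_option linter.unusedVariables false

namespace Cfsg.Agent.H5.U

open Module H6 TensorProduct HF

variable {F : Type*} {U W : Type*} [Field F] [AddCommGroup U] [Module F U]
  [AddCommGroup W] [Module F W] [StarRing F] [NStar F] [Finite F] [FiniteDimensional F U]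
  [FiniteDimensional F W]

variable {h₁ : HF F U} {h₂ : HF F W} {h : HF F (U ⊗[F] W)}
  {M : Subgroup (U ⊗[F] W ≃ₗ[F] U ⊗[F] W)} {w : W} {g : U ⊗[F] W ≃ₗ[F] U ⊗[F] W}

theorem TP.perp_stab (t : TP h₁ h₂ h) (hg : g ∈ h.GU) (h1 : ∀ v ∈ LW F U w, g v ∈ LW F U w)
    {v : U ⊗[F] W} (hv : cR U (h₂.lin w) v = 0) : cR U (h₂.lin w) (g v) = 0 :=
  t.mem_perp_LW.1 fun l hl => by
    rw [GU_left hg]; exact t.mem_perp_LW.2 hv _ (inv_mem_of_stab h1 l hl)

theorem TC.exists_unit (c : TC h₁ h₂ h M) : ∃ u, h₁ u u = 1 := by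
  obtain ⟨u₀, -, hu₀⟩ := (ndOn_top (h := h₁)).exists_unit (by
    intro h0
    have := c.ha
    rw [← finrank_top, h0] at this; simp at this)
  exact ⟨u₀, hu₀⟩

theorem TC.stab (c : TC h₁ h₂ h M) (hw0 : w ≠ 0) (hw : h₂ w w = 0) (hg : g ∈ M)
    (h1 : ∀ v ∈ LW F U w, g v ∈ LW F U w) : g ∈ KG F U W := by
  have hd := del_ne (F := F)
  obtain ⟨f, hf, hwf⟩ := exists_partner_top hw0 hw
  have hfw := symm1 hwf
  have hG := (c.hM hg).1
  have h1' := inv_mem_of_stab h1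
  let A₀ : U →ₗ[F] U := cR U (h₂.lin f) ∘ₗ (g : U ⊗[F] W →ₗ[F] U ⊗[F] W) ∘ₗ
    (TensorProduct.mk F U W).flip w
  have a0 : ∀ u, g (u ⊗ₜ w) = A₀ u ⊗ₜ w := fun u => by
    obtain ⟨u', hu'⟩ := mem_LW.1 (h1 _ (tmul_mem_LW u w))
    have : A₀ u = u' := by
      change cR U (h₂.lin f) (g (u ⊗ₜ w)) = u'
      rw [← hu']; simp [hwf]
    rw [this, hu']
  let A : U ≃ₗ[F] U := LinearEquiv.ofInjectiveEndo A₀ fun u u' huu =>
    tmul_left_inj hw0 (g.injective (by rw [a0, a0, huu]))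
  have a1 : ∀ u, g (u ⊗ₜ w) = A u ⊗ₜ w := a0
  have hT := c.kr1_mem (T_mem_SU w (del F))
  obtain ⟨a, ha, h2⟩ := c.Z hw0 hw (M.mul_mem (M.mul_mem hg hT) (M.inv_mem hg)) (fun v => by
    rw [mul_app, mul_app, kr_T_apply hw del_tr, map_add, apply_inv_apply, add_sub_cancel_left]
    exact h1 _ (Submodule.smul_mem _ _ (tmul_mem_LW _ _)))
  set ν := a / del F with hν
  have hν1 : star ν = ν := by
    rw [hν, star_div₀, star_del, show star a = -a by linear_combination ha, neg_div_neg_eq]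
  have a2 : ∀ v, A (cR U (h₂.lin w) v) = ν • cR U (h₂.lin w) (g v) := fun v => by
    have := LinearEquiv.congr_fun h2 (g v)
    rw [mul_app, mul_app, inv_apply_apply, kr_T_apply hw del_tr, kr_T_apply hw ha, map_add,
      add_right_inj, map_smul, a1, smul_tmul', smul_tmul'] at this
    rw [hν, div_eq_inv_mul, mul_smul, ← tmul_left_inj hw0 this, inv_smul_smul₀ hd]
  have a3 : ∀ u u', h₁ (A u) (A u') = ν * h₁ u u' := fun u u' => by
    have := a2 (u ⊗ₜ f)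
    simp only [cR_tmul, lin_apply, hfw, one_smul] at this
    rw [this, smul_left, ← c.t.right, ← a1, hG, c.t, hfw, mul_one]
  obtain ⟨u₀, hu₀⟩ := c.exists_unit
  have hν0 : ν ≠ 0 := by
    intro h0
    have := h₁.nd (v := A u₀) fun x => by
      obtain ⟨x, rfl⟩ := A.surjective x
      rw [a3, h0, zero_mul]
    simp only [EmbeddingLike.map_eq_zero_iff] at this
    simp [this] at hu₀
  have b1 : ∀ x, h₂ x w = 0 → ∃ x', h₂ x' w = 0 ∧ ∀ u, g (u ⊗ₜ x) - A u ⊗ₜ x' ∈ LW F U w := by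
    intro x hx
    obtain ⟨d, hd⟩ := exists_tr (t := h₂ x x) (h₂.conj _ _)
    have o : h₂.Ok w x d := ⟨hw, hx, hd⟩
    have he := c.kr1_mem (E_mem_SU w x d)
    obtain ⟨x', d', o', h3⟩ := c.Q hw0 hw (M.mul_mem (M.mul_mem hg he) (M.inv_mem hg))
      (fun u => by
        obtain ⟨u', hu'⟩ := mem_LW.1 (h1' _ (tmul_mem_LW u w))
        rw [mul_app, mul_app, ← hu', kr_E_fix o, hu', apply_inv_apply])
      (fun v hv => by
        have := h1 _ (kr_E_sub o (c.t.perp_stab (h.GU.inv_mem hG) h1' hv))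
        rwa [map_sub, apply_inv_apply] at this)
    refine ⟨ν⁻¹ • x', by simp [o'.we], fun u => ?_⟩
    have h4 := LinearEquiv.congr_fun h3 (g (u ⊗ₜ f))
    have h5 := a2 (u ⊗ₜ f)
    simp only [cR_tmul, lin_apply, hfw, one_smul] at h5
    rw [mul_app, mul_app, inv_apply_apply, kr_E_apply o, kr_E_apply o', map_sub, map_add, a1,
      cR_tmul, lin_apply, hfw, one_smul] at h4
    rw [h5, ← smul_tmul, smul_smul, inv_mul_cancel₀ hν0, one_smul]
    have := Submodule.sub_mem _ (tmul_mem_LW (F := F) (A (cR U (h₂.lin x) (u ⊗ₜ[F] f) + d • u)) w)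
      (tmul_mem_LW (cR U (h₂.lin x') (g (u ⊗ₜ[F] f)) + d' • cR U (h₂.lin w) (g (u ⊗ₜ[F] f))) w)
    convert this using 1
    linear_combination (norm := module) h4
  let β : W →ₗ[F] W := cL W (h₁.lin (ν⁻¹ • A u₀)) ∘ₗ (g : U ⊗[F] W →ₗ[F] U ⊗[F] W) ∘ₗ
    TensorProduct.mk F U W u₀
  have b2 : ∀ x, h₂ x w = 0 → h₂ (β x) w = 0 ∧ ∀ u, g (u ⊗ₜ x) - A u ⊗ₜ β x ∈ LW F U w := by
    intro x hx
    obtain ⟨x', h3, h4⟩ := b1 x hx
    obtain ⟨u', hu'⟩ := mem_LW.1 (h4 u₀)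
    have h5 : β x = x' + h₁ u' (ν⁻¹ • A u₀) • w := by
      change cL W (h₁.lin (ν⁻¹ • A u₀)) (g (u₀ ⊗ₜ x)) = _
      rw [← sub_add_cancel (g (u₀ ⊗ₜ x)) (A u₀ ⊗ₜ x'), ← hu']
      simp [a3, hu₀, hν1, hν0, add_comm]
    refine ⟨by simp [h5, h3, hw], fun u => ?_⟩
    rw [h5, tmul_add, ← sub_sub]
    exact Submodule.sub_mem _ (h4 u) (tmul_smul_mem_LW _ _ _)
  have b3 : ∀ x y, h₂ x w = 0 → h₂ y w = 0 → ν * h₂ (β x) (β y) = h₂ x y := by
    intro x y hx hy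
    obtain ⟨h3, h4⟩ := b2 x hx
    obtain ⟨h5, h6⟩ := b2 y hy
    obtain ⟨u, hu⟩ := mem_LW.1 (h4 u₀)
    obtain ⟨u', hu'⟩ := mem_LW.1 (h6 u₀)
    have := hG (u₀ ⊗ₜ x) (u₀ ⊗ₜ y)
    rw [eq_sub_iff_add_eq] at hu hu'
    rw [← hu, ← hu'] at this
    simpa [c.t _ _ _ _, hw, h3, symm0 h5, a3, hu₀] using this
  let π : W →ₗ[F] W := LinearMap.id - (h₂.lin f).smulRight w - (h₂.lin w).smulRight f
  have p0 : ∀ x, π x = x - h₂ x f • w - h₂ x w • f := fun _ => rfl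
  have p1 : ∀ x, h₂ (π x) w = 0 := fun x => by simp [p0, hw, hfw]
  have p2 : ∀ x, h₂ (π x) f = 0 := fun x => by simp [p0, hf, hwf]
  let B₀ : W →ₗ[F] W := (h₂.lin f).smulRight w + ν⁻¹ • (h₂.lin w).smulRight f + π ∘ₗ β ∘ₗ π
  have b4 : ∀ x, B₀ x = h₂ x f • w + ν⁻¹ • h₂ x w • f + π (β (π x)) := fun _ => rfl
  have b5 : ∀ x y, ν * h₂ (B₀ x) (B₀ y) = h₂ x y := by
    intro x y
    have e1 := b3 _ _ (p1 x) (p1 y)
    have e2 : h₂ (π (β (π x))) (π (β (π y))) = h₂ (β (π x)) (β (π y)) := by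
      rw [p0 (β (π x)), p0 (β (π y))]
      simp [(b2 _ (p1 x)).1, symm0 (b2 _ (p1 y)).1, (b2 _ (p1 y)).1, hw]
    have e3 : h₂ (π x) (π y) = h₂ x y - h₂ x f * h₂ w y - h₂ x w * h₂ f y := by
      rw [p0 y, sub_right, sub_right, smul_right, smul_right, p1, p2, p0]; simp
    simp only [b4, add_left, add_right, smul_left, smul_right, hw, hf, hwf, hfw, p1, p2,
      symm0 (p1 _), symm0 (p2 _), e2, star_inv₀, hν1, h₂.conj]
    linear_combination e1 + e3 + (h₂ x f * h₂ w y + h₂ x w * h₂ f y) * mul_inv_cancel₀ hν0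
  let B : W ≃ₗ[F] W := LinearEquiv.ofInjectiveEndo B₀ (by
    rw [injective_iff_map_eq_zero]
    intro x hx
    exact h₂.nd fun y => by rw [← b5, hx]; simp)
  have b6 : ∀ x, B x = B₀ x := fun _ => rfl
  have hk : kr A B ∈ h.GU := mem_GU_of_tmul fun u x u' x' => by
    rw [kr_tmul, kr_tmul, c.t, c.t, a3, b6, b6, ← b5 x x']; ring
  have b7 : B w = w := by simp [b6, b4, hwf, hw, p0]
  have k1 : ∀ v ∈ LW F U w, kr A B v ∈ LW F U w := by
    rintro _ ⟨u, rfl⟩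
    change kr A B (u ⊗ₜ w) ∈ _
    rw [kr_tmul, b7]; exact tmul_mem_LW _ _
  have n1 : ∀ u, ((kr A B)⁻¹ * g) (u ⊗ₜ w) = u ⊗ₜ w := fun u => by
    rw [mul_app, a1, ← b7, ← kr_tmul, inv_apply_apply, b7]
  have n2 : ∀ v, cR U (h₂.lin w) v = 0 → ((kr A B)⁻¹ * g) v - v ∈ LW F U w := by
    intro v hv
    have := sub_cR_mem (C := (LW F U w).comap ((g : U ⊗[F] W →ₗ[F] U ⊗[F] W) - (kr A B : _ →ₗ[F] _)))
      (φ := h₂.lin w) hfw (fun u x hx => by
        replace hx : h₂ x w = 0 := hx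
        rw [Submodule.mem_comap, LinearMap.sub_apply, LinearEquiv.coe_coe, LinearEquiv.coe_coe,
          kr_tmul]
        obtain ⟨h3, h4⟩ := b2 _ (p1 x)
        have := Submodule.add_mem _ (h4 u) (tmul_smul_mem_LW (A u) (h₂ (β (π x)) f) w)
        convert this using 1
        rw [b6, b4, p0 (β _), h3, hx]
        conv_lhs => rw [show x = h₂ x f • w + π x by rw [p0, hx]; module]
        simp only [tmul_add, tmul_sub, tmul_smul, map_add, map_smul, a1, add_left, smul_left, hwf,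
          p2, map_zero, zero_left, tmul_zero, show π w = 0 by simp [p0, hwf, hw], show π (π x) = π x by rw [p0 (π x), p1, p2]; simp]
        module) v
    rw [hv, zero_tmul, sub_zero] at this
    have h3 := inv_mem_of_stab k1 _ this
    simpa using h3
  have hn : (kr A B)⁻¹ * g ∈ h.GU := h.GU.mul_mem (h.GU.inv_mem hk) hG
  have n3 := c.t.cR_of_fix hn n1
  have n4 : (kr A B)⁻¹ * g ∈ SLV F (U ⊗[F] W) :=
    mem_SLV_of_nilpotent (y := (((kr A B)⁻¹ * g : _ ≃ₗ[F] _) : _ →ₗ[F] _) - LinearMap.id)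
      ⟨3, LinearMap.ext fun v => by
        obtain ⟨u, hu⟩ := mem_LW.1 (n2 (((kr A B)⁻¹ * g) v - v) (by rw [map_sub, n3, sub_self]))
        simp only [pow_succ, pow_zero, one_mul, Module.End.mul_apply, LinearMap.sub_apply,
          LinearEquiv.coe_coe, LinearMap.id_apply, LinearMap.zero_apply]
        rw [← hu, n1, sub_self]⟩ fun v => by simp
  have hk' : kr A B ∈ M := c.hH _ ⟨hk, by
    have := (SLV F _).mul_mem (c.hM hg).2 ((SLV F _).inv_mem n4)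
    simpa using this⟩ (kr_mem_KG _ _)
  obtain ⟨x, d, -, h3⟩ := c.Q hw0 hw (M.mul_mem (M.inv_mem hk') hg) n1 n2
  rw [inv_mul_eq_iff_eq_mul.1 h3]
  exact (KG F U W).mul_mem (kr_mem_KG _ _) (kr_mem_KG _ _)

theorem TC.kron_of_line (c : TC h₁ h₂ h M) (hw0 : w ≠ 0) (hw : h₂ w w = 0) (hg : g ∈ M)
    {w' : W} (h1 : ∀ v ∈ LW F U w, g v ∈ LW F U w') : g ∈ KG F U W := by
  obtain ⟨u₀, hu₀⟩ := c.exists_unit
  have hu0 : u₀ ≠ 0 := by rintro rfl; simp at hu₀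
  have hw0' : w' ≠ 0 := by
    rintro rfl
    obtain ⟨u, hu⟩ := mem_LW.1 (h1 _ (tmul_mem_LW u₀ w))
    rw [tmul_zero, eq_comm, EmbeddingLike.map_eq_zero_iff] at hu
    exact tmul_ne_zero' hu0 hw0 hu
  have h2 : (LW F U w).map (g : _ →ₗ[F] _) = LW F U w' := by
    apply Submodule.eq_of_le_of_finrank_eq
    · rintro _ ⟨v, hv, rfl⟩; exact h1 v hv
    · rw [LinearEquiv.finrank_map_eq, finrank_LW hw0, finrank_LW hw0']
  have hw' : h₂ w' w' = 0 := by
    obtain ⟨_, ⟨u, rfl⟩, hu⟩ := h2.ge (tmul_mem_LW u₀ w')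
    have := (c.hM hg).1 (u ⊗ₜ w) (u ⊗ₜ w)
    change g (u ⊗ₜ w) = _ at hu
    simpa [hu, c.t _ _ _ _, hw, hu₀] using this
  obtain ⟨B, hB, h3⟩ := c.trans hw0' hw' hw0 hw
  have := c.stab hw0 hw (M.mul_mem (c.kr1_mem hB) hg) fun v hv => by
    obtain ⟨u, hu⟩ := mem_LW.1 (h1 v hv)
    rw [mul_app, ← hu, kr_tmul, h3]; exact tmul_mem_LW _ _
  exact ((KG F U W).mul_mem_cancel_left (kr_mem_KG _ _)).1 this

/-- a Kronecker product moving vectors only inside a small subspace has scalar left factor -/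
theorem scalar_of_small {A : U ≃ₗ[F] U} {B : W ≃ₗ[F] W} {K : Submodule F (U ⊗[F] W)}
    (hK : finrank F K < finrank F W) (h1 : ∀ v, kr A B v - v ∈ K) :
    ∃ B' : W ≃ₗ[F] W, kr A B = kr 1 B' := by
  have h2 : ∀ u, ∃ c : F, A u = c • u := by
    intro u
    by_contra! hu
    have hu0 : u ≠ 0 := by rintro rfl; exact hu 0 (by simp)
    obtain ⟨φ, h3, h4⟩ := exists_dual_pair (F := F) (u := A u) (v := u) (fun c hc => by
      have hc0 : c ≠ 0 := by rintro rfl; exact hu0 (by simpa using hc)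
      exact hu c⁻¹ (by conv_rhs => rw [hc, inv_smul_smul₀ hc0]))
    let D : W →ₗ[F] K := LinearMap.codRestrict K
      (((kr A B : _ →ₗ[F] _) - LinearMap.id) ∘ₗ TensorProduct.mk F U W u) fun x => h1 (u ⊗ₜ x)
    have := LinearMap.finrank_le_finrank_of_injective (f := D) (by
      rw [injective_iff_map_eq_zero]
      intro x hx
      have h5 : A u ⊗ₜ B x - u ⊗ₜ[F] x = 0 := congrArg Subtype.val hx
      simpa [h3, h4] using congrArg (cL W φ) h5)
    omega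
  obtain ⟨a, ha⟩ := eig_const (A : U →ₗ[F] U) LinearMap.id Function.injective_id h2
  by_cases h0 : a = 0
  · refine ⟨B, tens_ext fun u x => ?_⟩
    have : u = 0 := by simpa [h0] using ha u
    simp [this]
  refine ⟨(LinearEquiv.smulOfNeZero F W a h0) * B, tens_ext fun u x => ?_⟩
  have : A u = a • u := ha u
  simp [this, smul_tmul, mul_app]

theorem TC.stepB (c : TC h₁ h₂ h M) (hw0 : w ≠ 0) (hw : h₂ w w = 0) (hg : g ∈ M) {a : F}
    (ha : a + star a = 0) (ha0 : a ≠ 0) (h1 : g * kr 1 (h₂.T w a) * g⁻¹ ∈ KG F U W) :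
    g ∈ KG F U W := by
  obtain ⟨A, B, h2⟩ := h1
  have h3 : ∀ v, kr A B v - v ∈ (LW F U w).map (g : _ →ₗ[F] _) := fun v => by
    rw [← h2, mul_app, mul_app, kr_T_apply hw ha, map_add, apply_inv_apply, add_sub_cancel_left]
    exact ⟨_, Submodule.smul_mem _ _ (tmul_mem_LW _ _), rfl⟩
  obtain ⟨B', h4⟩ := scalar_of_small (by
    rw [LinearEquiv.finrank_map_eq, finrank_LW hw0]; exact c.hab) h3
  rw [h4] at h2 h3
  obtain ⟨x, hx⟩ : ∃ x, B' x - x ≠ 0 := by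
    by_contra! h5
    have h6 : B' = 1 := LinearEquiv.ext fun x => sub_eq_zero.1 (h5 x)
    rw [h6, kr_one, conj_eq_one_iff] at h2
    obtain ⟨f, hf, hwf⟩ := exists_partner_top hw0 hw
    obtain ⟨u₀, hu₀⟩ := c.exists_unit
    have := LinearEquiv.congr_fun h2 (u₀ ⊗ₜ f)
    rw [kr_T_apply hw ha] at this
    simp only [cR_tmul, lin_apply, symm1 hwf, one_smul, one_app, add_eq_left, smul_eq_zero, ha0,
      false_or] at this
    exact tmul_ne_zero' (by rintro rfl; simp at hu₀) hw0 this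
  have h5 : LW F U (B' x - x) = (LW F U w).map (g : _ →ₗ[F] _) := by
    apply Submodule.eq_of_le_of_finrank_eq
    · rintro _ ⟨u, rfl⟩
      simpa [tmul_sub] using h3 (u ⊗ₜ x)
    · rw [LinearEquiv.finrank_map_eq, finrank_LW hw0, finrank_LW hx]
  exact c.kron_of_line hw0 hw hg fun v hv => h5.ge ⟨v, hv, rfl⟩

end Cfsg.Agent.H5.U
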