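import Cfsg.Agent.H5.U.Ten3
import Cfsg.Agent.H5.U.Frame2

/-! Tensor products of unitary spaces: pairs of lines with maximal intersection. -/

set_option autoImplicit false
set_option linter.unusedSimpArgs false
set_option linter.unusedSectionVars false
set_option linter.unusedVariables false

namespace Cfsg.Agent.H5.U

open Module H6 TensorProduct HF

variable {F : Type*} {U W : Type*} [Field F] [AddCommGroup U] [Module F U]
  [AddCommGroup W] [Module F W] [StarRing F] [NStar F] [Finite F] [FiniteDimensional F U]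
  [FiniteDimensional F W]

/-- translates of `U ⊗ w` -/
def Lk (w : W) (k : U ⊗[F] W ≃ₗ[F] U ⊗[F] W) : Submodule F (U ⊗[F] W) :=
  (LW F U w).map (k : _ →ₗ[F] _)

/-- conjugates of `1 ⊗ T` -/
noncomputable def tk (h₂ : HF F W) (w : W) (k : U ⊗[F] W ≃ₗ[F] U ⊗[F] W) (a : F) :
    U ⊗[F] W ≃ₗ[F] U ⊗[F] W := k * kr 1 (h₂.T w a) * k⁻¹

variable {h₁ : HF F U} {h₂ : HF F W} {h : HF F (U ⊗[F] W)}
  {M : Subgroup (U ⊗[F] W ≃ₗ[F] U ⊗[F] W)} {w : W} {g k k' m : U ⊗[F] W ≃ₗ[F] U ⊗[F] W}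

theorem mem_Lk {v : U ⊗[F] W} : v ∈ Lk w k ↔ k⁻¹ v ∈ LW F U w := mem_map_equiv'

theorem Lk_one : Lk w (1 : U ⊗[F] W ≃ₗ[F] U ⊗[F] W) = LW F U w := by
  ext v; rw [mem_Lk, inv_one, one_app]

theorem app_mem_Lk {v : U ⊗[F] W} (hv : v ∈ LW F U w) : k v ∈ Lk w k := ⟨v, hv, rfl⟩

theorem finrank_Lk (hw0 : w ≠ 0) : finrank F (Lk w k) = finrank F U := by
  rw [Lk, LinearEquiv.finrank_map_eq, finrank_LW hw0]

theorem tk_apply (hw : h₂ w w = 0) {a : F} (ha : a + star a = 0) (v : U ⊗[F] W) :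
    tk h₂ w k a v = v + a • k (cR U (h₂.lin w) (k⁻¹ v) ⊗ₜ w) := by
  rw [tk, mul_app, mul_app, kr_T_apply hw ha, map_add, apply_inv_apply, map_smul]

theorem tk_sub_mem (hw : h₂ w w = 0) {a : F} (ha : a + star a = 0) (v : U ⊗[F] W) :
    tk h₂ w k a v - v ∈ Lk w k := by
  rw [tk_apply hw ha, add_sub_cancel_left]
  exact Submodule.smul_mem _ _ (app_mem_Lk (tmul_mem_LW _ _))

theorem TC.tk_mem (c : TC h₁ h₂ h M) (hk : k ∈ M) (a : F) : tk h₂ w k a ∈ M :=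
  M.mul_mem (M.mul_mem hk (c.kr1_mem (T_mem_SU _ _))) (M.inv_mem hk)

theorem TC.mem_perp_Lk (c : TC h₁ h₂ h M) (hk : k ∈ M) {v : U ⊗[F] W} :
    v ∈ h.perp (Lk w k) ↔ cR U (h₂.lin w) (k⁻¹ v) = 0 := by
  rw [← c.t.mem_perp_LW]
  constructor
  · intro hv l hl
    rw [← GU_right (c.hM hk).1]; exact hv _ (app_mem_Lk hl)
  · rintro hv _ ⟨l, hl, rfl⟩
    rw [LinearEquiv.coe_coe, GU_right (c.hM hk).1]; exact hv _ hl

theorem TC.tk_fix (c : TC h₁ h₂ h M) (hw : h₂ w w = 0) (hk : k ∈ M) {a : F} (ha : a + star a = 0)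
    {v : U ⊗[F] W} (hv : v ∈ h.perp (Lk w k)) : tk h₂ w k a v = v := by
  rw [tk_apply hw ha, (c.mem_perp_Lk hk).1 hv]; simp

theorem TC.Lk_le_perp (c : TC h₁ h₂ h M) (hw : h₂ w w = 0) (hk : k ∈ M) :
    Lk w k ≤ h.perp (Lk w k) := fun v hv => (c.mem_perp_Lk hk).2 (cR_LW hw (mem_Lk.1 hv))

theorem TC.notStab (c : TC h₁ h₂ h M) (hw0 : w ≠ 0) (hw : h₂ w w = 0) (hk : k ∈ M) (hk' : k' ∈ M)
    (nk : k⁻¹ * k' ∉ KG F U W) {a : F} (ha : a + star a = 0) (ha0 : a ≠ 0) :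
    ¬ ∀ v ∈ Lk w k', tk h₂ w k a v ∈ Lk w k' := by
  intro h1
  have h2 := c.stab hw0 hw (M.mul_mem (M.mul_mem (M.inv_mem hk') (c.tk_mem (w := w) hk a)) hk')
    fun v hv => mem_Lk.1 (h1 _ (app_mem_Lk hv))
  have := c.stepB hw0 hw (M.mul_mem (M.inv_mem hk') hk) ha ha0 (by
    convert h2 using 1; rw [tk]; group)
  exact nk (by simpa using (KG F U W).inv_mem this)

theorem kron_stab (hm : m ∈ KG F U W) {l : U ⊗[F] W} (hl : l ∈ LW F U w) (hl0 : l ≠ 0)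
    (h1 : m l ∈ LW F U w) : ∀ v ∈ LW F U w, m v ∈ LW F U w := by
  obtain ⟨A, B, rfl⟩ := hm
  obtain ⟨u, rfl⟩ := mem_LW.1 hl
  obtain ⟨a, ha⟩ := smul_of_tmul_mem (u := A u) (x := B w) (by rintro h0; simp at h0; simp [h0] at hl0) h1
  intro v hv
  obtain ⟨u', rfl⟩ := mem_LW.1 hv
  rw [kr_tmul, ha]; exact tmul_smul_mem_LW _ _ _

theorem TC.exists_Lk (c : TC h₁ h₂ h M) (hw0 : w ≠ 0) (hw : h₂ w w = 0) {w' : W} (hw0' : w' ≠ 0)
    (hw' : h₂ w' w' = 0) : ∃ B ∈ h₂.SU, B w = w' ∧ Lk w (kr 1 B) = LW F U w' := by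
  obtain ⟨B, hB, h1⟩ := c.trans hw0 hw hw0' hw'
  refine ⟨B, hB, h1, ?_⟩
  apply Submodule.eq_of_le_of_finrank_eq
  · rintro _ ⟨_, ⟨u, rfl⟩, rfl⟩
    exact ⟨u, by rw [← h1]; rfl⟩
  · rw [finrank_Lk hw0, finrank_LW hw0']

theorem tk_kr {B : W ≃ₗ[F] W} (hB : B ∈ h₂.GU) (hw : h₂ w w = 0) {a : F} (ha : a + star a = 0) :
    tk h₂ w (kr (1 : U ≃ₗ[F] U) B) a = kr 1 (h₂.T (B w) a) := by
  rw [tk, kr_inv, kr_mul, kr_mul, conj_T hB hw ha]; simp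

/-- a pair of lines in different blocks with maximal intersection -/
structure Pr (h₂ : HF F W) (M : Subgroup (U ⊗[F] W ≃ₗ[F] U ⊗[F] W)) (w : W)
    (g : U ⊗[F] W ≃ₗ[F] U ⊗[F] W) : Prop where
  hw0 : w ≠ 0
  hw : h₂ w w = 0
  hg : g ∈ M
  nk : g ∉ KG F U W
  mx : ∀ m ∈ M, finrank F ↥(LW F U w ⊓ Lk w g) < finrank F ↥(LW F U w ⊓ Lk w m) → m ∈ KG F U W

theorem exists_pr (hw0 : w ≠ 0) (hw : h₂ w w = 0) (h1 : ∃ g ∈ M, g ∉ KG F U W) :
    ∃ g, Pr h₂ M w g := by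
  classical
  have hex : ∃ d, ∀ m ∈ M, d ≤ finrank F ↥(LW F U w ⊓ Lk w m) → m ∈ KG F U W :=
    ⟨finrank F (U ⊗[F] W) + 1, fun m _ h =>
      absurd (Submodule.finrank_le (LW F U w ⊓ Lk w m)) (by omega)⟩
  have h0 : Nat.find hex ≠ 0 := fun h0 => by
    obtain ⟨g, hg, hg'⟩ := h1
    exact hg' (Nat.find_spec hex g hg (by omega))
  have h1 := Nat.find_min hex (m := Nat.find hex - 1) (by omega)
  simp only [not_forall] at h1
  obtain ⟨g, h2, h3, h4⟩ := h1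
  exact ⟨g, hw0, hw, h2, h4, fun m hm h5 => Nat.find_spec hex m hm (by omega)⟩

theorem Pr.key (c : TC h₁ h₂ h M) (p : Pr h₂ M w g) (hk : k ∈ M) (hk' : k' ∈ M)
    {K : Submodule F (U ⊗[F] W)} (h1 : K ≤ Lk w k) (h2 : K ≤ Lk w k')
    (h3 : finrank F ↥(LW F U w ⊓ Lk w g) < finrank F K) :
    k⁻¹ * k' ∈ KG F U W ∧ Lk w k' = Lk w k := by
  have h4 : k⁻¹ * k' ∈ KG F U W := p.mx _ (M.mul_mem (M.inv_mem hk) hk') (h3.trans_le (by
    rw [← LinearEquiv.finrank_map_eq k⁻¹ K]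
    apply Submodule.finrank_mono
    rintro _ ⟨v, hv, rfl⟩
    exact ⟨mem_Lk.1 (h1 hv), mem_Lk.2 (by simpa using mem_Lk.1 (h2 hv))⟩))
  obtain ⟨l, hl, hl0⟩ := exists_ne_zero_of_finrank (K := K) (by omega)
  have h5 := kron_stab h4 (mem_Lk.1 (h2 hl)) (by simpa using hl0) (by simpa using mem_Lk.1 (h1 hl))
  refine ⟨h4, Submodule.eq_of_le_of_finrank_eq ?_ (by rw [finrank_Lk p.hw0, finrank_Lk p.hw0])⟩
  rintro _ ⟨v, hv, rfl⟩
  exact mem_Lk.2 (h5 v hv)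

theorem Pr.key' (c : TC h₁ h₂ h M) (p : Pr h₂ M w g) (hk : k ∈ M) (hm : m ∈ M)
    {K : Submodule F (U ⊗[F] W)} (h1 : K ≤ Lk w k) (h2 : ∀ v ∈ K, m v ∈ Lk w k)
    (h3 : finrank F ↥(LW F U w ⊓ Lk w g) < finrank F K) : ∀ v ∈ Lk w k, m v ∈ Lk w k := by
  obtain ⟨-, h4⟩ := p.key c hk (M.mul_mem hm hk) (K := K.map (m : _ →ₗ[F] _))
    (by rintro _ ⟨v, hv, rfl⟩; exact h2 v hv)
    (by rintro _ ⟨v, hv, rfl⟩; exact mem_Lk.2 (by simpa using mem_Lk.1 (h1 hv)))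
    (by rwa [LinearEquiv.finrank_map_eq])
  intro v hv
  rw [← h4]; exact mem_Lk.2 (by simpa using mem_Lk.1 hv)

theorem Pr.G1 (c : TC h₁ h₂ h M) (p : Pr h₂ M w g) (hk : k ∈ M) (hk' : k' ∈ M)
    (nk : k⁻¹ * k' ∉ KG F U W) {K : Submodule F (U ⊗[F] W)} (h1 : K ≤ Lk w k')
    (h2 : K ≤ h.perp (Lk w k)) : finrank F K ≤ finrank F ↥(LW F U w ⊓ Lk w g) := by
  by_contra! h3
  exact c.notStab p.hw0 p.hw hk hk' nk del_tr del_ne (p.key' c hk' (c.tk_mem hk _) h1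
    (fun v hv => by rw [c.tk_fix p.hw hk del_tr (h2 hv)]; exact h1 hv) h3)

theorem Pr.N (c : TC h₁ h₂ h M) (p : Pr h₂ M w g) (hk : k ∈ M) (hk' : k' ∈ M)
    (nk : k⁻¹ * k' ∉ KG F U W) (h1 : LW F U w ⊓ Lk w g ≤ Lk w k) (h2 : LW F U w ⊓ Lk w g ≤ Lk w k')
    {a : F} (ha : a + star a = 0) (ha0 : a ≠ 0) {v : U ⊗[F] W} (hv : v ∈ Lk w k')
    (h3 : tk h₂ w k a v ∈ Lk w k') : v ∈ LW F U w ⊓ Lk w g := by
  by_contra h4
  refine c.notStab p.hw0 p.hw hk hk' nk ha ha0 (p.key' c hk' (c.tk_mem hk _)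
    (K := (LW F U w ⊓ Lk w g) ⊔ Submodule.span F {v})
    (sup_le h2 ((Submodule.span_singleton_le_iff_mem _ _).2 hv)) ?_ ?_)
  · intro x hx
    obtain ⟨y, hy, b, hb, rfl⟩ := Submodule.mem_sup.1 hx
    obtain ⟨s, rfl⟩ := Submodule.mem_span_singleton.1 hb
    rw [map_add, map_smul, c.tk_fix p.hw hk ha (c.Lk_le_perp p.hw hk (h1 hy))]
    exact Submodule.add_mem _ (h2 hy) (Submodule.smul_mem _ _ h3)
  · rw [Submodule.finrank_sup_span_singleton h4]; omega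

theorem Pr.lt (c : TC h₁ h₂ h M) (p : Pr h₂ M w g) :
    finrank F ↥(LW F U w ⊓ Lk w g) < finrank F U := by
  rw [← finrank_Lk (k := g) p.hw0]
  refine Submodule.finrank_lt_finrank_of_lt (lt_of_le_of_ne inf_le_right fun h1 => p.nk ?_)
  exact c.stab p.hw0 p.hw p.hg fun v hv => (h1.ge (app_mem_Lk hv)).1

theorem Pr.perp_le (c : TC h₁ h₂ h M) (p : Pr h₂ M w g) {v : U ⊗[F] W}
    (hv : cR U (h₂.lin w) v = 0) : ∃ l ∈ LW F U w, ∃ n ∈ h.perp (LW F U w ⊔ Lk w g), v = l + n := by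
  have : v ∈ LW F U w ⊔ h.perp (LW F U w ⊔ Lk w g) := by
    rw [← perp_perp (h := h) (LW F U w ⊔ _)]
    intro y hy
    have h1 : y ∈ LW F U w ⊔ Lk w g := by
      rw [← perp_perp (h := h) (LW F U w ⊔ _)]
      exact perp_anti le_sup_right hy
    obtain ⟨l, hl, l', hl', rfl⟩ := Submodule.mem_sup.1 h1
    have h2 : l' ∈ h.perp (Lk w 1) := by
      rw [Lk_one]
      simpa using Submodule.sub_mem _ (perp_anti le_sup_left hy)
        (c.t.mem_perp_LW.2 (cR_LW p.hw hl))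
    have h3 := p.N c M.one_mem p.hg (by simpa using p.nk) (by rw [Lk_one]; exact inf_le_left)
      inf_le_right del_tr del_ne hl' (by rwa [c.tk_fix p.hw M.one_mem del_tr h2])
    exact c.t.mem_perp_LW.2 hv _ (Submodule.add_mem _ hl h3.1)
  obtain ⟨l, hl, n, hn, rfl⟩ := Submodule.mem_sup.1 this
  exact ⟨l, hl, n, hn, rfl⟩

theorem Pr.fix (c : TC h₁ h₂ h M) (p : Pr h₂ M w g)
    (hb : 4 ≤ finrank F W ∨ LW F U w ⊓ Lk w g ≠ ⊥) (hm : m ∈ M)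
    (h1 : ∀ v ∈ h.perp (LW F U w ⊔ Lk w g), m v = v) (h2 : ∀ v ∈ LW F U w, m v ∈ LW F U w) :
    ∀ v ∈ LW F U w, m v = v := by
  have hw := p.hw
  obtain ⟨A, B, rfl⟩ := c.stab p.hw0 hw hm h2
  have h3 : ∀ v, cR U (h₂.lin w) v = 0 → kr A B v - v ∈ LW F U w := by
    intro v hv
    obtain ⟨l, hl, n, hn, rfl⟩ := p.perp_le c hv
    rw [map_add, h1 n hn, add_sub_add_right_eq_sub]
    exact Submodule.sub_mem _ (h2 l hl) hl
  obtain ⟨u₀, hu₀⟩ := c.exists_unit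
  have hu0 : u₀ ≠ 0 := by rintro rfl; simp at hu₀
  obtain ⟨x, hx, hx'⟩ := exists_not_mem_one (K := h₂.pv w) (by
    have := finrank_ker_ge (h₂.lin w); have := c.hb; unfold pv; omega) w
  obtain ⟨y, hy1, hy2⟩ := exists_dual_pair' (h := h₂) hx' 1
  have h4 : ∀ u, h₂ (B x) y • A u = u := fun u => by
    have := cR_LW hy1 (h3 (u ⊗ₜ x) (by simp [mem_pv.1 hx]))
    simpa [hy2, sub_eq_zero] using this
  have h5 : h₂ (B x) y ≠ 0 := fun h0 => hu0 (by simpa [h0] using (h4 u₀).symm)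
  obtain ⟨b, hb'⟩ := smul_of_tmul_mem (u := A u₀) (x := B w) (by simpa) (h2 _ (tmul_mem_LW u₀ w))
  have h6 : ∀ u x', kr A B (u ⊗ₜ x') = u ⊗ₜ ((h₂ (B x) y)⁻¹ • B x') := fun u x' => by
    rw [kr_tmul, ← smul_tmul]
    conv_rhs => rw [← h4 u, inv_smul_smul₀ h5]
  set μ := (h₂ (B x) y)⁻¹ * b with hμ
  have h7 : ∀ v ∈ LW F U w, kr A B v = μ • v := by
    intro v hv
    obtain ⟨u, rfl⟩ := mem_LW.1 hv
    rw [h6, hb', smul_smul, tmul_smul]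
  suffices μ = 1 by intro v hv; rw [h7 v hv, this, one_smul]
  by_contra hμ1
  have hμ' : 1 - μ ≠ 0 := sub_ne_zero.2 (Ne.symm hμ1)
  have h8 : ∀ l ∈ LW F U w, kr A B l = l → l = 0 := fun l hl h => by
    have : (1 - μ) • l = 0 := by rw [sub_smul, ← h7 l hl, h]; simp
    simpa [hμ'] using this
  have hI : LW F U w ⊓ Lk w g = ⊥ := by
    rw [eq_bot_iff]
    intro l hl
    refine h8 l hl.1 (h1 l fun y hy => ?_)
    obtain ⟨y₁, k1, y₂, k2, rfl⟩ := Submodule.mem_sup.1 hy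
    rw [add_right, c.t.mem_perp_LW.2 (cR_LW hw hl.1) _ k1, c.Lk_le_perp hw p.hg hl.2 _ k2, add_zero]
  replace hb := hb.resolve_right (by simpa using hI)
  obtain ⟨f, hf, hwf⟩ := exists_partner_top p.hw0 hw
  obtain ⟨z, -, hz0, hzz, hz⟩ := exists_iso_perp (h := h₂) ⊤ [w, f] (by simpa using hb)
  have hzw : h₂ z w = 0 := hz w (by simp)
  have hzf : h₂ z f = 0 := hz f (by simp)
  obtain ⟨s, hs⟩ := smul_of_tmul_mem (F := F) (x := (h₂ (B x) y)⁻¹ • B z - z) (w := w) hu0 (by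
    rw [tmul_sub, ← h6]; exact h3 _ (by simp [hzw]))
  have h9 : ∀ u, kr A B (u ⊗ₜ (z + (s / (1 - μ)) • w)) = u ⊗ₜ (z + (s / (1 - μ)) • w) := fun u => by
    rw [tmul_add, tmul_smul, map_add, map_smul, h7 _ (tmul_mem_LW u w), h6,
      sub_eq_iff_eq_add'.1 hs, tmul_add, tmul_smul]
    match_scalars
    · ring
    · field_simp; ring
  obtain ⟨B', hB', -, h10⟩ := c.exists_Lk p.hw0 hw (w' := z + (s / (1 - μ)) • w)
    (fun h0 => hz0 (by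
      have := congrArg (fun v => h₂ v f) h0
      simp only [add_left, smul_left, hzf, hwf, zero_left, zero_add, mul_one] at this
      simpa [this] using h0)) (by simp [hzz, hzw, symm0 hzw, hw])
  have := p.G1 c (c.kr1_mem hB') p.hg (fun h0 => p.nk
    (((KG F U W).mul_mem_cancel_left ((KG F U W).inv_mem (kr_mem_KG _ _))).1 h0)) le_rfl (by
      rw [h10]
      intro v hv y hy
      obtain ⟨u, rfl⟩ := mem_LW.1 hy
      obtain ⟨l, hl, n, hn, h11⟩ := p.perp_le c (v := u ⊗ₜ (z + (s / (1 - μ)) • w))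
        (by simp [hzw, hw])
      have h12 := h9 u
      rw [h11, map_add, h1 n hn, add_left_inj] at h12
      rw [h11, h8 l hl h12, zero_add]
      exact symm0 (hn v (Submodule.mem_sup_right hv)))
  rw [hI, finrank_bot, finrank_Lk p.hw0] at this
  have := c.ha
  omega

theorem Pr.pigeon (c : TC h₁ h₂ h M) (p : Pr h₂ M w g)
    (hb : 4 ≤ finrank F W ∨ LW F U w ⊓ Lk w g ≠ ⊥) {s : F} (hs : star s = s) (hs0 : s ≠ 0) :
    s = 1 := by
  classical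
  by_contra hs1
  have hw := p.hw
  have hd := del_ne (F := F)
  let Ω := {L : Submodule F (U ⊗[F] W) // ∃ k ∈ M, k ∉ KG F U W ∧ L = Lk w k ∧
    LW F U w ⊓ Lk w g ≤ L ∧ L ≤ LW F U w ⊔ Lk w g}
  haveI : Finite (U ⊗[F] W) := Module.finite_of_finite F
  haveI : Finite Ω := Finite.of_injective (fun L : Ω => (L.1 : Set (U ⊗[F] W))) fun L L' h =>
    Subtype.ext (SetLike.coe_injective h)
  choose κ κ1 κ2 κ3 κ4 κ5 using fun L : Ω => L.2
  let a : Bool → F := fun b => if b then del F else s * del F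
  have a1 : ∀ b, a b + star (a b) = 0 := by rintro (_ | _) <;> simp [a, hs]
  have a2 : ∀ b, a b ≠ 0 := by rintro (_ | _) <;> simp [a, hs0, hd]
  have a3 : Function.Injective a := by
    rintro (_ | _) (_ | _) h <;> simp_all [a]
  have e1 : ∀ L : Ω, ∀ b, ∀ v ∈ h.perp (LW F U w ⊔ Lk w g), tk h₂ w (κ L) (a b) v = v :=
    fun L b v hv => c.tk_fix hw (κ1 L) (a1 b) (perp_anti (κ3 L ▸ κ5 L) hv)
  have e2 : ∀ L : Ω, ∀ b, ∀ v ∈ LW F U w ⊓ Lk w g, tk h₂ w (κ L) (a b) v = v :=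
    fun L b v hv => c.tk_fix hw (κ1 L) (a1 b) (c.Lk_le_perp hw (κ1 L) (κ3 L ▸ κ4 L hv))
  let Φ : Ω × Bool → Ω := fun x => ⟨Lk w (tk h₂ w (κ x.1) (a x.2)), _, c.tk_mem (κ1 x.1) _,
    fun h0 => κ2 x.1 (c.stepB p.hw0 hw (κ1 x.1) (a1 _) (a2 _) h0), rfl,
    fun v hv => by rw [← e2 x.1 x.2 v hv]; exact app_mem_Lk hv.1, by
      rintro _ ⟨v, hv, rfl⟩
      have := Submodule.add_mem _ (κ5 x.1 (κ3 x.1 ▸ tk_sub_mem (k := κ x.1) hw (a1 x.2) v))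
        (Submodule.mem_sup_left hv)
      simpa using this⟩
  obtain ⟨l, hl, hl'⟩ := exists_mem_not_mem_of_finrank_lt (K := LW F U w) (L := LW F U w ⊓ Lk w g)
    (by rw [finrank_LW p.hw0]; exact p.lt c)
  have hinj : Function.Injective Φ := by
    rintro ⟨L, b⟩ ⟨L', b'⟩ h0
    replace h0 : Lk w (tk h₂ w (κ L) (a b)) = Lk w (tk h₂ w (κ L') (a b')) := congrArg Subtype.val h0
    have h1 := p.fix c hb (M.mul_mem (M.inv_mem (c.tk_mem (κ1 L') (a b'))) (c.tk_mem (κ1 L) (a b)))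
      (fun v hv => by rw [mul_app, e1 L b v hv]; conv_lhs => rw [← e1 L' b' v hv, inv_apply_apply])
      (fun v hv => mem_Lk.1 (h0 ▸ app_mem_Lk hv)) l hl
    have h2 : tk h₂ w (κ L) (a b) l = tk h₂ w (κ L') (a b') l := by
      conv_rhs => rw [← h1, mul_app, apply_inv_apply]
    have h3 : tk h₂ w (κ L) (a b) l - l ∉ LW F U w ⊓ Lk w g := fun h4 => hl' (
      p.N c (κ1 L) M.one_mem (by simpa using κ2 L) (κ3 L ▸ κ4 L) (by rw [Lk_one]; exact inf_le_left)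
        (a1 b) (a2 b) (by rwa [Lk_one]) (by
          rw [Lk_one]; simpa using Submodule.add_mem _ h4.1 hl))
    obtain ⟨-, h4⟩ := p.key c (κ1 L) (κ1 L')
      (K := (LW F U w ⊓ Lk w g) ⊔ Submodule.span F {tk h₂ w (κ L) (a b) l - l})
      (sup_le (κ3 L ▸ κ4 L) ((Submodule.span_singleton_le_iff_mem _ _).2 (tk_sub_mem hw (a1 b) l)))
      (sup_le (κ3 L' ▸ κ4 L') ((Submodule.span_singleton_le_iff_mem _ _).2
        (h2 ▸ tk_sub_mem hw (a1 b') l)))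
      (by rw [Submodule.finrank_sup_span_singleton h3]; omega)
    have h5 : L = L' := Subtype.ext (by rw [κ3 L, κ3 L', h4])
    subst h5
    rw [tk_apply hw (a1 b), add_sub_cancel_left] at h3
    rw [tk_apply hw (a1 b), tk_apply hw (a1 b'), add_right_inj] at h2
    rw [a3 (smul_left_injective F (fun h6 => h3 (by rw [h6, smul_zero]; exact zero_mem _)) h2)]
  have h1 := Nat.card_le_card_of_injective _ hinj
  haveI : Nonempty Ω := ⟨⟨Lk w g, g, p.hg, p.nk, rfl, inf_le_right, le_sup_right⟩⟩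
  have h2 := Nat.card_pos (α := Ω)
  rw [Nat.card_prod, Nat.card_eq_fintype_card (α := Bool), Fintype.card_bool] at h1
  omega

end Cfsg.Agent.H5.U
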