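import Cfsg.Agent.H5.U.Ten4
import Cfsg.Agent.H5.U.Sub2

/-! Tensor products of unitary spaces: the field of order four and the case `2 × 3`. -/

set_option autoImplicit false
set_option linter.unusedSimpArgs false
set_option linter.unusedSectionVars false
set_option linter.unusedVariables false

namespace Cfsg.Agent.H5.U

open Module H6 TensorProduct HF

theorem exists_fix_of_sq {F V : Type*} [Field F] [AddCommGroup V] [Module F V] (h2 : (2 : F) = 0)
    {z : V →ₗ[F] V} (hz : ∀ v, z (z v) = v) {K : Submodule F V} {v : V} (hv : v ∈ K) (hv0 : v ≠ 0)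
    (hK : z v ∈ K) : ∃ l ∈ K, l ≠ 0 ∧ z l = l := by
  by_cases h : z v = v
  · exact ⟨v, hv, hv0, h⟩
  refine ⟨z v - v, K.sub_mem hK hv, sub_ne_zero.2 h, ?_⟩
  rw [map_sub, hz]
  have : (2 : F) • (v - z v) = 0 := by rw [h2, zero_smul]
  linear_combination (norm := module) this

variable {F : Type*} {U W : Type*} [Field F] [AddCommGroup U] [Module F U]
  [AddCommGroup W] [Module F W] [StarRing F] [NStar F] [Finite F] [FiniteDimensional F U]
  [FiniteDimensional F W]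

variable {h₁ : HF F U} {h₂ : HF F W} {h : HF F (U ⊗[F] W)}
  {M : Subgroup (U ⊗[F] W ≃ₗ[F] U ⊗[F] W)} {w : W} {g k k' m : U ⊗[F] W ≃ₗ[F] U ⊗[F] W}

theorem map_inf_inv : (LW F U w ⊓ Lk w g⁻¹).map (g : _ →ₗ[F] _) = LW F U w ⊓ Lk w g := by
  ext v
  simp only [mem_map_equiv', Submodule.mem_inf, mem_Lk, inv_inv, apply_inv_apply, and_comm]

theorem Pr.inv (p : Pr h₂ M w g) : Pr h₂ M w g⁻¹ :=
  ⟨p.hw0, p.hw, M.inv_mem p.hg, fun h => p.nk (by simpa using (KG F U W).inv_mem h), by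
    rw [← LinearEquiv.finrank_map_eq g, map_inf_inv]; exact p.mx⟩

theorem Pr.perp_bound (c : TC h₁ h₂ h M) (p : Pr h₂ M w g) (hk : k ∈ M) (nk : k ∉ KG F U W)
    {y : W} (hy0 : y ≠ 0) (hy : h₂ y y = 0) {K : Submodule F (U ⊗[F] W)} (h1 : K ≤ Lk w k)
    (h2 : ∀ v ∈ K, cR U (h₂.lin y) v = 0) : finrank F K ≤ finrank F ↥(LW F U w ⊓ Lk w g) := by
  obtain ⟨B, hB, -, h3⟩ := c.exists_Lk p.hw0 p.hw hy0 hy
  exact p.G1 c (c.kr1_mem hB) hk (fun h0 => nk
    (((KG F U W).mul_mem_cancel_left ((KG F U W).inv_mem (kr_mem_KG _ _))).1 h0)) h1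
    (fun v hv => by rw [h3]; exact c.t.mem_perp_LW.2 (h2 v hv))

theorem Pr.not_perp (c : TC h₁ h₂ h M) (p : Pr h₂ M w g) (hk : k ∈ M) (nk : k ∉ KG F U W)
    {y : W} (hy0 : y ≠ 0) (hy : h₂ y y = 0) : ¬ ∀ v ∈ Lk w k, cR U (h₂.lin y) v = 0 := fun h2 => by
  have := p.perp_bound c hk nk hy0 hy le_rfl h2
  have := p.lt c
  rw [finrank_Lk p.hw0] at *
  omega

theorem Pr.eq_zero (c : TC h₁ h₂ h M) (p : Pr h₂ M w g) (hI : LW F U w ⊓ Lk w g = ⊥) (hk : k ∈ M)
    (nk : k ∉ KG F U W) {y : W} (hy0 : y ≠ 0) (hy : h₂ y y = 0) {l : U ⊗[F] W} (hl : l ∈ Lk w k)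
    (h2 : cR U (h₂.lin y) l = 0) : l = 0 := by
  by_contra h0
  have := p.perp_bound c hk nk hy0 hy (K := Submodule.span F {l})
    ((Submodule.span_singleton_le_iff_mem _ _).2 hl) (fun v hv => by
      obtain ⟨a, rfl⟩ := Submodule.mem_span_singleton.1 hv
      simp [h2])
  rw [hI, finrank_bot, finrank_span_singleton h0] at this
  omega

theorem Pr.lemD (c : TC h₁ h₂ h M) (p : Pr h₂ M w g) (hI : LW F U w ⊓ Lk w g = ⊥)
    (h2 : (2 : F) = 0) (hk : k ∈ M) (nk : k ∉ KG F U W) {B : W ≃ₗ[F] W} (hB : B ∈ h₂.GU)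
    (hBB : kr (1 : U ≃ₗ[F] U) B * kr 1 B = 1) (hB1 : kr (1 : U ≃ₗ[F] U) B ≠ 1) {l : U ⊗[F] W}
    (hl : l ∈ Lk w k) (h3 : kr 1 B l = l) : l = 0 := by
  obtain ⟨u₀, hu₀⟩ := c.exists_unit
  have hu0 : u₀ ≠ 0 := by rintro rfl; simp at hu₀
  obtain ⟨x, hx⟩ : ∃ x, B x - x ≠ 0 := by
    by_contra! h5
    exact hB1 (by rw [show B = 1 from LinearEquiv.ext fun x => sub_eq_zero.1 (h5 x), kr_one])
  have h4 : B (B x) = x := tmul_right_inj hu0 (LinearEquiv.congr_fun hBB (u₀ ⊗ₜ x))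
  refine p.eq_zero c hI hk nk hx ?_ hl ?_
  · have := hB (B x) x
    rw [h4] at this
    simp only [sub_left, sub_right, GU_app hB, this]
    linear_combination (h₂ x x - h₂ (B x) x) * h2
  · have := cR_kr (A := (1 : U ≃ₗ[F] U)) hB x l
    rw [h3, one_app] at this
    rw [sub_eq_add_neg, ← neg_one_smul F x, cR_add, cR_smul, this]; simp

theorem Pr.lemF (c : TC h₁ h₂ h M) (p : Pr h₂ M w g) (hI : LW F U w ⊓ Lk w g ≠ ⊥)
    {B : W ≃ₗ[F] W} (hB : B ∈ h₂.GU) (h1 : ∀ v ∈ LW F U w ⊓ Lk w g, kr 1 B v = v)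
    {l : U ⊗[F] W} (hl : l ∈ Lk w g) (h2 : kr 1 B l ∈ Lk w g) : kr 1 B l - l ∈ LW F U w := by
  obtain ⟨i, hi, hi0⟩ := Submodule.exists_mem_ne_zero_of_ne_bot hI
  obtain ⟨u, rfl⟩ := mem_LW.1 hi.1
  have h3 : B w = w := tmul_right_inj (by rintro rfl; simp at hi0) (h1 _ hi)
  have h4 := cR_kr (A := (1 : U ≃ₗ[F] U)) hB w l
  rw [h3, one_app] at h4
  have h5 := Submodule.sub_mem _ h2 hl
  exact (p.N c M.one_mem p.hg (by simpa using p.nk) (by rw [Lk_one]; exact inf_le_left)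
    inf_le_right del_tr del_ne h5 (by
      rwa [c.tk_fix p.hw M.one_mem del_tr (by
        rw [Lk_one, c.t.mem_perp_LW, map_sub, h4, sub_self])])).1

theorem TC.tk_kron (c : TC h₁ h₂ h M) (hw0 : w ≠ 0) (hw : h₂ w w = 0) (hk : k ∈ M) {a : F}
    (ha : a + star a = 0) (ha0 : a ≠ 0) (h1 : tk h₂ w k a ∈ KG F U W) :
    ∃ y b, y ≠ 0 ∧ h₂ y y = 0 ∧ b + star b = 0 ∧ tk h₂ w k a = kr 1 (h₂.T y b) := by
  obtain ⟨A, B, rfl⟩ := c.stepB hw0 hw hk ha ha0 h1
  obtain ⟨u₀, hu₀⟩ := c.exists_unit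
  have h2 : h₂ (B w) (B w) = 0 := by
    have := (c.hM hk).1 (A⁻¹ u₀ ⊗ₜ w) (A⁻¹ u₀ ⊗ₜ w)
    simpa [c.t _ _ _ _, hw, hu₀] using this
  obtain ⟨b, hb, h3⟩ := c.Z (by simpa using hw0) h2 (c.tk_mem hk a) fun v => by
    rw [tk_apply hw ha, add_sub_cancel_left, kr_tmul]
    exact Submodule.smul_mem _ _ (tmul_mem_LW _ _)
  exact ⟨_, b, by simpa using hw0, h2, hb, h3⟩

theorem Pr.four (c : TC h₁ h₂ h M) (p : Pr h₂ M w g) (hb : 4 ≤ finrank F W)
    (hq : ∀ s : F, star s = s → s ≠ 0 → s = 1) : False := by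
  have hw := p.hw
  have h2 : (2 : F) = 0 := by
    by_contra h2
    exact one_ne_zero (α := F) (by linear_combination hq 2 (by simp) h2)
  have h11 : (1 : F) + star 1 = 0 := by rw [star_one]; linear_combination h2
  have htr : ∀ b : F, b + star b = 0 → b = 0 ∨ b = 1 := fun b hb => by
    by_cases h0 : b = 0
    · exact Or.inl h0
    · exact Or.inr (hq b (by linear_combination hb - b * h2) h0)
  haveI := finite_equiv F (U ⊗[F] W)
  obtain ⟨u₀, hu₀⟩ := c.exists_unit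
  have hu0 : u₀ ≠ 0 := by rintro rfl; simp at hu₀
  obtain ⟨f, hf, hwf⟩ := exists_partner_top p.hw0 hw
  obtain ⟨x, -, hx0, hxx, hx⟩ := exists_iso_perp (h := h₂) ⊤ [w, f] (by simpa using hb)
  have hxw : h₂ x w = 0 := hx w (by simp)
  have hxf : h₂ x f = 0 := hx f (by simp)
  have hx1 : ∀ a : F, x ≠ a • w := fun a ha => hx0 (by
    have := congrArg (fun v => h₂ v f) ha
    simp only [smul_left, hxf, hwf, mul_one] at this
    rw [ha, ← this, zero_smul])
  set e := kr (1 : U ≃ₗ[F] U) (h₂.T w 1 * h₂.T x 1) with he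
  have e1 : ∀ v, e v = v + cR U (h₂.lin w) v ⊗ₜ w + cR U (h₂.lin x) v ⊗ₜ x := fun v => by
    rw [he, ← one_mul (1 : U ≃ₗ[F] U), ← kr_mul, mul_app, kr_T_apply hxx h11, kr_T_apply hw h11]
    simp [hxw]; abel
  have e2 : ∀ v : U ⊗[F] W, v + v = 0 := fun v => by rw [← two_smul F, h2, zero_smul]
  have e3 : e * e = 1 := LinearEquiv.ext fun v => by
    rw [mul_app, e1, e1]
    simp only [map_add, cR_tmul, lin_apply, hw, hxx, hxw, symm0 hxw, zero_smul, add_zero, one_app]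
    linear_combination (norm := module) e2 (cR U (h₂.lin w) v ⊗ₜ w) + e2 (cR U (h₂.lin x) v ⊗ₜ x)
  have e4 : e ∈ M := c.kr1_mem (h₂.SU.mul_mem (T_mem_SU _ _) (T_mem_SU _ _))
  have e5 : ∀ u, e (u ⊗ₜ f) - u ⊗ₜ f = u ⊗ₜ w := fun u => by
    simp [e1, symm1 hwf, symm0 hxf]
  have t1 : tk h₂ w g 1 * tk h₂ w g 1 = 1 := by
    rw [tk, conj_mul, kr_mul, T_sq h2 hw h11, one_mul, kr_one]; simp
  have t2 := c.tk_mem (w := w) p.hg 1
  have hte := M.mul_mem t2 e4
  rcases dihedral_cases (tk h₂ w g 1) e with ⟨j, hj⟩ | ⟨j, hj1, hj2⟩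
  · have h3 : e = tk h₂ w (((tk h₂ w g 1 * e) ^ j)⁻¹ * g) 1 := by
      conv_lhs => rw [dihedral_odd t1 e3 hj]
      generalize (tk h₂ w g 1 * e) ^ j = y
      rw [tk, tk]; group
    have h4 := tk_sub_mem (k := ((tk h₂ w g 1 * e) ^ j)⁻¹ * g) hw h11
    rw [← h3] at h4
    have h5 : LW F U w = Lk w (((tk h₂ w g 1 * e) ^ j)⁻¹ * g) := by
      apply Submodule.eq_of_le_of_finrank_eq
      · intro v hv
        obtain ⟨u, rfl⟩ := mem_LW.1 hv
        rw [← e5]; exact h4 _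
      · rw [finrank_Lk p.hw0, finrank_LW p.hw0]
    obtain ⟨y, hy1, hy2⟩ := exists_dual_pair' (h := h₂) hx1 1
    have h6 := h4 (u₀ ⊗ₜ y)
    rw [← h5, e1] at h6
    simp only [cR_tmul, lin_apply, symm0 hy1, symm1 hy2, zero_smul, zero_tmul, add_zero, one_smul,
      add_sub_cancel_left] at h6
    obtain ⟨a, ha⟩ := smul_of_tmul_mem hu0 h6
    exact hx1 a ha
  set z := (tk h₂ w g 1 * e) ^ j with hz
  have hzM : z ∈ M := M.pow_mem hte j
  have hi := inv_eq_of_mul_eq_one_right hj2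
  have z1 : tk h₂ w g 1 * z = z * tk h₂ w g 1 := by rw [hz, dihedral_left t1 e3, ← hz, hi]
  have z2 : e * z = z * e := by rw [hz, dihedral_right t1 e3, ← hz, hi]
  have z3 : ∀ v, z (z v) = v := fun v => LinearEquiv.congr_fun hj2 v
  have z4 : ∀ v ∈ Lk w g, z v ∈ Lk w g := by
    rintro _ ⟨v, hv, rfl⟩
    obtain ⟨u, rfl⟩ := mem_LW.1 hv
    have h3 := tk_sub_mem (k := g) hw h11 (z (g (u ⊗ₜ f)))
    rw [← mul_app, z1, mul_app, ← map_sub, tk_apply hw h11] at h3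
    simpa [symm1 hwf] using h3
  have z5 : ∀ u, z (u ⊗ₜ w) = cR U (h₂.lin w) (z (u ⊗ₜ f)) ⊗ₜ w +
      cR U (h₂.lin x) (z (u ⊗ₜ f)) ⊗ₜ x := fun u => by
    rw [← e5, map_sub, ← mul_app, ← z2, mul_app, e1]; abel
  have z6 : z ∈ KG F U W := by
    by_contra h3
    refine p.not_perp c hzM h3 p.hw0 hw ?_
    rintro _ ⟨v, hv, rfl⟩
    obtain ⟨u, rfl⟩ := mem_LW.1 hv
    simp [z5, hw, hxw]
  have z7 : ∀ v ∈ LW F U w ⊓ Lk w g, z v = v := fun v hv =>
    (MulAction.stabilizer (U ⊗[F] W ≃ₗ[F] U ⊗[F] W) v).pow_mem (x := tk h₂ w g 1 * e) (by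
      change tk h₂ w g 1 (e v) = v
      rw [e1, cR_LW hw hv.1, cR_LW (symm0 hxw) hv.1, zero_tmul, zero_tmul, add_zero, add_zero,
        c.tk_fix hw p.hg h11 (c.Lk_le_perp hw p.hg hv.2)]) j
  have z8 : g⁻¹ * z * g ≠ 1 := fun h0 => hj1 (by
    rw [show z = g * (g⁻¹ * z * g) * g⁻¹ by group, h0]; simp)
  obtain ⟨l, hl | hl⟩ := dihedral_conj t1 e3 j <;> rw [← hz] at hl
  · -- `t' z` is conjugate to `t'`
    have hy := M.pow_mem hte l
    set y := (tk h₂ w g 1 * e) ^ l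
    have h3 : tk h₂ w (g⁻¹ * y⁻¹ * g) 1 = kr 1 (h₂.T w 1) * (g⁻¹ * z * g) := by
      have : z = (tk h₂ w g 1)⁻¹ * (y⁻¹ * tk h₂ w g 1 * y) := by rw [← hl]; group
      rw [this, tk, tk]; group
    obtain ⟨w₃, b, hw3, hw3', hb', h4⟩ := c.tk_kron p.hw0 hw
      (M.mul_mem (M.mul_mem (M.inv_mem p.hg) (M.inv_mem hy)) p.hg) h11 one_ne_zero (by
        rw [h3]
        exact (KG F U W).mul_mem (kr_mem_KG _ _) (c.stab p.hw0 hw
          (M.mul_mem (M.mul_mem (M.inv_mem p.hg) hzM) p.hg) fun v hv =>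
            mem_Lk.1 (z4 _ (app_mem_Lk hv))))
    have h5 : g⁻¹ * z * g = kr 1 (h₂.T w 1 * h₂.T w₃ b) := by
      rw [← one_mul (1 : U ≃ₗ[F] U), ← kr_mul, ← h4, h3, ← mul_assoc, kr_mul, T_sq h2 hw h11,
        one_mul, kr_one, one_mul]
    have hB := h₂.GU.mul_mem (T_mem_GU w 1) (T_mem_GU w₃ b)
    by_cases hI : LW F U w ⊓ Lk w g = ⊥
    · obtain ⟨A, B, hAB⟩ := z6
      obtain ⟨φ, hφ⟩ := exists_dual_one' (F := F) (v := A (A u₀)) (by simpa using hu0)
      have k1 : ∀ x', B (B x') = φ u₀ • x' := fun x' => by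
        simpa [hAB, hφ] using congrArg (cL W φ) (z3 (u₀ ⊗ₜ x'))
      obtain ⟨κ, hκ⟩ : IsSquare (φ u₀) := by
        cases nonempty_fintype F
        exact FiniteField.isSquare_of_char_two (CharP.ringChar_of_prime_eq_zero Nat.prime_two
          (by exact_mod_cast h2)) _
      have hκ0 : κ ≠ 0 := by
        rintro rfl
        exact p.hw0 (by simpa [hκ] using k1 w)
      obtain ⟨u, -, hu, hu'⟩ := exists_fix_of_sq h2 (z := κ • (A : U →ₗ[F] U)) (fun u => by
        refine tmul_left_inj (F := F) p.hw0 ?_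
        have := z3 (u ⊗ₜ w)
        rw [hAB, kr_tmul, kr_tmul, k1, hκ] at this
        simpa [smul_smul, smul_tmul] using this) (K := ⊤) trivial hu0 trivial
      obtain ⟨ψ, hψ⟩ := exists_dual_one' (F := F) (v := A u₀) (by simpa using hu0)
      have k2 := congrArg (cL W ψ) (z5 u₀)
      rw [hAB, kr_tmul, cL_tmul, hψ, one_smul, map_add, cL_tmul, cL_tmul] at k2
      obtain ⟨x', hx', hx'0, hx''⟩ := exists_fix_of_sq h2 (z := κ⁻¹ • (B : W →ₗ[F] W)) (fun u => by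
        simp [k1, hκ, smul_smul, hκ0]) (K := Submodule.span F {w, x})
        (Submodule.subset_span (by simp)) p.hw0 (Submodule.smul_mem _ _
          (Submodule.mem_span_pair.2 ⟨_, _, k2.symm⟩))
      obtain ⟨B', hB', h6, -⟩ := c.exists_Lk p.hw0 hw hx'0 (by
        obtain ⟨a, b, rfl⟩ := Submodule.mem_span_pair.1 hx'
        simp [hw, hxx, hxw, symm0 hxw])
      have k3 : z (u ⊗ₜ x') = u ⊗ₜ x' := by
        conv_rhs => rw [← hu', ← hx'']
        simp [hAB, smul_tmul, smul_smul, hκ0]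
      have := p.lemD c hI h2 (M.mul_mem (M.inv_mem p.hg) (c.kr1_mem hB')) (fun h0 => p.nk (by
        simpa using (KG F U W).inv_mem (((KG F U W).mul_mem_cancel_right (kr_mem_KG _ _)).1 h0)))
        hB (by
          rw [← h5, show g⁻¹ * z * g * (g⁻¹ * z * g) = g⁻¹ * (z * z) * g by group, hj2]; simp)
          (h5 ▸ z8) (l := g⁻¹ (u ⊗ₜ x'))
        (by rw [← h6]; exact app_mem_Lk (k := g⁻¹ * kr 1 B') (tmul_mem_LW u w))
        (by rw [← h5, mul_app, mul_app, apply_inv_apply, k3])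
      exact tmul_ne_zero' hu hx'0 (by simpa using this)
    · obtain ⟨i, hi, hi0⟩ := Submodule.exists_mem_ne_zero_of_ne_bot hI
      have k1 := kron_stab z6 hi.1 hi0 (by rw [z7 i hi]; exact hi.1)
      have k2 : ∀ v ∈ Lk w g⁻¹, (g⁻¹ * z * g) v ∈ Lk w g⁻¹ := fun v hv =>
        app_mem_Lk (k := g⁻¹) (k1 _ (by simpa using mem_Lk.1 hv))
      have k3 : ∀ v ∈ Lk w g⁻¹, kr 1 (h₂.T w 1 * h₂.T w₃ b) v - v ∈ LW F U w := fun v hv =>
        p.inv.lemF c (fun h0 => hI (by rw [← map_inf_inv, h0, Submodule.map_bot])) hB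
          (fun v hv => by
            rw [← h5, mul_app, mul_app, z7 _ (map_inf_inv (g := g) ▸ ⟨v, hv, rfl⟩), inv_apply_apply])
          hv (h5 ▸ k2 v hv)
      have k4 : ¬ g⁻¹ * z * g = kr 1 (h₂.T w 1) := fun h0 =>
        c.notStab p.hw0 hw M.one_mem (M.inv_mem p.hg) (by simpa using p.nk) h11 one_ne_zero
          (by rw [tk, one_mul, inv_one, mul_one, ← h0]; exact k2)
      rcases htr b hb' with rfl | rfl
      · exact k4 (by rw [h5, T_zero, mul_one])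
      by_cases h6 : ∃ a : F, w₃ = a • w
      · obtain ⟨a, rfl⟩ := h6
        have ha : a ≠ 0 := by rintro rfl; simp at hw3
        rw [T_smul hw h11, hq _ (star_norm a) (norm_ne_zero ha), mul_one, T_sq h2 hw h11,
          kr_one] at h5
        exact z8 h5
      · push Not at h6
        obtain ⟨y', hy1, hy2⟩ := exists_dual_pair' (h := h₂) h6 1
        refine p.inv.not_perp c (M.inv_mem p.hg) p.inv.nk hw3 hw3' fun v hv => ?_
        have := cR_LW hy1 (k3 v hv)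
        rw [← one_mul (1 : U ≃ₗ[F] U), ← kr_mul, mul_app, kr_T_apply hw3' h11,
          kr_T_apply hw h11] at this
        simpa [hy1, hy2] using this
  · -- `e z` is conjugate to `t'`
    have hy := M.pow_mem hte l
    have hyz : (tk h₂ w g 1 * e) ^ l * z = z * (tk h₂ w g 1 * e) ^ l := by
      rw [hz, ← pow_add, ← pow_add, add_comm]
    set y := (tk h₂ w g 1 * e) ^ l
    have h3 : tk h₂ w (y * g) 1 = z * e := by
      have : e = y * (tk h₂ w g 1 * z) * y⁻¹ := by rw [hl]; group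
      rw [this, z1, ← mul_assoc y, hyz, ← mul_assoc, ← mul_assoc, ← mul_assoc, hj2, tk, tk]; group
    obtain ⟨w₃, b, hw3, hw3', hb', h4⟩ := c.tk_kron p.hw0 hw (M.mul_mem hy p.hg) h11 one_ne_zero
      (by rw [h3]; exact (KG F U W).mul_mem z6 (kr_mem_KG _ _))
    have h5 : z = kr 1 (h₂.T w₃ b) * e := by rw [← h4, h3, mul_assoc, e3, mul_one]
    have h6 : z = kr 1 (h₂.T w₃ b * (h₂.T w 1 * h₂.T x 1)) := by rw [h5, he, kr_mul, one_mul]
    have hB := h₂.GU.mul_mem (T_mem_GU w₃ b) (h₂.GU.mul_mem (T_mem_GU w 1) (T_mem_GU x 1))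
    by_cases hI : LW F U w ⊓ Lk w g = ⊥
    · obtain ⟨v, hv, hv0, hv'⟩ := exists_fix_of_sq h2 (z := (z : _ →ₗ[F] _)) z3
        (app_mem_Lk (k := g) (tmul_mem_LW u₀ w)) (by simpa using tmul_ne_zero' hu0 p.hw0)
        (z4 _ (app_mem_Lk (tmul_mem_LW u₀ w)))
      exact hv0 (p.lemD c hI h2 p.hg p.nk hB (h6 ▸ hj2) (h6 ▸ hj1) hv (h6 ▸ hv'))
    · have k3 : ∀ v ∈ Lk w g, z v - v ∈ LW F U w := fun v hv => by
        rw [h6]; exact p.lemF c hI hB (h6 ▸ z7) hv (h6 ▸ z4 v hv)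
      have k4 : ∀ y', h₂ w y' = 0 → h₂ x y' = 1 → ∀ v ∈ Lk w g, cR U (h₂.lin x) v +
          (b * h₂ w₃ y') • cR U (h₂.lin w₃) (e v) = 0 := fun y' hy1 hy2 v hv => by
        have := cR_LW hy1 (k3 v hv)
        rw [h5, mul_app, kr_T_apply hw3' hb', add_sub_right_comm, map_add,
          show cR U (h₂.lin y') (e v - v) = cR U (h₂.lin x) v by simp [e1, hy1, hy2]] at this
        simpa [smul_smul] using this
      by_cases h7 : ∃ a a' : F, x = a • w + a' • w₃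
      · obtain ⟨y', hy1, hy2⟩ := exists_dual_pair' (h := h₂) hx1 1
        obtain ⟨a, a', h8⟩ := h7
        have ha' : a' ≠ 0 := by rintro rfl; exact hx1 a (by simpa using h8)
        have h9 : w₃ = (-(a / a')) • w + a'⁻¹ • x := by
          rw [h8]; match_scalars <;> field_simp <;> ring
        have h10 := hq _ (star_norm a'⁻¹) (norm_ne_zero (inv_ne_zero ha'))
        rcases htr b hb' with rfl | rfl
        · exact p.not_perp c p.hg p.nk hx0 hxx fun v hv => by simpa using k4 y' hy1 hy2 v hv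
        by_cases ha : a = 0
        · rw [ha, zero_div, neg_zero, zero_smul, zero_add] at h9
          refine c.notStab p.hw0 hw M.one_mem p.hg (by simpa using p.nk) h11 one_ne_zero ?_
          convert z4 using 4
          rw [tk, one_mul, inv_one, mul_one, h5, h9, T_smul hxx h11, h10, mul_one]
          ext v
          rw [mul_app, kr_T_apply hxx h11, kr_T_apply hw h11, e1]
          simp only [map_add, cR_tmul, lin_apply, hxx, symm0 hxw, zero_smul, add_zero, one_smul]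
          linear_combination (norm := module) -e2 (cR U (h₂.lin x) v ⊗ₜ x)
        · refine p.not_perp c p.hg p.nk p.hw0 hw fun v hv => ?_
          have := k4 y' hy1 hy2 v hv
          rw [h9, cR_add, cR_smul, cR_smul, e1] at this
          simp only [map_add, cR_tmul, lin_apply, hw, hxx, hxw, symm0 hxw, zero_smul, add_zero,
            add_left, smul_left, hy1, hy2, mul_zero, zero_add, mul_one, one_mul, smul_add, smul_smul,
            h10, one_smul] at this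
          have h12 : (2 : F) • cR U (h₂.lin x) v = 0 := by rw [h2, zero_smul]
          have h13 : (a'⁻¹ * star (-(a / a'))) • cR U (h₂.lin w) v = 0 := by
            linear_combination (norm := module) this - h12
          simpa [ha, ha'] using h13
      · push Not at h7
        obtain ⟨y', hy1, hy2, hy3⟩ := exists_dual_triple' (h := h₂) h7 1
        exact p.not_perp c p.hg p.nk hx0 hxx fun v hv => by simpa [hy2] using k4 y' hy1 hy3 v hv

end Cfsg.Agent.H5.U
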