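import Cfsg.Agent.H5.U.Ten5
import Cfsg.Agent.H5.U.NonMax
import Cfsg.Agent.H5.U.SubBridge
import Cfsg.Agent.H6.Tens2

/-! Tensor products of unitary spaces: maximality of the stabiliser. -/

set_option autoImplicit false
set_option linter.unusedSimpArgs false
set_option linter.unusedSectionVars false
set_option linter.unusedVariables false

namespace Cfsg.Agent.H5.U

open Module H6 TensorProduct HF

section Core

variable {F : Type*} {U W : Type*} [Field F] [AddCommGroup U] [Module F U]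
  [AddCommGroup W] [Module F W] [StarRing F] [NStar F] [Finite F] [FiniteDimensional F U]
  [FiniteDimensional F W]

variable {h₁ : HF F U} {h₂ : HF F W} {h : HF F (U ⊗[F] W)}
  {M : Subgroup (U ⊗[F] W ≃ₗ[F] U ⊗[F] W)} {w : W} {g k k' m : U ⊗[F] W ≃ₗ[F] U ⊗[F] W}

theorem exists_cube_ne (hq : ∃ s : F, star s = s ∧ s ≠ 0 ∧ s ≠ 1) :
    ∃ l : F, l * star l = 1 ∧ l ^ 3 ≠ 1 := by
  by_contra! h0
  obtain ⟨l, m, h1, h2, h3, h4, h5⟩ := exists_two_tr hq
  have key : ∀ l : F, l * star l = 1 → l ≠ 1 → (l - 1) * star (l - 1) = 3 := by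
    intro l h1 h2
    have h3 : l ^ 2 + l + 1 = 0 := mul_left_cancel₀ (sub_ne_zero.2 h2) (by
      linear_combination h0 l h1)
    have h4 : star l = l ^ 2 := mul_left_cancel₀ (ne_zero_of_norm_one h1) (by
      linear_combination h1 - h0 l h1)
    rw [star_sub, star_one, h4]
    linear_combination h0 l h1 - h3
  exact h5 (by rw [key l h1 h2, key m h3 h4])

theorem Pr.two_three (c : TC h₁ h₂ h M) (p : Pr h₂ M w g) (hb : finrank F W = 3)
    (hI : LW F U w ⊓ Lk w g = ⊥) : False := by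
  have ha : finrank F U = 2 := by have := c.ha; have := c.hab; omega
  have hq := c.hq.resolve_right (by omega)
  obtain ⟨μ, hμ, hμ3⟩ := exists_cube_ne hq
  have hμ0 := ne_zero_of_norm_one hμ
  have hl : star μ ^ 3 * star (star μ ^ 3) = 1 := by
    rw [star_pow, star_star, ← mul_pow, mul_comm, hμ, one_pow]
  have hl1 : star μ ^ 3 - 1 ≠ 0 := fun h0 => hμ3 (by
    simpa using congrArg star (sub_eq_zero.1 h0))
  obtain ⟨u₀, hu₀⟩ := c.exists_unit
  have hu0 : u₀ ≠ 0 := by rintro rfl; simp at hu₀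
  let r : W → (U ⊗[F] W ≃ₗ[F] U ⊗[F] W) := fun x =>
    kr (LinearEquiv.smulOfNeZero F U μ hμ0) (h₂.R x (star μ ^ 3))
  have r1 : ∀ x, h₂ x x ≠ 0 → r x ∈ M := fun x hx => c.hH _ (mem_SU.2 ⟨c.t.kr_GU
    (fun u u' => by simp; linear_combination h₁ u u' * hμ) (R_mem_GU _ _), by
      rw [det_kr, det_R hx hl, show ((LinearEquiv.smulOfNeZero F U μ hμ0 : U ≃ₗ[F] U) : U →ₗ[F] U) =
        μ • LinearMap.id from rfl, LinearMap.det_smul, ha, hb, LinearMap.det_id]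
      linear_combination ((μ * star μ) ^ 5 + (μ * star μ) ^ 4 + (μ * star μ) ^ 3 + (μ * star μ) ^ 2 +
        (μ * star μ) + 1) * hμ⟩) (kr_mem_KG _ _)
  have r2 : ∀ x, h₂ x x ≠ 0 → ∀ v, r x v = μ • v +
      (μ * ((star μ ^ 3 - 1) * (h₂ x x)⁻¹)) • cR U (h₂.lin x) v ⊗ₜ x := by
    intro x hx v
    induction v with
    | zero => simp
    | tmul u y =>
      simp only [r, kr_tmul, R_apply hx hl, LinearEquiv.smulOfNeZero_apply, tmul_add, tmul_smul,
        cR_tmul, lin_apply, ← smul_tmul']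
      module
    | add x y hx hy => simp only [map_add, hx, hy, add_tmul, smul_add]; abel
  have A : ∀ k ∈ M, k ∉ KG F U W → ∃ x, h₂ x x ≠ 0 ∧ ∀ v ∈ Lk w k, cR U (h₂.lin x) v = 0 := by
    intro k hk nk
    have hl0 : k (u₀ ⊗ₜ w) ≠ 0 := by simpa using tmul_ne_zero' hu0 p.hw0
    have hl' : k (u₀ ⊗ₜ w) ∈ Lk w k := app_mem_Lk (tmul_mem_LW u₀ w)
    obtain ⟨b, -, -, hb'⟩ := (ndOn_top (h := h₁)).exists_ON 2 (by simpa using ha)
    obtain ⟨x, -, hx0, hx⟩ := exists_ne_perp (h := h₂) ⊤ [cL W (h₁.lin (b 0)) (k (u₀ ⊗ₜ w)),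
      cL W (h₁.lin (b 1)) (k (u₀ ⊗ₜ w))] (by simp [hb])
    have h1 : cR U (h₂.lin x) (k (u₀ ⊗ₜ w)) = 0 := by
      rw [hb' (cR U _ _) trivial, Fin.sum_univ_two, ← c.t.right, ← c.t.right, c.t.right',
        c.t.right', symm0 (hx _ (by simp)), symm0 (hx _ (by simp))]
      simp
    have hxx : h₂ x x ≠ 0 := fun h0 => hl0 (p.eq_zero c hI hk nk hx0 h0 hl' h1)
    refine ⟨x, hxx, fun v hv => ?_⟩
    have h2 := p.key' c hk (r1 x hxx) (K := Submodule.span F {k (u₀ ⊗ₜ w)})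
      ((Submodule.span_singleton_le_iff_mem _ _).2 hl') (fun v hv => by
        obtain ⟨a, rfl⟩ := Submodule.mem_span_singleton.1 hv
        rw [map_smul, r2 x hxx, h1, zero_tmul, smul_zero, add_zero]
        exact Submodule.smul_mem _ _ (Submodule.smul_mem _ _ hl'))
      (by rw [hI, finrank_bot, finrank_span_singleton hl0]; omega) v hv
    rw [r2 x hxx, Submodule.add_mem_iff_right _ (Submodule.smul_mem _ _ hv),
      Submodule.smul_mem_iff _ (by simp [hμ0, hl1, hxx])] at h2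
    obtain ⟨y, -, hy0, hyy, hy⟩ := exists_iso_perp (h := h₂) ⊤ [x] (by simp [hb])
    have := p.eq_zero c hI hk nk hy0 hyy h2 (by simp [symm0 (hy x (by simp))])
    exact tmul_left_inj (F := F) hx0 (by rw [this, zero_tmul])
  have B : ∀ w', w' ≠ 0 → h₂ w' w' = 0 → ∃ x', h₂ x' x' ≠ 0 ∧ h₂ w' x' = 0 ∧ ∃ x, h₂ x x ≠ 0 ∧
      (LW F U x').map (g : _ →ₗ[F] _) = LW F U x := by
    intro w' hw0' hw'
    obtain ⟨B, hB, h1, -⟩ := c.exists_Lk p.hw0 p.hw hw0' hw'
    have hk := M.mul_mem p.hg (c.kr1_mem hB)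
    obtain ⟨x, hxx, hx⟩ := A _ hk fun h0 =>
      p.nk (((KG F U W).mul_mem_cancel_right (kr_mem_KG _ _)).1 h0)
    have hx0 := ne_zero_left hxx
    have h2 := c.stab p.hw0 p.hw (M.mul_mem (M.mul_mem (M.inv_mem hk) (r1 x hxx)) hk) fun v hv =>
      (mem_Lk (v := r x ((g * kr (1 : U ≃ₗ[F] U) B : U ⊗[F] W ≃ₗ[F] U ⊗[F] W) v))).1 (by
        rw [r2 x hxx, hx _ (app_mem_Lk hv), zero_tmul, smul_zero, add_zero]
        exact Submodule.smul_mem _ _ (app_mem_Lk hv))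
    obtain ⟨A', B', h3⟩ : g⁻¹ * r x * g ∈ KG F U W := by
      convert (KG F U W).mul_mem ((KG F U W).mul_mem (kr_mem_KG 1 B) h2)
        ((KG F U W).inv_mem (kr_mem_KG 1 B)) using 1
      group
    have h4 : ∀ v, kr ((LinearEquiv.smulOfNeZero F U μ hμ0)⁻¹ * A') B' v - v =
        ((star μ ^ 3 - 1) * (h₂ x x)⁻¹) • g⁻¹ (cR U (h₂.lin x) (g v) ⊗ₜ x) := fun v => by
      rw [← one_mul B', ← kr_mul, ← h3, mul_app, mul_app, mul_app, r2 x hxx, ← inv_one, ← kr_inv,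
        sub_eq_iff_eq_add, ← LinearEquiv.eq_symm_apply]
      change _ = kr _ _ _
      rw [show ∀ v, kr (LinearEquiv.smulOfNeZero F U μ hμ0) (1 : W ≃ₗ[F] W) v = μ • v from fun v => by
        induction v with
        | zero => simp
        | tmul u y => simp [smul_tmul']
        | add x y hx hy => simp [hx, hy]]
      simp only [map_add, map_smul, inv_apply_apply]
      module
    obtain ⟨B'', h5⟩ := scalar_of_small (K := Lk x g⁻¹) (by rw [finrank_Lk hx0]; omega) fun v => by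
      rw [h4]; exact Submodule.smul_mem _ _ (app_mem_Lk (tmul_mem_LW _ _))
    rw [h5] at h4
    obtain ⟨y, hy⟩ : ∃ y, B'' y - y ≠ 0 := by
      by_contra! h6
      have := h4 (g⁻¹ (u₀ ⊗ₜ x))
      rw [show B'' = 1 from LinearEquiv.ext fun x => sub_eq_zero.1 (h6 x), kr_one] at this
      simp only [one_app, sub_self, apply_inv_apply, cR_tmul, lin_apply, ← smul_tmul', map_smul,
        smul_smul] at this
      exact smul_ne_zero (by simp [hl1, hxx]) (by simpa using tmul_ne_zero' hu0 hx0) this.symm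
    have h6 : (LW F U (B'' y - y)).map (g : _ →ₗ[F] _) = LW F U x := by
      apply Submodule.eq_of_le_of_finrank_eq
      · rintro _ ⟨v, hv, rfl⟩
        obtain ⟨u, rfl⟩ := mem_LW.1 hv
        have := h4 (u ⊗ₜ y)
        rw [kr_tmul, one_app, ← tmul_sub] at this
        rw [this, map_smul, LinearEquiv.coe_coe, apply_inv_apply]
        exact Submodule.smul_mem _ _ (tmul_mem_LW _ _)
      · rw [LinearEquiv.finrank_map_eq, finrank_LW hx0, finrank_LW hy]
    refine ⟨_, fun h0 => ?_, ?_, x, hxx, h6⟩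
    · obtain ⟨_, ⟨u, rfl⟩, hu⟩ := h6.ge (tmul_mem_LW u₀ x)
      have := (c.hM p.hg).1 (u ⊗ₜ (B'' y - y)) (u ⊗ₜ (B'' y - y))
      change g (u ⊗ₜ (B'' y - y)) = _ at hu
      rw [hu, c.t, c.t, h0, hu₀] at this
      simp [hxx] at this
    · have := c.t.mem_perp_LW.2 (hx _ (app_mem_Lk (tmul_mem_LW u₀ w))) _
        (h6.le ⟨_, tmul_mem_LW u₀ _, rfl⟩)
      rwa [mul_app, LinearEquiv.coe_coe, (c.hM p.hg).1, kr_tmul, h1, c.t, one_app, hu₀,
        one_mul] at this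
  have C : ∀ x' y' w', h₂ x' x' ≠ 0 → h₂ w' x' ≠ 0 → h₂ w' y' = 0 → h₂ y' y' ≠ 0 →
      (∃ x, h₂ x x ≠ 0 ∧ (LW F U x').map (g : _ →ₗ[F] _) = LW F U x) →
      (∃ x, h₂ x x ≠ 0 ∧ (LW F U y').map (g : _ →ₗ[F] _) = LW F U x) → h₂ y' x' = 0 := by
    rintro x' y' w' h1 h2 h3 h4 ⟨x, hx, h5⟩ ⟨y, hy, h6⟩
    by_contra h7
    have hG := (c.hM p.hg).1
    have h8 : ∀ u, ∃ u', g (u ⊗ₜ x') = u' ⊗ₜ x ∧
        g (u ⊗ₜ y') = (h₂ y' x' * h₂ x x / (h₂ x' x' * h₂ y x)) • u' ⊗ₜ y := by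
      intro u
      obtain ⟨a, ha⟩ := mem_LW.1 (h5.le ⟨_, tmul_mem_LW u x', rfl⟩)
      obtain ⟨b, hb⟩ := mem_LW.1 (h6.le ⟨_, tmul_mem_LW u y', rfl⟩)
      rw [LinearEquiv.coe_coe] at ha hb
      refine ⟨a, ha.symm, ?_⟩
      rw [← hb, smul_tmul']
      congr 1
      have hyx : h₂ y x ≠ 0 := fun h0 => by
        obtain ⟨b', hb'⟩ := mem_LW.1 (h6.le ⟨_, tmul_mem_LW u₀ y', rfl⟩)
        obtain ⟨a', ha'⟩ := mem_LW.1 (h5.le ⟨_, tmul_mem_LW u₀ x', rfl⟩)
        have := hG (u₀ ⊗ₜ y') (u₀ ⊗ₜ x')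
        rw [LinearEquiv.coe_coe] at ha' hb'
        rw [← ha', ← hb', c.t, c.t, h0, hu₀] at this
        exact h7 (by simpa using this.symm)
      refine h₁.ext_left fun z => ?_
      obtain ⟨_, ⟨z', rfl⟩, hz⟩ := h5.ge (tmul_mem_LW z x)
      change g (z' ⊗ₜ x') = _ at hz
      have e1 := hG (u ⊗ₜ x') (z' ⊗ₜ x')
      have e2 := hG (u ⊗ₜ y') (z' ⊗ₜ x')
      rw [hz, ← ha, c.t, c.t] at e1
      rw [hz, ← hb, c.t, c.t] at e2
      rw [smul_left]
      field_simp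
      linear_combination h₂ x' x' * e2 - h₂ y' x' * e1
    obtain ⟨z, hz, hz0, hzz⟩ := exists_iso (h := h₂) (K := Submodule.span F {x', y'}) (by
      have e1 := finrank_inf_pv_lt (h := h₂) (K := Submodule.span F {x', y'}) (v := w')
        (Submodule.subset_span (by simp)) (symm_ne h2)
      have e2 := finrank_inf_pv_lt (h := h₂) (K := Submodule.span F {x', y'} ⊓ h₂.pv w') (v := y')
        ⟨Submodule.subset_span (by simp), symm0 h3⟩ h4
      omega)
    obtain ⟨a, b, rfl⟩ := Submodule.mem_span_pair.1 hz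
    refine p.nk (c.kron_of_line hz0 hzz p.hg
      (w' := a • x + (b * (h₂ y' x' * h₂ x x / (h₂ x' x' * h₂ y x))) • y) fun v hv => ?_)
    obtain ⟨u, rfl⟩ := mem_LW.1 hv
    obtain ⟨u', e1, e2⟩ := h8 u
    exact ⟨u', by simp [tmul_add, e1, e2, smul_smul]⟩
  obtain ⟨x₁, a1, -, b1⟩ := B w p.hw0 p.hw
  obtain ⟨w₂, -, c2, d2⟩ := (ndOn_top (h := h₂)).exists_iso_ne' (by simp [hb]) trivial a1
  obtain ⟨x₂, a2, e2, b2⟩ := B w₂ (ne_zero_left d2) c2
  have f21 := C _ _ _ a1 d2 e2 a2 b1 b2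
  obtain ⟨w₃, -, c3, d3, d3'⟩ := (ndOn_top (h := h₂)).exists_iso_ne₂' (by simp [hb]) trivial
    (ne_zero_left a1) trivial (ne_zero_left a2)
  obtain ⟨x₃, a3, e3, b3⟩ := B w₃ (ne_zero_left d3) c3
  have f31 := C _ _ _ a1 d3 e3 a3 b1 b3
  have f32 := C _ _ _ a2 d3' e3 a3 b2 b3
  obtain ⟨s, hs, hs0, hs1⟩ := hq
  obtain ⟨α, hα⟩ := exists_norm_eq a1 (t := 1) (by simp)
  obtain ⟨β, hβ⟩ := exists_norm_eq a2 (t := -s) (by simp [hs])
  obtain ⟨γ, hγ⟩ := exists_norm_eq a3 (t := s - 1) (by simp [hs])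
  have hα0 : α ≠ 0 := by rintro rfl; simp at hα
  have hβ0 : β ≠ 0 := by rintro rfl; simp [hs0] at hβ
  have hγ0 : γ ≠ 0 := by rintro rfl; exact hs1 (sub_eq_zero.1 (by simpa using hγ.symm))
  have d4 : h₂ (α • x₁ + β • x₂ + γ • x₃) x₁ ≠ 0 := by simp [f21, f31, hα0, a1]
  obtain ⟨x₄, a4, e4, b4⟩ := B (α • x₁ + β • x₂ + γ • x₃) (ne_zero_left d4) (by
    simp only [add_left, add_right, hα, hβ, hγ]
    simp [f21, f31, f32, symm0 f21, symm0 f31, symm0 f32]
    ring)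
  have f41 := C _ _ _ a1 d4 e4 a4 b1 b4
  have f42 := C _ _ _ a2 (by simp [symm0 f21, f32, hβ0, a2]) e4 a4 b2 b4
  have f43 := C _ _ _ a3 (by simp [symm0 f31, symm0 f32, hγ0, a3]) e4 a4 b3 b4
  have g1 := finrank_inf_unit (h := h₂) (W := ⊤) trivial a1
  have g2 := finrank_inf_unit (h := h₂) (W := ⊤ ⊓ h₂.pv x₁) ⟨trivial, f21⟩ a2
  have g3 := finrank_inf_unit (h := h₂) (W := ⊤ ⊓ h₂.pv x₁ ⊓ h₂.pv x₂) ⟨⟨trivial, f31⟩, f32⟩ a3
  have g4 := finrank_inf_unit (h := h₂) (W := ⊤ ⊓ h₂.pv x₁ ⊓ h₂.pv x₂ ⊓ h₂.pv x₃)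
    ⟨⟨⟨trivial, f41⟩, f42⟩, f43⟩ a4
  rw [finrank_top] at g1
  omega

theorem TC.core (c : TC h₁ h₂ h M) : ∀ g ∈ M, g ∈ KG F U W := by
  by_contra! h0
  obtain ⟨w, -, hw0, hw⟩ := exists_iso (h := h₂) (K := ⊤) (by have := c.hb; simp; omega)
  obtain ⟨g, p⟩ := exists_pr hw0 hw h0
  by_cases hq : ∃ s : F, star s = s ∧ s ≠ 0 ∧ s ≠ 1
  · obtain ⟨s, hs, hs0, hs1⟩ := hq
    by_cases hb : 4 ≤ finrank F W ∨ LW F U w ⊓ Lk w g ≠ ⊥
    · exact hs1 (p.pigeon c hb hs hs0)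
    · push Not at hb
      exact p.two_three c (by have := c.hb; omega) hb.2
  · have := c.hq.resolve_left hq
    push Not at hq
    exact p.four c (by have := c.hab; omega) hq

theorem TP.T_not_mem (t : TP h₁ h₂ h) (ha : 2 ≤ finrank F U) (hb : 2 ≤ finrank F W)
    {v : U ⊗[F] W} (hv0 : v ≠ 0) (hv : h v v = 0) : h.T v (del F) ∉ KG F U W := by
  rintro ⟨A, B, h1⟩
  have h2 : ∀ x, kr A B x - x ∈ Submodule.span F {v} := fun x => by
    rw [← h1, T_apply hv del_tr, add_sub_cancel_left]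
    exact Submodule.smul_mem _ _ (Submodule.mem_span_singleton_self v)
  obtain ⟨B', h3⟩ := scalar_of_small (by rw [finrank_span_singleton hv0]; omega) h2
  rw [h3] at h1 h2
  obtain ⟨y, hy⟩ : ∃ y, B' y - y ≠ 0 := by
    by_contra! h6
    rw [show B' = 1 from LinearEquiv.ext fun x => sub_eq_zero.1 (h6 x), kr_one] at h1
    obtain ⟨x, hx⟩ := h.exists_ne hv0
    have := LinearEquiv.congr_fun h1 x
    rw [T_apply hv del_tr] at this
    simp [one_app, hx, hv0, del_ne] at this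
  have := Submodule.finrank_mono (show LW F U (B' y - y) ≤ Submodule.span F {v} by
    intro x hx
    obtain ⟨u, rfl⟩ := mem_LW.1 hx
    simpa [tmul_sub] using h2 (u ⊗ₜ y))
  rw [finrank_span_singleton hv0, finrank_LW hy] at this
  omega

theorem TP.between (t : TP h₁ h₂ h) (ha : finrank F U = 2) (hb : 2 ≤ finrank F W)
    (hq : ∀ t : F, star t = t → t = 0 ∨ t = 1) :
    ∃ K : Subgroup (U ⊗[F] W ≃ₗ[F] U ⊗[F] W), (∀ g ∈ h.SU, g ∈ KG F U W → g ∈ K) ∧
      (∃ g ∈ h.SU, g ∈ K ∧ g ∉ KG F U W) ∧ ∃ g ∈ h.SU, g ∉ K := by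
  let S : U ⊗[F] W → Prop := fun v => ∃ u x, h₁ u u ≠ 0 ∧ v = u ⊗ₜ x
  have h2 := two_eq_zero_of_F4 hq
  have hd := del_ne (F := F)
  obtain ⟨b, -, hb1, hb2⟩ := (ndOn_top (h := h₁)).exists_ON 2 (by simpa using ha)
  have b0 : h₁ (b 0) (b 0) = 1 := by simp [hb1 0 0]
  have b1 : h₁ (b 1) (b 1) = 1 := by simp [hb1 1 1]
  have b2 : h₁ (b 0) (b 1) = 0 := by simp [hb1 0 1]
  obtain ⟨w, -, f, -, hw, hf, hwf⟩ := (ndOn_top (h := h₂)).exists_hyp (by simpa using hb)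
  have hw0 : w ≠ 0 := ne_zero_left (by rw [hwf]; exact one_ne_zero)
  have k1 : ∀ g ∈ h.SU, g ∈ KG F U W → ∀ v, S v → S (g v) := by
    rintro _ hg ⟨A, B, rfl⟩ _ ⟨u, x, hu, rfl⟩
    refine ⟨A u, B x, fun h0 => hu ?_, rfl⟩
    have := hg.1 (u ⊗ₜ w) (u ⊗ₜ f)
    simpa [t _ _ _ _, h0, hwf] using this.symm
  have k2 : ∀ a : F, a + star a = 0 → ∀ v, S v → S (h.T (b 0 ⊗ₜ w) a v) := by
    rintro a ha _ ⟨u, x, hu, rfl⟩
    rw [T_apply (by rw [t, hw, mul_zero]) ha, t]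
    by_cases h3 : h₁ u (b 0) = 0
    · exact ⟨u, x, hu, by simp [h3]⟩
    have h4 : h₁ u (b 1) = 0 := by
      by_contra h4
      apply hu
      have := congrArg (fun y => h₁ y u) (hb2 u trivial)
      simp only [Fin.sum_univ_two, add_left, smul_left] at this
      rw [this, ← h₁.conj u (b 0), ← h₁.conj u (b 1), norm_eq_one_of_F4 hq h3,
        norm_eq_one_of_F4 hq h4]
      linear_combination h2
    refine ⟨u, x + (a * h₂ x w) • w, hu, ?_⟩
    rw [tmul_add]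
    congr 1
    conv_rhs => rw [hb2 u trivial]
    simp only [Fin.sum_univ_two, h4, zero_smul, add_zero, tmul_smul, ← smul_tmul']
    module
  refine ⟨{ carrier := {g | ∀ v, S (g v) ↔ S v}
            mul_mem' := fun {x y} hx hy v => (hx _).trans (hy v)
            one_mem' := fun v => Iff.rfl
            inv_mem' := fun {x} hx v => by rw [← hx, apply_inv_apply] },
    fun g hg hg' v => ⟨fun h0 => ?_, k1 g hg hg' v⟩,
    ⟨h.T (b 0 ⊗ₜ w) (del F), T_mem_SU _ _, fun v => ⟨fun h0 => ?_, k2 _ del_tr v⟩,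
      t.T_not_mem ha.ge hb (tmul_ne_zero' (by rintro h0; simp [h0] at b0) hw0)
        (by rw [t, hw, mul_zero])⟩,
    h.T ((b 0 + b 1) ⊗ₜ w) (del F), T_mem_SU _ _, fun h0 => ?_⟩
  · simpa using k1 _ (h.SU.inv_mem hg) ((KG F U W).inv_mem hg') _ h0
  · have := k2 (-del F) (by simp) _ h0
    rwa [← T_inv (by rw [t, hw, mul_zero]) del_tr, inv_apply_apply] at this
  · obtain ⟨u, x, hu, h3⟩ := (h0 (b 0 ⊗ₜ f)).2 ⟨b 0, f, by simp [b0], rfl⟩
    rw [T_apply (by rw [t, hw, mul_zero]) del_tr, t] at h3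
    have h4 := congrArg (cR U (h₂.lin f)) h3
    simp only [map_add, map_smul, cR_tmul, lin_apply, hf, hwf, symm1 hwf, add_right, b0, b2,
      zero_smul, zero_add, add_zero, mul_one, one_smul] at h4
    have h5 := congrArg (fun y => h₁ y y) h4
    have h6 := congrArg (fun y => h₁ y (b 0)) h4
    simp only [smul_left, smul_right, add_left, add_right, b0, b1, b2, symm0 b2] at h5 h6
    have h7 : h₂ x f * star (h₂ x f) = 0 := mul_right_cancel₀ hu (by
      linear_combination -h5 + del F * star (del F) * h2)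
    have h8 : h₂ x f = 0 := by by_contra h8; exact norm_ne_zero h8 h7
    simp [h8, hd] at h6

end Core

section Bridge

open Matrix Kronecker

variable {F : Type*} [Field F]

/-- coordinates on a tensor product -/
noncomputable def tpEq (F : Type*) [Field F] (a b : ℕ) :
    (Fin a × Fin b → F) ≃ₗ[F] (Fin a → F) ⊗[F] (Fin b → F) :=
  ((Pi.basisFun F (Fin a)).tensorProduct (Pi.basisFun F (Fin b))).equivFun.symm

theorem tpEq_symm_tmul {a b : ℕ} (u : Fin a → F) (x : Fin b → F) :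
    (tpEq F a b).symm (u ⊗ₜ x) = fun p => u p.1 * x p.2 := by
  ext ⟨i, j⟩
  simp [tpEq, Basis.tensorProduct_repr_tmul_apply, mul_comm]

theorem kron_mulVec_tp {a b : ℕ} (A : Matrix (Fin a) (Fin a) F) (B : Matrix (Fin b) (Fin b) F)
    (u : Fin a → F) (x : Fin b → F) :
    (A ⊗ₖ B) *ᵥ (tpEq F a b).symm (u ⊗ₜ x) = (tpEq F a b).symm ((A *ᵥ u) ⊗ₜ (B *ᵥ x)) := by
  ext ⟨i, j⟩
  simp only [tpEq_symm_tmul, mulVec, dotProduct, Fintype.sum_prod_type, kroneckerMap_apply,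
    Finset.sum_mul_sum]
  exact Finset.sum_congr rfl fun _ _ => Finset.sum_congr rfl fun _ _ => by ring

theorem mem_kronecker_tp {a b : ℕ} (k : GL (Fin a × Fin b) F) :
    k ∈ Geo.kroneckerSubgroup a b F ↔ glEquiv (tpEq F a b) k ∈ KG F _ _ := by
  constructor
  · rintro ⟨A, B, h⟩
    refine ⟨gl0 A, gl0 B, tens_ext fun u x => ?_⟩
    rw [glEquiv_apply, h, kron_mulVec_tp, LinearEquiv.apply_symm_apply]
    rfl
  · rintro ⟨A, B, h⟩
    obtain ⟨A, rfl⟩ := gl0.surjective A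
    obtain ⟨B, rfl⟩ := gl0.surjective B
    refine ⟨A, B, Matrix.toLin'.injective ?_⟩
    refine (LinearMap.cancel_right (g := (tpEq F a b).symm.toLinearMap)
      (tpEq F a b).symm.surjective).1 (TensorProduct.ext' fun u x => ?_)
    have := LinearEquiv.congr_fun h (u ⊗ₜ x)
    rw [glEquiv_apply, ← LinearEquiv.eq_symm_apply] at this
    simp only [LinearMap.comp_apply, LinearEquiv.coe_coe, toLin'_apply, kron_mulVec_tp, this]
    rfl

variable [Fintype F] {q : ℕ}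

/-- a form given as a function -/
@[reducible] def ofPow (hF : Fintype.card F = q ^ 2) {n : ℕ} {f : (Fin n → F) → (Fin n → F) → F}
    (hf : Geo.IsUnitaryFormPow q f) : letI := powStar hF; HF F (Fin n → F) :=
  letI := powStar hF
  { toFun := f
    add_left' := hf.add_left
    smul_left' := hf.smul_left
    conj' := fun x y => (hf.herm y x).symm
    nd' := fun v hv => by
      by_contra h0
      obtain ⟨x, hx⟩ := (hf.nondegenerate v h0).1
      exact hx (hv x) }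

theorem exists_tp {n a b : ℕ} (hF : Fintype.card F = q ^ 2) (ha : 1 ≤ a) (hb : 1 ≤ b)
    (e : Fin n ≃ Fin a × Fin b) (P : GL (Fin n) F) (f₁ : (Fin a → F) → (Fin a → F) → F)
    (f₂ : (Fin b → F) → (Fin b → F) → F) (hf₁ : Geo.IsUnitaryFormPow q f₁)
    (hf₂ : Geo.IsUnitaryFormPow q f₂)
    (hT : Geo.IsTensorFormStructure (fun x : F => x ^ q) (hermForm n F q) f₁ f₂ e P) :
    letI := powStar hF
    ∃ (h₁ : HF F (Fin a → F)) (h₂ : HF F (Fin b → F)) (h : HF F ((Fin a → F) ⊗[F] (Fin b → F)))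
      (E : (Fin n → F) ≃ₗ[F] (Fin a → F) ⊗[F] (Fin b → F)), TP h₁ h₂ h ∧
      (∀ g, g ∈ GU n F q ↔ glEquiv E g ∈ h.GU) ∧
      ∀ g, g ∈ Geo.tensorProductSubgroup a b e P ↔ glEquiv E g ∈ KG F _ _ := by
  letI := powStar hF
  haveI := powStar_nstar hF
  obtain ⟨c, hc, hT⟩ := hT
  let E := (frameEq e P).trans (tpEq F a b)
  let h := (stdHF (Fin n) F).comap E.symm
  have h1 : ∀ u x u' x', h (u ⊗ₜ x) (u' ⊗ₜ x') = c * (ofPow hF hf₁ u u' * ofPow hF hf₂ x x') := by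
    intro u x u' x'
    have := hT ((tpEq F a b).symm (u ⊗ₜ x)) ((tpEq F a b).symm (u' ⊗ₜ x'))
    refine this.trans ?_
    rw [form_expand (ofPow hF hf₁), form_expand (ofPow hF hf₂)]
    simp only [Geo.formOfGram, tpEq_symm_tmul, Fintype.sum_prod_type, kroneckerMap_apply,
      Finset.sum_mul_sum, mul_pow]
    simp only [Finset.mul_sum]
    refine Finset.sum_congr rfl fun i _ => Finset.sum_congr rfl fun j _ =>
      Finset.sum_congr rfl fun i' _ => Finset.sum_congr rfl fun j' _ => ?_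
    change _ = c * (u i * u' i' ^ q * f₁ _ _ * (x j * x' j' ^ q * f₂ _ _))
    simp only [Geo.gramMatrix]
    ring
  obtain ⟨u, -, hu⟩ := (ndOn_top (h := ofPow hF hf₁)).exists_unit (by
    intro h0
    have := finrank_top F (Fin a → F)
    rw [h0] at this; simp at this; omega)
  obtain ⟨x, -, hx⟩ := (ndOn_top (h := ofPow hF hf₂)).exists_unit (by
    intro h0
    have := finrank_top F (Fin b → F)
    rw [h0] at this; simp at this; omega)
  have hc' : star c = c := by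
    have := h.conj (u ⊗ₜ x) (u ⊗ₜ x)
    rwa [h1, hu, hx, mul_one, mul_one] at this
  refine ⟨{ toFun := fun u u' => c * ofPow hF hf₁ u u'
            add_left' := fun x y z => by rw [add_left, mul_add]
            smul_left' := fun a x y => by rw [smul_left]; ring
            conj' := fun x y => by rw [star_mul', hc', HF.conj]
            nd' := fun v hv => (ofPow hF hf₁).nd fun x => by simpa [hc] using hv x },
    ofPow hF hf₂, h, E, fun u x u' x' => by rw [h1, ← mul_assoc], fun g => ?_, fun g =>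
      mem_frame_iff e P _ _ (fun g => g ∈ KG F _ _) mem_kronecker_tp g⟩
  rw [mem_GU_iff hF, mem_GU_comap _ E]

theorem tensor_maximal (n q : ℕ) (hF : Fintype.card F = q ^ 2) (a b : ℕ) (ha : 2 ≤ a) (hab : a < b)
    (hex : ¬ (a = 2 ∧ q = 2)) (e : Fin n ≃ Fin a × Fin b) (P : GL (Fin n) F)
    (f₁ : (Fin a → F) → (Fin a → F) → F) (f₂ : (Fin b → F) → (Fin b → F) → F)
    (hf₁ : Geo.IsUnitaryFormPow q f₁) (hf₂ : Geo.IsUnitaryFormPow q f₂)
    (hT : Geo.IsTensorFormStructure (fun x : F => x ^ q) (hermForm n F q) f₁ f₂ e P) :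
    Geo.IsMaximalIn (GU n F q ⊓ Geo.specialLinear (Fin n) F)
      (Geo.tensorProductSubgroup a b e P ⊓ (GU n F q ⊓ Geo.specialLinear (Fin n) F)) := by
  letI := powStar hF
  haveI := powStar_nstar hF
  obtain ⟨h₁, h₂, h, E, t, h1, h2⟩ := exists_tp hF (by omega) (by omega) e P f₁ f₂ hf₁ hf₂ hT
  refine isMaximalIn_of_core E h _ _ h1 (fun g => g ∈ KG F _ _) (fun g _ => h2 g) ?_
    fun M hM hH ⟨g, hg, hg'⟩ => ?_
  · obtain ⟨v, -, hv0, hv⟩ := exists_iso (h := h) (K := ⊤) (by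
      rw [finrank_top, Module.finrank_tensorProduct]; simp; nlinarith)
    exact ⟨_, T_mem_SU _ _, t.T_not_mem (by simpa) (by simp; omega) hv0 hv⟩
  · by_contra hne
    refine hg' (TC.core ⟨t, hM, hH, by simpa, by simpa, ?_, hne⟩ g hg)
    have := two_le_q hF
    by_cases hq : 3 ≤ q
    · exact Or.inl (exists_F0_ne hF hq)
    · right; simp only [finrank_fin_fun]; omega

end Bridge

end Cfsg.Agent.H5.U
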